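import Mathlib
import Cfsg.Prelude.Def_GeometricClasses
import Cfsg.Agent.H95.SLMax
import Cfsg.Agent.H95.Decomp

set_option autoImplicit false

/-!
Shared definitions for the S5634 project (decomposition stabiliser `GL_m(q) wr S_t` is maximal in
`SL_n(q)`): column-monomial matrices, the monomial group, elementary transvections, sections.
-/

namespace Cfsg.Agent.H17.Mn

open Cfsg Cfsg.Geo
open scoped MatrixGroups Matrix

variable {ι : Type} [Fintype ι] [DecidableEq ι] {F : Type*} [Field F]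

/-- Every column of `A` has at most one non-zero entry. -/
def IsMon (A : Matrix ι ι F) : Prop := ∀ j i i', A i j ≠ 0 → A i' j ≠ 0 → i = i'

lemma isMon_one : IsMon (1 : Matrix ι ι F) := by
  intro j i i' hi hi'
  rw [Matrix.one_apply] at hi hi'
  have h1 : i = j := by by_contra h; exact hi (if_neg h)
  have h2 : i' = j := by by_contra h; exact hi' (if_neg h)
  rw [h1, h2]

lemma IsMon.mul {A B : Matrix ι ι F} (hA : IsMon A) (hB : IsMon B) : IsMon (A * B) := by
  intro j i i' hi hi'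
  rw [Matrix.mul_apply] at hi hi'
  obtain ⟨l, -, hl⟩ := Finset.exists_ne_zero_of_sum_ne_zero hi
  obtain ⟨l', -, hl'⟩ := Finset.exists_ne_zero_of_sum_ne_zero hi'
  have h1 : A i l ≠ 0 := left_ne_zero_of_mul hl
  have h2 : B l j ≠ 0 := right_ne_zero_of_mul hl
  have h3 : A i' l' ≠ 0 := left_ne_zero_of_mul hl'
  have h4 : B l' j ≠ 0 := right_ne_zero_of_mul hl'
  have hll : l = l' := hB j l l' h2 h4
  subst hll
  exact hA l i i' h1 h3

/-- The monomial group: invertible matrices `g` such that `g` and `g⁻¹` are column-monomial. -/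
def mono (ι : Type) [Fintype ι] [DecidableEq ι] (F : Type*) [Field F] : Subgroup (GL ι F) where
  carrier := {g | IsMon (g : Matrix ι ι F) ∧ IsMon ((g⁻¹ : GL ι F) : Matrix ι ι F)}
  mul_mem' {a b} ha hb := by
    refine ⟨?_, ?_⟩
    · rw [Units.val_mul]; exact ha.1.mul hb.1
    · rw [mul_inv_rev, Units.val_mul]; exact hb.2.mul ha.2
  one_mem' := by
    refine ⟨?_, ?_⟩
    · rw [Units.val_one]; exact isMon_one
    · rw [inv_one, Units.val_one]; exact isMon_one
  inv_mem' {a} ha := ⟨ha.2, by rw [inv_inv]; exact ha.1⟩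

lemma mem_mono_iff (g : GL ι F) :
    g ∈ mono ι F ↔ IsMon (g : Matrix ι ι F) ∧ IsMon ((g⁻¹ : GL ι F) : Matrix ι ι F) := Iff.rfl

/-- The monomial matrices of determinant one. -/
def monoS (ι : Type) [Fintype ι] [DecidableEq ι] (F : Type*) [Field F] : Subgroup (GL ι F) :=
  mono ι F ⊓ specialLinear ι F

lemma mem_monoS_iff (g : GL ι F) :
    g ∈ monoS ι F ↔ g ∈ mono ι F ∧ g ∈ specialLinear ι F := Iff.rfl

/-- `g` is an elementary transvection `1 + c E_{ij}` (`i ≠ j`, `c ≠ 0`). -/
def IsElemTv (g : GL ι F) : Prop :=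
  ∃ i j : ι, i ≠ j ∧ ∃ c : F, c ≠ 0 ∧ (g : Matrix ι ι F) = Matrix.transvection i j c

/-- `s` is the section on the last `k` coordinates of an element of `M` whose column `0` is a
multiple of `e₀`. -/
def Lifts {k : ℕ} (M : Subgroup (GL (Fin (k + 1)) F)) (s : GL (Fin k) F) : Prop :=
  ∃ m ∈ M, (∀ i : Fin k, (m : Matrix (Fin (k + 1)) (Fin (k + 1)) F) i.succ 0 = 0) ∧
    ∀ i j : Fin k, (m : Matrix (Fin (k + 1)) (Fin (k + 1)) F) i.succ j.succ =
      (s : Matrix (Fin k) (Fin k) F) i j

/-- The linear form `χ` vanishes on every member of the decomposition other than `D j`. -/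
def SuppOn {t : ℕ} (D : Fin t → Submodule F (ι → F)) (j : Fin t) (χ : (ι → F) →ₗ[F] F) : Prop :=
  ∀ l, l ≠ j → ∀ v ∈ D l, χ v = 0

/-- `M` contains all transvections with centre in `D i` and linear form supported on `D j`. -/
def HasRoot {t : ℕ} (D : Fin t → Submodule F (ι → F)) (M : Subgroup (GL ι F)) (i j : Fin t) : Prop :=
  ∀ x ∈ D i, ∀ χ : (ι → F) →ₗ[F] F, SuppOn D j χ → ∀ h : χ x = 0, H95.tvGL x χ h ∈ M

end Cfsg.Agent.H17.Mn
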