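import Mathlib

set_option autoImplicit false

/-! Helper lemmas (helper17): squares in finite fields of odd characteristic. -/

namespace Cfsg.Agent.H17

variable {F : Type*} [Field F] [Finite F]

theorem ringChar_ne_two_of_two_ne_zero (h2 : (2 : F) ≠ 0) : ringChar F ≠ 2 := by
  intro h
  apply h2
  have := ringChar.Nat.cast_ringChar (R := F)
  rw [h] at this
  exact_mod_cast this

/-- In a finite field the product of two non-squares is a square. -/
theorem isSquare_mul_of_not_isSquare {a b : F} (ha : ¬ IsSquare a) (hb : ¬ IsSquare b) :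
    IsSquare (a * b) := by
  classical
  have := Fintype.ofFinite F
  have ha0 : a ≠ 0 := by rintro rfl; exact ha IsSquare.zero
  have hb0 : b ≠ 0 := by rintro rfl; exact hb IsSquare.zero
  have h1 : quadraticChar F a = -1 := quadraticChar_neg_one_iff_not_isSquare.mpr ha
  have h3 : quadraticChar F b = -1 := quadraticChar_neg_one_iff_not_isSquare.mpr hb
  have h4 : quadraticChar F (a * b) = 1 := by
    rw [map_mul, h1, h3]
    norm_num
  exact (quadraticChar_one_iff_isSquare (mul_ne_zero ha0 hb0)).mp h4

/-- In a finite field the quotient of two non-squares is a square. -/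
theorem isSquare_div_of_not_isSquare {a b : F} (ha : ¬ IsSquare a) (hb : ¬ IsSquare b) :
    IsSquare (a / b) := by
  have hb0 : b ≠ 0 := by rintro rfl; exact hb IsSquare.zero
  obtain ⟨s, hs⟩ := isSquare_mul_of_not_isSquare ha hb
  refine ⟨s / b, ?_⟩
  field_simp
  linear_combination hs

/-- A binary diagonal form over a finite field of odd characteristic is universal. -/
theorem exists_sq_sum_eq (h2 : (2 : F) ≠ 0) {a b : F} (ha : a ≠ 0) (hb : b ≠ 0) (c : F) :
    ∃ s t : F, a * s ^ 2 + b * t ^ 2 = c := by
  classical
  have := Fintype.ofFinite F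
  have hodd : Fintype.card F % 2 = 1 :=
    FiniteField.odd_card_of_char_ne_two (ringChar_ne_two_of_two_ne_zero h2)
  have hf : (Polynomial.C a * Polynomial.X ^ 2 : Polynomial F).degree = 2 :=
    Polynomial.degree_C_mul_X_pow 2 ha
  have hg : (Polynomial.C b * Polynomial.X ^ 2 - Polynomial.C c : Polynomial F).degree = 2 := by
    rw [Polynomial.degree_sub_C]
    · exact Polynomial.degree_C_mul_X_pow 2 hb
    · rw [Polynomial.degree_C_mul_X_pow 2 hb]
      norm_num
  obtain ⟨s, t, hst⟩ := FiniteField.exists_root_sum_quadratic hf hg hodd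
  refine ⟨s, t, ?_⟩
  simp only [Polynomial.eval_mul, Polynomial.eval_C, Polynomial.eval_pow, Polynomial.eval_X,
    Polynomial.eval_sub] at hst
  linear_combination hst

end Cfsg.Agent.H17
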