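import Mathlib
import Cfsg.Agent.H17.FiniteQuad

set_option autoImplicit false

/-! Helper lemmas (helper17): normal form of nondegenerate symmetric bilinear forms over
finite fields of odd characteristic. -/

namespace Cfsg.Agent.H17

universe u v

theorem symm_basis_aux {F : Type u} [Field F] [Finite F] (h2 : (2 : F) ≠ 0) (α : F)
    (hα : ¬ IsSquare α) :
    ∀ (n : ℕ) (V : Type v) [AddCommGroup V] [Module F V] [FiniteDimensional F V]
      (B : LinearMap.BilinForm F V), B.IsSymm → B.Nondegenerate → Module.finrank F V = n + 1 →
      ∃ b : Module.Basis (Fin (n + 1)) F V, (∀ i j, i ≠ j → B (b i) (b j) = 0) ∧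
        (∀ i, i ≠ Fin.last n → B (b i) (b i) = 1) ∧
        (B (b (Fin.last n)) (b (Fin.last n)) = 1 ∨ B (b (Fin.last n)) (b (Fin.last n)) = α) := by
  have : Invertible (2 : F) := invertibleOfNonzero h2
  intro n
  induction n with
  | zero =>
    intro V _ _ _ B hS hB hn
    have hsr : ∀ (a : F) (x y : V), B x (a • y) = a * B x y := by
      intro a x y
      rw [map_smul, smul_eq_mul]
    have hsl : ∀ (a : F) (x y : V), B (a • x) y = a * B x y := by
      intro a x y
      rw [map_smul, LinearMap.smul_apply, smul_eq_mul]
    obtain ⟨v0, hv0⟩ : ∃ v0 : V, B v0 v0 ≠ 0 := by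
      obtain ⟨w, hw⟩ := LinearMap.BilinForm.exists_orthogonal_basis
        (LinearMap.BilinForm.isSymm_iff.mp hS)
      have := LinearMap.BilinForm.iIsOrtho.not_isOrtho_basis_self_of_nondegenerate hw hB
        ⟨0, by omega⟩
      exact ⟨_, this⟩
    have hv00 : v0 ≠ 0 := by
      rintro rfl
      simp at hv0
    obtain ⟨v, hv, hvv⟩ : ∃ v : V, v ≠ 0 ∧ (B v v = 1 ∨ B v v = α) := by
      by_cases hsq : IsSquare (B v0 v0)
      · obtain ⟨s, hs⟩ := hsq
        have hs0 : s ≠ 0 := by
          rintro rfl
          simp at hs
          exact hv0 hs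
        refine ⟨s⁻¹ • v0, smul_ne_zero (inv_ne_zero hs0) hv00, Or.inl ?_⟩
        rw [hsl, hsr, hs]
        field_simp
      · obtain ⟨s, hs⟩ := isSquare_div_of_not_isSquare hsq hα
        have hα0 : α ≠ 0 := by rintro rfl; exact hα IsSquare.zero
        have hs0 : s ≠ 0 := by
          rintro rfl
          simp at hs
          rcases hs with hs | hs
          · exact hv0 hs
          · exact hα0 hs
        refine ⟨s⁻¹ • v0, smul_ne_zero (inv_ne_zero hs0) hv00, Or.inr ?_⟩
        rw [hsl, hsr]
        rw [div_eq_iff hα0] at hs
        rw [hs]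
        field_simp
    have hli : LinearIndependent F (fun _ : Fin 1 => v) := by
      rw [linearIndependent_unique_iff]
      exact hv
    refine ⟨basisOfLinearIndependentOfCardEqFinrank hli (by simp [hn]), ?_, ?_, ?_⟩
    · intro i j hij
      exact absurd (Fin.ext (by omega)) hij
    · intro i hi
      exact absurd (Fin.ext (by simp only [Fin.val_last]; omega)) hi
    · simpa using hvv
  | succ n ih =>
    intro V _ _ _ B hS hB hn
    have hsym : ∀ x y, B x y = B y x := fun x y => hS.eq x y
    have hsr : ∀ (a : F) (x y : V), B x (a • y) = a * B x y := by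
      intro a x y
      rw [map_smul, smul_eq_mul]
    have hsl : ∀ (a : F) (x y : V), B (a • x) y = a * B x y := by
      intro a x y
      rw [map_smul, LinearMap.smul_apply, smul_eq_mul]
    obtain ⟨v, hvv⟩ : ∃ v : V, B v v = 1 := by
      obtain ⟨w, hw⟩ := LinearMap.BilinForm.exists_orthogonal_basis
        (LinearMap.BilinForm.isSymm_iff.mp hS)
      have h0 := LinearMap.BilinForm.iIsOrtho.not_isOrtho_basis_self_of_nondegenerate hw hB
        ⟨0, by omega⟩
      have h1 := LinearMap.BilinForm.iIsOrtho.not_isOrtho_basis_self_of_nondegenerate hw hB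
        ⟨1, by omega⟩
      have h01 : B (w ⟨0, by omega⟩) (w ⟨1, by omega⟩) = 0 := by
        apply hw
        intro h
        simp [Fin.ext_iff] at h
      obtain ⟨s, t, hst⟩ := exists_sq_sum_eq h2 h0 h1 1
      refine ⟨s • w ⟨0, by omega⟩ + t • w ⟨1, by omega⟩, ?_⟩
      simp only [map_add, LinearMap.add_apply, hsl, hsr, h01, hsym (w ⟨1, by omega⟩) (w ⟨0, by omega⟩)]
      linear_combination hst
    obtain ⟨W, hWmem⟩ : ∃ W : Submodule F V, ∀ w, w ∈ W ↔ B v w = 0 :=
      ⟨LinearMap.ker (B v), fun w => LinearMap.mem_ker⟩
    have hproj : ∀ x : V, x - B v x • v ∈ W := by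
      intro x
      rw [hWmem, map_sub, hsr, hvv]
      simp
    have hWv : ∀ w ∈ W, B w v = 0 := by
      intro w hw
      rw [hsym w v, (hWmem w).mp hw]
    -- finrank of W
    have hfr : Module.finrank F W = n + 1 := by
      have hWker : W = LinearMap.ker (B v) := by
        ext w
        rw [hWmem, LinearMap.mem_ker]
      have h1 := LinearMap.finrank_range_add_finrank_ker (B v)
      have h2 : LinearMap.range (B v) = ⊤ := by
        rw [LinearMap.range_eq_top]
        intro c
        refine ⟨c • v, ?_⟩
        rw [hsr, hvv]
        simp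
      rw [h2, finrank_top, Module.finrank_self, hn, ← hWker] at h1
      omega
    -- the restricted form
    obtain ⟨B', hB'def⟩ : ∃ B' : LinearMap.BilinForm F W, B' = B.restrict W := ⟨_, rfl⟩
    have hB'app : ∀ x y : W, B' x y = B (x : V) (y : V) := fun x y => by rw [hB'def]; rfl
    have hS' : B'.IsSymm := ⟨fun x y => by rw [hB'app, hB'app]; exact hsym _ _⟩
    have hB'nd : B'.Nondegenerate := by
      have key : ∀ w : W, (∀ y : W, B' w y = 0) → w = 0 := by
        intro w hw
        apply Subtype.ext
        apply hB.1 (w : V)
        intro x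
        have h1 : x = (x - B v x • v) + B v x • v := by abel
        rw [h1, map_add, hsr, hWv w w.2]
        have := hw ⟨x - B v x • v, hproj x⟩
        rw [hB'app] at this
        simp only at this
        rw [this]
        simp
      constructor
      · exact key
      · intro w hw
        apply key
        intro y
        rw [hS'.eq]
        exact hw y
    obtain ⟨b', hb1, hb2, hb3⟩ := ih W B' hS' hB'nd hfr
    have hli : ∀ (c : F), ∀ x ∈ W, c • v + x = 0 → c = 0 := by
      intro c x hx h0
      have := congrArg (B v) h0
      rw [map_add, hsr, hvv, (hWmem x).mp hx] at this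
      simpa using this
    have hsp : ∀ z : V, ∃ c : F, z + c • v ∈ W := by
      intro z
      refine ⟨-(B v z), ?_⟩
      have := hproj z
      rwa [sub_eq_add_neg, ← neg_smul] at this
    refine ⟨Module.Basis.mkFinCons v b' hli hsp, ?_, ?_, ?_⟩
    · intro i j hij
      rw [Module.Basis.coe_mkFinCons]
      induction i using Fin.cases with
      | zero =>
        induction j using Fin.cases with
        | zero => exact absurd rfl hij
        | succ j =>
          simp only [Fin.cons_zero, Fin.cons_succ, Function.comp_apply]
          exact (hWmem _).mp (b' j).2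
      | succ i =>
        induction j using Fin.cases with
        | zero =>
          simp only [Fin.cons_zero, Fin.cons_succ, Function.comp_apply]
          exact hWv _ (b' i).2
        | succ j =>
          simp only [Fin.cons_succ, Function.comp_apply]
          have := hb1 i j (fun h => hij (by rw [h]))
          rwa [hB'app] at this
    · intro i hi
      rw [Module.Basis.coe_mkFinCons]
      induction i using Fin.cases with
      | zero => simpa using hvv
      | succ i =>
        simp only [Fin.cons_succ, Function.comp_apply]
        have := hb2 i (fun h => hi (by rw [h, Fin.succ_last]))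
        rwa [hB'app] at this
    · rw [Module.Basis.coe_mkFinCons, ← Fin.succ_last]
      simp only [Fin.cons_succ, Function.comp_apply]
      rw [hB'app] at hb3
      exact hb3

end Cfsg.Agent.H17
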