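import Cfsg.Agent.H17.MnBTV

set_option autoImplicit false

/-! Calculus of the transvections `H95.tvGL x χ h : v ↦ v + χ v • x` (shared by the S5634 block pieces). -/

namespace Cfsg.Agent.H17.Mn

open Cfsg Cfsg.Geo Cfsg.Agent.H17.Mn
open scoped MatrixGroups Matrix

variable {ι : Type} [Fintype ι] [DecidableEq ι] {F : Type*} [Field F]

lemma mulVec_mul (g h : GL ι F) (v : ι → F) :
    ((g * h : GL ι F) : Matrix ι ι F) *ᵥ v =
      (g : Matrix ι ι F) *ᵥ ((h : Matrix ι ι F) *ᵥ v) := by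
  rw [Units.val_mul, Matrix.mulVec_mulVec]

lemma inv_mulVec_mulVec (g : GL ι F) (v : ι → F) :
    ((g⁻¹ : GL ι F) : Matrix ι ι F) *ᵥ ((g : Matrix ι ι F) *ᵥ v) = v := by
  rw [Matrix.mulVec_mulVec, ← Units.val_mul, inv_mul_cancel, Units.val_one, Matrix.one_mulVec]

lemma mulVec_inv_mulVec (g : GL ι F) (v : ι → F) :
    (g : Matrix ι ι F) *ᵥ (((g⁻¹ : GL ι F) : Matrix ι ι F) *ᵥ v) = v := by
  rw [Matrix.mulVec_mulVec, ← Units.val_mul, mul_inv_cancel, Units.val_one, Matrix.one_mulVec]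

lemma tvGL_zero_left (χ : (ι → F) →ₗ[F] F) (h : χ 0 = 0) : H95.tvGL (0 : ι → F) χ h = 1 := by
  apply H95.gl_ext
  intro v
  rw [H95.tvGL_mulVec]
  simp

lemma tvGL_zero_right (x : ι → F) (h : (0 : (ι → F) →ₗ[F] F) x = 0) :
    H95.tvGL x (0 : (ι → F) →ₗ[F] F) h = 1 := by
  apply H95.gl_ext
  intro v
  rw [H95.tvGL_mulVec]
  simp

/-- Same centre: the linear forms add. -/
lemma tvGL_mul_form (x : ι → F) (χ χ' : (ι → F) →ₗ[F] F) (h : χ x = 0) (h' : χ' x = 0)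
    (h'' : (χ + χ') x = 0) :
    H95.tvGL x χ h * H95.tvGL x χ' h' = H95.tvGL x (χ + χ') h'' := by
  apply H95.gl_ext
  intro v
  rw [mulVec_mul, H95.tvGL_mulVec, H95.tvGL_mulVec, H95.tvGL_mulVec]
  simp only [map_add, map_smul, h, smul_eq_mul, mul_zero, add_zero, LinearMap.add_apply]
  rw [add_smul]
  abel

/-- Same linear form: the centres add. -/
lemma tvGL_mul_centre (x x' : ι → F) (χ : (ι → F) →ₗ[F] F) (h : χ x = 0) (h' : χ x' = 0)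
    (h'' : χ (x + x') = 0) :
    H95.tvGL x χ h * H95.tvGL x' χ h' = H95.tvGL (x + x') χ h'' := by
  apply H95.gl_ext
  intro v
  rw [mulVec_mul, H95.tvGL_mulVec, H95.tvGL_mulVec, H95.tvGL_mulVec]
  simp only [map_add, map_smul, h', smul_eq_mul, mul_zero, add_zero]
  rw [smul_add]
  abel

lemma tvGL_inv (x : ι → F) (χ : (ι → F) →ₗ[F] F) (h : χ x = 0) (h' : (-χ) x = 0) :
    (H95.tvGL x χ h)⁻¹ = H95.tvGL x (-χ) h' := by
  rw [inv_eq_iff_mul_eq_one]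
  have h0 : (χ + -χ) x = 0 := by simp
  rw [tvGL_mul_form x χ (-χ) h h' h0]
  apply H95.gl_ext
  intro v
  rw [H95.tvGL_mulVec]
  simp

/-- Scaling: `τ(c • x, χ) = τ(x, c • χ)`. -/
lemma tvGL_smul (c : F) (x : ι → F) (χ : (ι → F) →ₗ[F] F) (h : χ (c • x) = 0)
    (h' : (c • χ) x = 0) : H95.tvGL (c • x) χ h = H95.tvGL x (c • χ) h' := by
  apply H95.gl_ext
  intro v
  rw [H95.tvGL_mulVec, H95.tvGL_mulVec]
  simp only [LinearMap.smul_apply, smul_eq_mul]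
  rw [smul_smul, mul_comm]

/-- Conjugation. -/
lemma conj_tvGL (g : GL ι F) (x : ι → F) (χ : (ι → F) →ₗ[F] F) (h : χ x = 0)
    (h' : (χ ∘ₗ Matrix.toLin' ((g⁻¹ : GL ι F) : Matrix ι ι F)) ((g : Matrix ι ι F) *ᵥ x) = 0) :
    g * H95.tvGL x χ h * g⁻¹ =
      H95.tvGL ((g : Matrix ι ι F) *ᵥ x)
        (χ ∘ₗ Matrix.toLin' ((g⁻¹ : GL ι F) : Matrix ι ι F)) h' := by
  apply H95.gl_ext
  intro v
  rw [mulVec_mul, mulVec_mul, H95.tvGL_mulVec, H95.tvGL_mulVec, Matrix.mulVec_add,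
    Matrix.mulVec_smul, mulVec_inv_mulVec]
  simp [Matrix.toLin'_apply]

lemma conj_tvGL_aux (g : GL ι F) (x : ι → F) (χ : (ι → F) →ₗ[F] F) (h : χ x = 0) :
    (χ ∘ₗ Matrix.toLin' ((g⁻¹ : GL ι F) : Matrix ι ι F)) ((g : Matrix ι ι F) *ᵥ x) = 0 := by
  rw [LinearMap.comp_apply, Matrix.toLin'_apply, inv_mulVec_mulVec, h]

/-- Commutator: `[τ(x,φ), τ(y,ψ)] = τ(φ y • x, ψ)` when `ψ x = 0`. -/
lemma comm_tvGL (x y : ι → F) (φ ψ : (ι → F) →ₗ[F] F) (hφ : φ x = 0) (hψ : ψ y = 0)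
    (hψx : ψ x = 0) (h' : ψ (φ y • x) = 0) :
    H95.tvGL x φ hφ * H95.tvGL y ψ hψ * (H95.tvGL x φ hφ)⁻¹ * (H95.tvGL y ψ hψ)⁻¹ =
      H95.tvGL (φ y • x) ψ h' := by
  have e1 : (-φ) x = 0 := by simp [hφ]
  have e2 : (-ψ) y = 0 := by simp [hψ]
  rw [tvGL_inv x φ hφ e1, tvGL_inv y ψ hψ e2]
  apply H95.gl_ext
  intro v
  rw [mulVec_mul, mulVec_mul, mulVec_mul]
  have s1 : ((H95.tvGL y (-ψ) e2 : GL ι F) : Matrix ι ι F) *ᵥ v = v - ψ v • y := by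
    rw [H95.tvGL_mulVec]; simp [sub_eq_add_neg]
  have s2 : ((H95.tvGL x (-φ) e1 : GL ι F) : Matrix ι ι F) *ᵥ (v - ψ v • y) =
      v - ψ v • y - (φ v - ψ v * φ y) • x := by
    rw [H95.tvGL_mulVec]
    simp only [LinearMap.neg_apply, map_sub, map_smul, smul_eq_mul]
    rw [sub_eq_add_neg (v - ψ v • y), ← neg_smul]
    congr 2
    ring
  have s3 : ((H95.tvGL y ψ hψ : GL ι F) : Matrix ι ι F) *ᵥ
      (v - ψ v • y - (φ v - ψ v * φ y) • x) = v - (φ v - ψ v * φ y) • x := by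
    rw [H95.tvGL_mulVec]
    simp only [map_sub, map_smul, smul_eq_mul, hψ, hψx, mul_zero, sub_zero]
    abel
  have s4 : ((H95.tvGL x φ hφ : GL ι F) : Matrix ι ι F) *ᵥ
      (v - (φ v - ψ v * φ y) • x) = v + ψ v • φ y • x := by
    rw [H95.tvGL_mulVec]
    simp only [map_sub, map_smul, smul_eq_mul, hφ, mul_zero, sub_zero]
    rw [sub_smul, smul_smul]
    abel
  rw [s1, s2, s3, s4, H95.tvGL_mulVec]

/-- Commutator, the other way round: `[τ(y,ψ), τ(x,φ)] = τ(ψ x • y, φ)` when `φ y = 0`. -/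
lemma comm_tvGL' (x y : ι → F) (φ ψ : (ι → F) →ₗ[F] F) (hφ : φ x = 0) (hψ : ψ y = 0)
    (hφy : φ y = 0) (h' : φ (ψ x • y) = 0) :
    H95.tvGL y ψ hψ * H95.tvGL x φ hφ * (H95.tvGL y ψ hψ)⁻¹ * (H95.tvGL x φ hφ)⁻¹ =
      H95.tvGL (ψ x • y) φ h' :=
  comm_tvGL y x ψ φ hψ hφ hφy h'

end Cfsg.Agent.H17.Mn
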