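import Mathlib
import Cfsg.Prelude.Def_GeometricClasses
import Cfsg.Agent.H95.SLMax
import Cfsg.Agent.H17.MnTv

set_option autoImplicit false

/-!
Shared definitions for the S2140 project (minimal index of a proper subgroup of `PSL_n(q)`,
`n ≥ 3`): the space `Yc c` of linear forms vanishing at `c` (it parametrises the group of all
transvections `τ(c, φ) = H95.tvGL c φ _ : v ↦ v + φ v • c` with centre `c`), and lifts.
-/

namespace Cfsg.Agent.H17.Pm

open Cfsg Cfsg.Geo
open scoped MatrixGroups Matrix

variable {ι : Type} [Fintype ι] [DecidableEq ι] {F : Type*} [Field F]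

/-- The linear forms vanishing at `c`. -/
def Yc (c : ι → F) : Submodule F ((ι → F) →ₗ[F] F) where
  carrier := {φ | φ c = 0}
  add_mem' := by
    intro a b ha hb
    simp only [Set.mem_setOf_eq, LinearMap.add_apply] at *
    rw [ha, hb, add_zero]
  zero_mem' := by simp
  smul_mem' := by
    intro a b hb
    simp only [Set.mem_setOf_eq, LinearMap.smul_apply] at *
    rw [hb, smul_zero]

lemma mem_Yc (c : ι → F) (φ : (ι → F) →ₗ[F] F) : φ ∈ Yc c ↔ φ c = 0 := Iff.rfl

/-- `φ` is a lift of `g` (relative to the subgroup `H` and the centre `c`): `φ c = 0` and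
`τ(c, φ) * g ∈ H`. -/
def IsLift (H : Subgroup (GL ι F)) (c : ι → F) (g : GL ι F) (φ : (ι → F) →ₗ[F] F) : Prop :=
  ∃ h : φ c = 0, H95.tvGL c φ h * g ∈ H

end Cfsg.Agent.H17.Pm
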