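import Cfsg.Agent.H95.NDIrr

set_option autoImplicit false
set_option linter.unusedSectionVars false

/-! helper17: infrastructure for the maximality of decomposition stabilisers in `Ω(Q)`
(odd characteristic): general Eichler elements, block subgroups, geometry of a
non-degenerate subspace. -/

namespace Cfsg.Agent.H17.Dc

open Module Matrix Cfsg.Agent.H49 Cfsg.Agent.H95

section
variable {ι : Type} [Fintype ι] [DecidableEq ι] {F : Type*} [Field F]

/-! ### Eichler maps -/

theorem eich_zero_dir (Q : QuadraticForm F (ι → F)) (u x : ι → F) : eich Q u 0 x = x := by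
  unfold eich
  simp

theorem eich_smul_center (Q : QuadraticForm F (ι → F)) (u y x : ι → F) (c : F) :
    eich Q (c • u) y x = eich Q u (c • y) x := by
  unfold eich
  simp only [QuadraticMap.polar_smul_left, QuadraticMap.map_smul, smul_eq_mul]
  module

theorem act_eich (Q : QuadraticForm F (ι → F)) (g : ↥(Cfsg.isometryGroup F (⇑Q)))
    (u y x : ι → F) :
    act g (eich Q u y x) = eich Q (act g u) (act g y) (act g x) := by
  unfold eich
  rw [act_sub, act_sub, act_add, act_smul, act_smul, act_smul, polar_act, polar_act, Q_act]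

theorem eich_fix (Q : QuadraticForm F (ι → F)) (u y x : ι → F)
    (h1 : QuadraticMap.polar (⇑Q) u x = 0) (h2 : QuadraticMap.polar (⇑Q) y x = 0) :
    eich Q u y x = x := by
  unfold eich
  rw [h1, h2]
  simp

theorem eich_apply (Q : QuadraticForm F (ι → F)) (u y x : ι → F) :
    eich Q u y x = x + QuadraticMap.polar (⇑Q) u x • y
      - (QuadraticMap.polar (⇑Q) y x + Q y * QuadraticMap.polar (⇑Q) u x) • u := by
  unfold eich
  module

/-- The general Eichler element `E(u, y)` (`u` singular, `y ⟂ u`) as an isometry. -/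
noncomputable def eG (Q : QuadraticForm F (ι → F)) (u y : ι → F) :
    ↥(Cfsg.isometryGroup F (⇑Q)) := by
  classical
  exact if h : Q u = 0 ∧ QuadraticMap.polar (⇑Q) u y = 0 then
    (if hy : Q y = 0 then siegelG Q u y h.1 hy h.2 1
     else reflG Q (-(Q y)⁻¹ • y) * reflG Q (-(Q y)⁻¹ • y - u))
  else 1

theorem act_eG (Q : QuadraticForm F (ι → F)) (u y : ι → F) (hu : Q u = 0)
    (huy : QuadraticMap.polar (⇑Q) u y = 0) (x : ι → F) :
    act (eG Q u y) x = eich Q u y x := by
  classical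
  unfold eG
  rw [dif_pos ⟨hu, huy⟩]
  by_cases hy : Q y = 0
  · rw [dif_pos hy, act_siegelG]
    unfold eich
    rw [hy]
    module
  · rw [dif_neg hy]
    have hQx : Q (-(Q y)⁻¹ • y) = (Q y)⁻¹ := by
      rw [QuadraticMap.map_smul, smul_eq_mul]
      field_simp
    have hx0 : Q (-(Q y)⁻¹ • y) ≠ 0 := by rw [hQx]; exact inv_ne_zero hy
    have hxu : QuadraticMap.polar (⇑Q) (-(Q y)⁻¹ • y) u = 0 := by
      rw [QuadraticMap.polar_smul_left, QuadraticMap.polar_comm, huy, smul_zero]
    rw [act_refl_pair Q _ u hx0 hu hxu, hQx, inv_inv]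
    unfold eich
    simp only [QuadraticMap.polar_smul_left, smul_eq_mul]
    funext k
    simp only [Pi.add_apply, Pi.sub_apply, Pi.smul_apply, smul_eq_mul]
    field_simp
    ring

theorem eG_mem_commutator [Fintype F] (Q : QuadraticForm F (ι → F))
    (hQ : (QuadraticMap.polarBilin Q).Nondegenerate) (h3 : HasTS3 Q) (u y : ι → F)
    (hu : Q u = 0) (huy : QuadraticMap.polar (⇑Q) u y = 0) :
    eG Q u y ∈ commutator ↥(Cfsg.isometryGroup F (⇑Q)) := by
  classical
  unfold eG
  rw [dif_pos ⟨hu, huy⟩]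
  by_cases hy : Q y = 0
  · rw [dif_pos hy]
    exact siegelG_mem_commutator Q hQ h3 u y hu hy huy 1
  · rw [dif_neg hy, commutator_eq_closure_siegelSet Q hQ h3]
    have hQx : Q (-(Q y)⁻¹ • y) = (Q y)⁻¹ := by
      rw [QuadraticMap.map_smul, smul_eq_mul]
      field_simp
    have hx0 : Q (-(Q y)⁻¹ • y) ≠ 0 := by rw [hQx]; exact inv_ne_zero hy
    have hxu : QuadraticMap.polar (⇑Q) (-(Q y)⁻¹ • y) u = 0 := by
      rw [QuadraticMap.polar_smul_left, QuadraticMap.polar_comm, huy, smul_zero]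
    exact refl_pair_mem_of_singular Q hQ h3 _ u hx0 hu hxu

/-! ### Block subgroups -/

/-- The elements of `Ω` fixing `X^⊥` pointwise. -/
def KX (Q : QuadraticForm F (ι → F)) (X : Submodule F (ι → F)) :
    Subgroup ↥(Cfsg.isometryGroup F (⇑Q)) where
  carrier := {g | g ∈ commutator ↥(Cfsg.isometryGroup F (⇑Q)) ∧
    ∀ y : ι → F, (∀ a ∈ X, QuadraticMap.polar (⇑Q) a y = 0) → act g y = y}
  mul_mem' := fun {a b} ha hb =>
    ⟨mul_mem ha.1 hb.1, fun y hy => by rw [act_mul, hb.2 y hy, ha.2 y hy]⟩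
  one_mem' := ⟨one_mem _, fun y _ => act_one y⟩
  inv_mem' := fun {a} ha => ⟨inv_mem ha.1, fun y hy => by
    have := ha.2 y hy
    conv_lhs => rw [← this]
    rw [act_inv_act]⟩

theorem mem_KX (Q : QuadraticForm F (ι → F)) (X : Submodule F (ι → F))
    (g : ↥(Cfsg.isometryGroup F (⇑Q))) :
    g ∈ KX Q X ↔ g ∈ commutator ↥(Cfsg.isometryGroup F (⇑Q)) ∧
      ∀ y : ι → F, (∀ a ∈ X, QuadraticMap.polar (⇑Q) a y = 0) → act g y = y := Iff.rfl

theorem eG_mem_KX [Fintype F] (Q : QuadraticForm F (ι → F))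
    (hQ : (QuadraticMap.polarBilin Q).Nondegenerate) (h3 : HasTS3 Q)
    (X : Submodule F (ι → F)) (u y : ι → F) (huX : u ∈ X) (hyX : y ∈ X)
    (hu : Q u = 0) (huy : QuadraticMap.polar (⇑Q) u y = 0) : eG Q u y ∈ KX Q X := by
  refine ⟨eG_mem_commutator Q hQ h3 u y hu huy, fun z hz => ?_⟩
  rw [act_eG Q u y hu huy]
  exact eich_fix Q u y z (hz u huX) (hz y hyX)

theorem rot_mem_KX (Q : QuadraticForm F (ι → F)) (h2 : (2 : F) ≠ 0)
    (X : Submodule F (ι → F)) (a b : ι → F) (haX : a ∈ X) (hbX : b ∈ X)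
    (ha : Q a ≠ 0) (hb : Q b ≠ 0) (hsq : IsSquare (Q a * Q b)) :
    reflG Q a * reflG Q b ∈ KX Q X := by
  refine ⟨reflG_mul_reflG_mem_commutator Q h2 a b ha hb hsq, fun z hz => ?_⟩
  have hb' : act (reflG Q b) z = z := by
    rw [act_reflG, hz b hbX, mul_zero, zero_smul, sub_zero]
  rw [act_mul, hb', act_reflG, hz a haX, mul_zero, zero_smul, sub_zero]

/-- The image of a subspace under an isometry. -/
def img (Q : QuadraticForm F (ι → F)) (g : ↥(Cfsg.isometryGroup F (⇑Q)))
    (X : Submodule F (ι → F)) : Submodule F (ι → F) :=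
  X.map (Matrix.toLin' ((g : Matrix.GeneralLinearGroup ι F) : Matrix ι ι F))

theorem mem_img (Q : QuadraticForm F (ι → F)) (g : ↥(Cfsg.isometryGroup F (⇑Q)))
    (X : Submodule F (ι → F)) (y : ι → F) : y ∈ img Q g X ↔ ∃ x ∈ X, act g x = y := by
  unfold img
  rw [Submodule.mem_map]
  simp only [Matrix.toLin'_apply]
  rfl

theorem act_mem_img (Q : QuadraticForm F (ι → F)) (g : ↥(Cfsg.isometryGroup F (⇑Q)))
    (X : Submodule F (ι → F)) {x : ι → F} (hx : x ∈ X) : act g x ∈ img Q g X :=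
  (mem_img Q g X _).mpr ⟨x, hx, rfl⟩

theorem mem_img' (Q : QuadraticForm F (ι → F)) (g : ↥(Cfsg.isometryGroup F (⇑Q)))
    (X : Submodule F (ι → F)) (y : ι → F) : y ∈ img Q g X ↔ act g⁻¹ y ∈ X := by
  rw [mem_img]
  constructor
  · rintro ⟨x, hx, rfl⟩
    rw [act_inv_act]; exact hx
  · intro h
    exact ⟨_, h, act_act_inv g y⟩

theorem finrank_img (Q : QuadraticForm F (ι → F)) (g : ↥(Cfsg.isometryGroup F (⇑Q)))
    (X : Submodule F (ι → F)) : finrank F ↥(img Q g X) = finrank F ↥X := by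
  unfold img
  have hinj : Function.Injective
      (Matrix.toLin' ((g : Matrix.GeneralLinearGroup ι F) : Matrix ι ι F)) := by
    intro v w hvw
    simp only [Matrix.toLin'_apply] at hvw
    exact act_injective g hvw
  exact (LinearEquiv.finrank_eq (Submodule.equivMapOfInjective _ hinj X)).symm

theorem img_nd (Q : QuadraticForm F (ι → F)) (g : ↥(Cfsg.isometryGroup F (⇑Q)))
    (X : Submodule F (ι → F))
    (hX : X ⊓ LinearMap.BilinForm.orthogonal (QuadraticMap.polarBilin Q) X = ⊥) :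
    img Q g X ⊓ LinearMap.BilinForm.orthogonal (QuadraticMap.polarBilin Q) (img Q g X) = ⊥ := by
  rw [eq_bot_iff]
  rintro z ⟨hz1, hz2⟩
  rw [Submodule.mem_bot]
  have h1 : act g⁻¹ z ∈ X := (mem_img' Q g X z).mp hz1
  have h2 : act g⁻¹ z ∈ LinearMap.BilinForm.orthogonal (QuadraticMap.polarBilin Q) X := by
    rw [LinearMap.BilinForm.mem_orthogonal_iff]
    intro a ha
    have := (LinearMap.BilinForm.mem_orthogonal_iff.mp hz2) (act g a) (act_mem_img Q g X ha)
    show QuadraticMap.polar (⇑Q) a (act g⁻¹ z) = 0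
    rw [← polar_act Q g, act_act_inv]
    exact this
  have h3 : act g⁻¹ z ∈ X ⊓ LinearMap.BilinForm.orthogonal (QuadraticMap.polarBilin Q) X :=
    ⟨h1, h2⟩
  rw [hX, Submodule.mem_bot] at h3
  have := congrArg (act g) h3
  rwa [act_act_inv, act_zero] at this

theorem KX_img_le (Q : QuadraticForm F (ι → F)) (M : Subgroup ↥(Cfsg.isometryGroup F (⇑Q)))
    (g : ↥(Cfsg.isometryGroup F (⇑Q))) (hg : g ∈ M) (X : Submodule F (ι → F))
    (hK : KX Q X ≤ M) : KX Q (img Q g X) ≤ M := by
  intro h hh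
  have h1 : g⁻¹ * h * g ∈ KX Q X := by
    refine ⟨?_, fun y hy => ?_⟩
    · have := (inferInstance : (commutator ↥(Cfsg.isometryGroup F (⇑Q))).Normal).conj_mem h hh.1 g⁻¹
      simpa using this
    · rw [act_mul, act_mul]
      have h2 : act h (act g y) = act g y := by
        apply hh.2
        intro a ha
        obtain ⟨x, hx, rfl⟩ := (mem_img Q g X a).mp ha
        rw [polar_act]
        exact hy x hx
      rw [h2, act_inv_act]
  have h3 := M.mul_mem (M.mul_mem hg (hK h1)) (M.inv_mem hg)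
  have e : g * (g⁻¹ * h * g) * g⁻¹ = h := by group
  rwa [e] at h3

end

end Cfsg.Agent.H17.Dc
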