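import Cfsg.Agent.H17.DcA

set_option autoImplicit false
set_option linter.unusedSectionVars false

/-! helper17: geometry of a non-degenerate subspace, irreducibility, Eichler directions. -/

namespace Cfsg.Agent.H17.Dc

open Module Matrix Cfsg.Agent.H49 Cfsg.Agent.H95

section
variable {ι : Type} [Fintype ι] [DecidableEq ι] {F : Type*} [Field F]

theorem exists_sing [Finite F] (Q : QuadraticForm F (ι → F)) (X : Submodule F (ι → F))
    (h3 : 3 ≤ finrank F X) : ∃ s ∈ X, s ≠ 0 ∧ Q s = 0 := by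
  obtain ⟨⟨c, hc⟩, hne, hQc⟩ := exists_singular_of_three_le (Q.comp X.subtype) h3
  exact ⟨c, hc, fun h => hne (Subtype.ext h), hQc⟩

theorem exists_partner_in (Q : QuadraticForm F (ι → F)) (X : Submodule F (ι → F))
    (hX : X ⊓ LinearMap.BilinForm.orthogonal (QuadraticMap.polarBilin Q) X = ⊥)
    (s : ι → F) (hsX : s ∈ X) (hs0 : s ≠ 0) (hs : Q s = 0) :
    ∃ s₁ ∈ X, Q s₁ = 0 ∧ QuadraticMap.polar (⇑Q) s s₁ = 1 := by
  obtain ⟨y, hy, hys⟩ := exists_polar_ne_of_inf_orth Q X hX s hsX hs0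
  obtain ⟨x, hxd⟩ : ∃ x, x = (QuadraticMap.polar (⇑Q) y s)⁻¹ • y := ⟨_, rfl⟩
  have hxX : x ∈ X := by rw [hxd]; exact X.smul_mem _ hy
  have hxs : QuadraticMap.polar (⇑Q) s x = 1 := by
    rw [hxd, QuadraticMap.polar_smul_right, smul_eq_mul, QuadraticMap.polar_comm (⇑Q) s y,
      inv_mul_cancel₀ hys]
  refine ⟨x - Q x • s, X.sub_mem hxX (X.smul_mem _ hsX), ?_, ?_⟩
  · rw [Q_sub_smul, hs, hxs]; ring
  · rw [QuadraticMap.polar_sub_right, QuadraticMap.polar_smul_right, polar_self', hs, hxs]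
    simp

theorem exists_nonsing_perp (Q : QuadraticForm F (ι → F))
    (hQ : (QuadraticMap.polarBilin Q).Nondegenerate) (X : Submodule F (ι → F))
    (hX : X ⊓ LinearMap.BilinForm.orthogonal (QuadraticMap.polarBilin Q) X = ⊥)
    (h3 : 3 ≤ finrank F X) (s s₁ : ι → F) (hsX : s ∈ X) (hs₁X : s₁ ∈ X) (hs : Q s = 0)
    (hs₁ : Q s₁ = 0) (hss : QuadraticMap.polar (⇑Q) s s₁ = 1) :
    ∃ a ∈ X, QuadraticMap.polar (⇑Q) s a = 0 ∧ QuadraticMap.polar (⇑Q) s₁ a = 0 ∧ Q a ≠ 0 := by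
  have h1 := finrank_le_inf_orth Q hQ X (Submodule.span F {s, s₁})
  have h2 := finrank_span_pair_le (F := F) s s₁
  have hne : (X ⊓ LinearMap.BilinForm.orthogonal (QuadraticMap.polarBilin Q)
      (Submodule.span F {s, s₁}) : Submodule F (ι → F)) ≠ ⊥ := by
    intro hb
    rw [hb, finrank_bot] at h1
    omega
  obtain ⟨y, hy, hy0⟩ := Submodule.exists_mem_ne_zero_of_ne_bot hne
  obtain ⟨hyX, hyO⟩ := Submodule.mem_inf.mp hy
  have hsy : QuadraticMap.polar (⇑Q) s y = 0 :=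
    (LinearMap.BilinForm.mem_orthogonal_iff.mp hyO) s (Submodule.subset_span (by simp))
  have hs₁y : QuadraticMap.polar (⇑Q) s₁ y = 0 :=
    (LinearMap.BilinForm.mem_orthogonal_iff.mp hyO) s₁ (Submodule.subset_span (by simp))
  obtain ⟨x, hxX, hxy⟩ := exists_polar_ne_of_inf_orth Q X hX y hyX hy0
  have hs₁s : QuadraticMap.polar (⇑Q) s₁ s = 1 := by rw [QuadraticMap.polar_comm]; exact hss
  have hsself : QuadraticMap.polar (⇑Q) s s = 0 := by rw [polar_self', hs, mul_zero]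
  have hs₁self : QuadraticMap.polar (⇑Q) s₁ s₁ = 0 := by rw [polar_self', hs₁, mul_zero]
  obtain ⟨x', hx'd⟩ : ∃ x', x' = x - QuadraticMap.polar (⇑Q) s₁ x • s
      - QuadraticMap.polar (⇑Q) s x • s₁ := ⟨_, rfl⟩
  have hx'X : x' ∈ X := by
    rw [hx'd]; exact X.sub_mem (X.sub_mem hxX (X.smul_mem _ hsX)) (X.smul_mem _ hs₁X)
  have hsx' : QuadraticMap.polar (⇑Q) s x' = 0 := by
    rw [hx'd, QuadraticMap.polar_sub_right, QuadraticMap.polar_sub_right,
      QuadraticMap.polar_smul_right, QuadraticMap.polar_smul_right, hsself, hss]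
    simp
  have hs₁x' : QuadraticMap.polar (⇑Q) s₁ x' = 0 := by
    rw [hx'd, QuadraticMap.polar_sub_right, QuadraticMap.polar_sub_right,
      QuadraticMap.polar_smul_right, QuadraticMap.polar_smul_right, hs₁self, hs₁s]
    simp
  have hx'y : QuadraticMap.polar (⇑Q) x' y ≠ 0 := by
    rw [hx'd, QuadraticMap.polar_sub_left, QuadraticMap.polar_sub_left,
      QuadraticMap.polar_smul_left, QuadraticMap.polar_smul_left, hsy, hs₁y]
    simpa using hxy
  by_cases hQy : Q y = 0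
  · by_cases hQx' : Q x' = 0
    · refine ⟨x' + y, X.add_mem hx'X hyX, ?_, ?_, ?_⟩
      · rw [QuadraticMap.polar_add_right, hsx', hsy, add_zero]
      · rw [QuadraticMap.polar_add_right, hs₁x', hs₁y, add_zero]
      · rw [Q_add', hQx', hQy, zero_add, zero_add]; exact hx'y
    · exact ⟨x', hx'X, hsx', hs₁x', hQx'⟩
  · exact ⟨y, hyX, hsy, hs₁y, hQy⟩

theorem exists_sing_not_perp [Finite F] (Q : QuadraticForm F (ι → F))
    (X : Submodule F (ι → F))
    (hX : X ⊓ LinearMap.BilinForm.orthogonal (QuadraticMap.polarBilin Q) X = ⊥)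
    (h3 : 3 ≤ finrank F X) (z : ι → F) (hz : ∃ x ∈ X, QuadraticMap.polar (⇑Q) x z ≠ 0) :
    ∃ s ∈ X, Q s = 0 ∧ QuadraticMap.polar (⇑Q) s z ≠ 0 := by
  obtain ⟨s₀, hs₀X, hs₀0, hs₀⟩ := exists_sing Q X h3
  obtain ⟨s₁, hs₁X, hs₁, hss⟩ := exists_partner_in Q X hX s₀ hs₀X hs₀0 hs₀
  obtain ⟨x, hxX, hxz⟩ := hz
  by_contra hcon
  push Not at hcon
  apply hxz
  have hspan := mem_span_singular Q X s₀ s₁ hs₀X hs₁X hs₀ hs₁ hss x hxX
  have hall : ∀ v ∈ Submodule.span F {s : ι → F | s ∈ X ∧ Q s = 0},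
      QuadraticMap.polar (⇑Q) v z = 0 := by
    intro v hv
    induction hv using Submodule.span_induction with
    | mem v hv => exact hcon v hv.1 hv.2
    | zero => exact QuadraticMap.polar_zero_left _ _
    | add a b _ _ ha hb => rw [QuadraticMap.polar_add_left, ha, hb, add_zero]
    | smul c a _ ha => rw [QuadraticMap.polar_smul_left, ha, smul_zero]
  exact hall x hspan

/-- Irreducibility of the Eichler elements of a non-degenerate subspace of dimension `≥ 3`. -/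
theorem irr [Finite F] (Q : QuadraticForm F (ι → F))
    (hQ : (QuadraticMap.polarBilin Q).Nondegenerate) (h2 : (2 : F) ≠ 0)
    (X : Submodule F (ι → F))
    (hX : X ⊓ LinearMap.BilinForm.orthogonal (QuadraticMap.polarBilin Q) X = ⊥)
    (h3 : 3 ≤ finrank F X) (W : Submodule F (ι → F))
    (hW : ∀ s ∈ X, Q s = 0 → ∀ y ∈ X, QuadraticMap.polar (⇑Q) s y = 0 →
      ∀ w ∈ W, eich Q s y w ∈ W)
    (hne : ∃ w ∈ W, ∃ x ∈ X, QuadraticMap.polar (⇑Q) x w ≠ 0) : X ≤ W := by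
  obtain ⟨w, hwW, hx⟩ := hne
  obtain ⟨s, hsX, hs, hsw⟩ := exists_sing_not_perp Q X hX h3 w hx
  have hs0 : s ≠ 0 := by
    rintro rfl
    exact hsw (QuadraticMap.polar_zero_left _ _)
  obtain ⟨s₁, hs₁X, hs₁, hss⟩ := exists_partner_in Q X hX s hsX hs0 hs
  obtain ⟨a, haX, hsa, hs₁a, hQa⟩ := exists_nonsing_perp Q hQ X hX h3 s s₁ hsX hs₁X hs hs₁ hss
  have hs₁s : QuadraticMap.polar (⇑Q) s₁ s = 1 := by rw [QuadraticMap.polar_comm]; exact hss
  -- generic step: from `w ∈ W` with `polar p w ≠ 0` (`p` singular in `X`, `a ⟂ p`), `p ∈ W`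
  have step : ∀ p ∈ X, Q p = 0 → QuadraticMap.polar (⇑Q) p a = 0 → ∀ v ∈ W,
      QuadraticMap.polar (⇑Q) p v ≠ 0 → p ∈ W := by
    intro p hpX hp hpa v hvW hpv
    have h1 := hW p hpX hp a haX hpa v hvW
    have h2' := hW p hpX hp (-a) (X.neg_mem haX)
      (by rw [QuadraticMap.polar_neg_right, hpa, neg_zero]) v hvW
    have h3' : eich Q p a v + eich Q p (-a) v - (2 : F) • v ∈ W :=
      W.sub_mem (W.add_mem h1 h2') (W.smul_mem _ hvW)
    have e : eich Q p a v + eich Q p (-a) v - (2 : F) • v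
        = (-(2 * Q a * QuadraticMap.polar (⇑Q) p v)) • p := by
      unfold eich
      rw [QuadraticMap.map_neg, QuadraticMap.polar_neg_left]
      module
    rw [e] at h3'
    have hc : -(2 * Q a * QuadraticMap.polar (⇑Q) p v) ≠ 0 :=
      neg_ne_zero.mpr (mul_ne_zero (mul_ne_zero h2 hQa) hpv)
    have := W.smul_mem (-(2 * Q a * QuadraticMap.polar (⇑Q) p v))⁻¹ h3'
    rwa [smul_smul, inv_mul_cancel₀ hc, one_smul] at this
  have hsW : s ∈ W := step s hsX hs hsa w hwW hsw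
  have hs₁W : s₁ ∈ W := step s₁ hs₁X hs₁ hs₁a s hsW (by rw [hs₁s]; exact one_ne_zero)
  -- everything in `X ∩ s^⊥` is in `W`
  have hperp : ∀ y ∈ X, QuadraticMap.polar (⇑Q) s y = 0 → y ∈ W := by
    intro y hyX hsy
    have h1 := hW s hsX hs y hyX hsy w hwW
    have e : eich Q s y w = w + QuadraticMap.polar (⇑Q) s w • y
        - (QuadraticMap.polar (⇑Q) y w + Q y * QuadraticMap.polar (⇑Q) s w) • s :=
      eich_apply Q s y w
    have h4 : QuadraticMap.polar (⇑Q) s w • y ∈ W := by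
      have : QuadraticMap.polar (⇑Q) s w • y = eich Q s y w - w
          + (QuadraticMap.polar (⇑Q) y w + Q y * QuadraticMap.polar (⇑Q) s w) • s := by
        rw [e]; module
      rw [this]
      exact W.add_mem (W.sub_mem h1 hwW) (W.smul_mem _ hsW)
    have := W.smul_mem (QuadraticMap.polar (⇑Q) s w)⁻¹ h4
    rwa [smul_smul, inv_mul_cancel₀ hsw, one_smul] at this
  intro x hxX
  have e : x = (x - QuadraticMap.polar (⇑Q) s x • s₁) + QuadraticMap.polar (⇑Q) s x • s₁ := by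
    module
  rw [e]
  refine W.add_mem (hperp _ (X.sub_mem hxX (X.smul_mem _ hs₁X)) ?_) (W.smul_mem _ hs₁W)
  rw [QuadraticMap.polar_sub_right, QuadraticMap.polar_smul_right, hss]
  simp

/-! ### Single Eichler elements in a subgroup -/

/-- The Eichler element `E(u, y)` is realised in `M`. -/
def Dir1 (Q : QuadraticForm F (ι → F)) (M : Subgroup ↥(Cfsg.isometryGroup F (⇑Q)))
    (u y : ι → F) : Prop :=
  QuadraticMap.polar (⇑Q) u y = 0 ∧ ∃ g ∈ M, ∀ x, act g x = eich Q u y x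

theorem dir1_zero (Q : QuadraticForm F (ι → F)) (M : Subgroup ↥(Cfsg.isometryGroup F (⇑Q)))
    (u : ι → F) : Dir1 Q M u 0 :=
  ⟨QuadraticMap.polar_zero_right _ _, 1, M.one_mem, fun x => by rw [act_one, eich_zero_dir]⟩

theorem dir1_add (Q : QuadraticForm F (ι → F)) (M : Subgroup ↥(Cfsg.isometryGroup F (⇑Q)))
    (u y₁ y₂ : ι → F) (hu : Q u = 0) (h1 : Dir1 Q M u y₁) (h2 : Dir1 Q M u y₂) :
    Dir1 Q M u (y₁ + y₂) := by
  obtain ⟨p1, g1, hg1, e1⟩ := h1
  obtain ⟨p2, g2, hg2, e2⟩ := h2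
  refine ⟨by rw [QuadraticMap.polar_add_right, p1, p2, add_zero], g1 * g2, M.mul_mem hg1 hg2,
    fun x => ?_⟩
  rw [act_mul, e2, e1, eich_comp Q u y₁ y₂ x hu p1 p2]

theorem dir1_neg (Q : QuadraticForm F (ι → F)) (M : Subgroup ↥(Cfsg.isometryGroup F (⇑Q)))
    (u y : ι → F) (hu : Q u = 0) (h : Dir1 Q M u y) : Dir1 Q M u (-y) := by
  obtain ⟨p, g, hg, e⟩ := h
  have p' : QuadraticMap.polar (⇑Q) u (-y) = 0 := by
    rw [QuadraticMap.polar_neg_right, p, neg_zero]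
  refine ⟨p', g⁻¹, M.inv_mem hg, fun x => ?_⟩
  have h1 : act g (eich Q u (-y) x) = x := by
    rw [e, eich_comp Q u y (-y) x hu p p', add_neg_cancel, eich_zero_dir]
  have := congrArg (act g⁻¹) h1
  rw [act_inv_act] at this
  exact this.symm

theorem dir1_conj (Q : QuadraticForm F (ι → F)) (M : Subgroup ↥(Cfsg.isometryGroup F (⇑Q)))
    (u y : ι → F) {m : ↥(Cfsg.isometryGroup F (⇑Q))} (hm : m ∈ M) (h : Dir1 Q M u y) :
    Dir1 Q M (act m u) (act m y) := by
  obtain ⟨p, g, hg, e⟩ := h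
  refine ⟨by rw [polar_act]; exact p, m * g * m⁻¹, M.mul_mem (M.mul_mem hm hg) (M.inv_mem hm),
    fun x => ?_⟩
  rw [act_mul, act_mul, e, act_eich, act_act_inv]

theorem eichDir_iff (Q : QuadraticForm F (ι → F)) (M : Subgroup ↥(Cfsg.isometryGroup F (⇑Q)))
    (u y : ι → F) : eichDir Q M u y ↔ ∀ c : F, Dir1 Q M u (c • y) := by
  constructor
  · rintro ⟨p, h⟩ c
    exact ⟨by rw [QuadraticMap.polar_smul_right, p, smul_zero], h c⟩
  · intro h
    refine ⟨?_, fun c => (h c).2⟩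
    have := (h 1).1
    rwa [one_smul] at this

theorem dir1_of_eichDir (Q : QuadraticForm F (ι → F))
    (M : Subgroup ↥(Cfsg.isometryGroup F (⇑Q))) (u y : ι → F) (h : eichDir Q M u y) :
    Dir1 Q M u y := by
  have := (eichDir_iff Q M u y).mp h 1
  rwa [one_smul] at this

/-- Scaling: one mixed Eichler element at a singular point of a block gives a full direction. -/
theorem eichDir_of_dir1 (Q : QuadraticForm F (ι → F)) (h2 : (2 : F) ≠ 0)
    (M : Subgroup ↥(Cfsg.isometryGroup F (⇑Q))) (X : Submodule F (ι → F))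
    (hK : KX Q X ≤ M) (s s₁ w : ι → F) (hsX : s ∈ X) (hs₁X : s₁ ∈ X) (hs : Q s = 0)
    (hs₁ : Q s₁ = 0) (hss : QuadraticMap.polar (⇑Q) s s₁ = 1)
    (hws : QuadraticMap.polar (⇑Q) s w = 0) (hws₁ : QuadraticMap.polar (⇑Q) s₁ w = 0)
    (h : Dir1 Q M s w) : eichDir Q M s w := by
  have hs₁s : QuadraticMap.polar (⇑Q) s₁ s = 1 := by rw [QuadraticMap.polar_comm]; exact hss
  have hsself : QuadraticMap.polar (⇑Q) s s = 0 := by rw [polar_self', hs, mul_zero]
  have hs₁self : QuadraticMap.polar (⇑Q) s₁ s₁ = 0 := by rw [polar_self', hs₁, mul_zero]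
  have key : ∀ μ : F, μ ≠ 0 → Dir1 Q M s ((μ * μ) • w) := by
    intro μ hμ
    have hQ1 : Q (s - s₁) = -1 := by rw [Q_sub', hs, hs₁, hss]; ring
    have hQ2 : Q (s - (μ * μ) • s₁) = -(μ * μ) := by rw [Q_sub_smul, hs, hs₁, hs₁s]; ring
    have hμμ : μ * μ ≠ 0 := mul_ne_zero hμ hμ
    have ht : reflG Q (s - s₁) * reflG Q (s - (μ * μ) • s₁) ∈ KX Q X := by
      apply rot_mem_KX Q h2 X _ _ (X.sub_mem hsX hs₁X) (X.sub_mem hsX (X.smul_mem _ hs₁X))
      · rw [hQ1]; exact neg_ne_zero.mpr one_ne_zero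
      · rw [hQ2]; exact neg_ne_zero.mpr hμμ
      · rw [hQ1, hQ2]; exact ⟨μ, by ring⟩
    have h1 := dir1_conj Q M s w (hK ht) h
    have e1 : act (reflG Q (s - s₁) * reflG Q (s - (μ * μ) • s₁)) s = (μ * μ) • s := by
      have e2 : QuadraticMap.polar (⇑Q) (s - (μ * μ) • s₁) s = -(μ * μ) := by
        rw [QuadraticMap.polar_sub_left, QuadraticMap.polar_smul_left, hsself, hs₁s]; simp
      have e3 : act (reflG Q (s - (μ * μ) • s₁)) s = (μ * μ) • s₁ := by
        rw [act_reflG, hQ2, e2, inv_mul_cancel₀ (neg_ne_zero.mpr hμμ)]; module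
      have e4 : QuadraticMap.polar (⇑Q) (s - s₁) s₁ = 1 := by
        rw [QuadraticMap.polar_sub_left, hss, hs₁self]; simp
      have e5 : ((-1 : F))⁻¹ * 1 = -1 := by norm_num
      rw [act_mul, e3, act_smul, act_reflG, hQ1, e4, e5]
      module
    have e6 : act (reflG Q (s - s₁) * reflG Q (s - (μ * μ) • s₁)) w = w := by
      have e7 : QuadraticMap.polar (⇑Q) (s - (μ * μ) • s₁) w = 0 := by
        rw [QuadraticMap.polar_sub_left, QuadraticMap.polar_smul_left, hws, hws₁]; simp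
      have e8 : QuadraticMap.polar (⇑Q) (s - s₁) w = 0 := by
        rw [QuadraticMap.polar_sub_left, hws, hws₁]; simp
      have e9 : act (reflG Q (s - (μ * μ) • s₁)) w = w := by
        rw [act_reflG, e7, mul_zero, zero_smul, sub_zero]
      rw [act_mul, e9, act_reflG, e8, mul_zero, zero_smul, sub_zero]
    rw [e1, e6] at h1
    obtain ⟨p, g, hg, e⟩ := h1
    refine ⟨by rw [QuadraticMap.polar_smul_right, hws, smul_zero], g, hg, fun x => ?_⟩
    rw [e, eich_smul_center]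
  rw [eichDir_iff]
  intro c
  have ha : Dir1 Q M s ((((c + 1) / 2) * ((c + 1) / 2)) • w) := by
    by_cases h0 : (c + 1) / 2 = 0
    · rw [h0, mul_zero, zero_smul]; exact dir1_zero Q M s
    · exact key _ h0
  have hb : Dir1 Q M s ((((c - 1) / 2) * ((c - 1) / 2)) • w) := by
    by_cases h0 : (c - 1) / 2 = 0
    · rw [h0, mul_zero, zero_smul]; exact dir1_zero Q M s
    · exact key _ h0
  have hsum := dir1_add Q M s _ _ hs ha (dir1_neg Q M s _ hs hb)
  have e : (((c + 1) / 2) * ((c + 1) / 2)) • w + -((((c - 1) / 2) * ((c - 1) / 2)) • w)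
      = c • w := by
    rw [← neg_smul, ← add_smul]
    congr 1
    field_simp
    ring
  rwa [e] at hsum

end

end Cfsg.Agent.H17.Dc
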