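import Cfsg.Agent.H17.DcB

set_option autoImplicit false
set_option linter.unusedSectionVars false

/-! helper17: block systems for a subgroup `M` of the isometry group; two distinct blocks
sharing a singular vector give a mixed Eichler direction. -/

namespace Cfsg.Agent.H17.Dc

open Module Matrix Cfsg.Agent.H49 Cfsg.Agent.H95

section
variable {ι : Type} [Fintype ι] [DecidableEq ι] {F : Type*} [Field F]

/-- Avoiding `0` and the square roots of `c` in a field with at least five elements. -/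
theorem exists_avoid [Fintype F] (h5 : 5 ≤ Fintype.card F) (c : F) :
    ∃ μ : F, μ ≠ 0 ∧ μ * μ ≠ c := by
  classical
  by_contra hcon
  push Not at hcon
  by_cases hr : ∃ r : F, r * r = c
  · obtain ⟨r, hr⟩ := hr
    have hsub : (Finset.univ : Finset F) ⊆ {0, r, -r} := by
      intro μ _
      by_cases hμ : μ = 0
      · simp [hμ]
      · have h1 := hcon μ hμ
        have h2 : (μ - r) * (μ + r) = 0 := by linear_combination h1 - hr
        rcases mul_eq_zero.mp h2 with h | h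
        · have : μ = r := by linear_combination h
          simp [this]
        · have : μ = -r := by linear_combination h
          simp [this]
    have h1 := Finset.card_le_card hsub
    have h2 : ({0, r, -r} : Finset F).card ≤ 3 := Finset.card_le_three
    rw [Finset.card_univ] at h1
    omega
  · push Not at hr
    have hsub : (Finset.univ : Finset F) ⊆ {0} := by
      intro μ _
      by_cases hμ : μ = 0
      · simp [hμ]
      · exact absurd (hcon μ hμ) (hr μ)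
    have h1 := Finset.card_le_card hsub
    rw [Finset.card_univ, Finset.card_singleton] at h1
    omega

/-- A system of blocks for `M`. -/
structure BSys [Fintype F] (Q : QuadraticForm F (ι → F))
    (M : Subgroup ↥(Cfsg.isometryGroup F (⇑Q))) (k : ℕ)
    (B : Submodule F (ι → F) → Prop) : Prop where
  hQ : (QuadraticMap.polarBilin Q).Nondegenerate
  h3 : HasTS3 Q
  h2 : (2 : F) ≠ 0
  kk : k = 3 ∨ 5 ≤ k
  q5 : k = 3 → 5 ≤ Fintype.card F
  nd : ∀ X, B X → X ⊓ LinearMap.BilinForm.orthogonal (QuadraticMap.polarBilin Q) X = ⊥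
  dim : ∀ X, B X → finrank F X = k
  K : ∀ X, B X → KX Q X ≤ M
  mv : ∀ X, B X → ∀ g ∈ M, B (Dc.img Q g X)

/-- `M` contains a mixed Eichler direction at a singular point of a block. -/
def Win (Q : QuadraticForm F (ι → F)) (M : Subgroup ↥(Cfsg.isometryGroup F (⇑Q)))
    (B : Submodule F (ι → F) → Prop) : Prop :=
  ∃ X, B X ∧ ∃ u ∈ X, u ≠ 0 ∧ Q u = 0 ∧ ∃ y, y ∉ X ∧ eichDir Q M u y

variable [Fintype F] {Q : QuadraticForm F (ι → F)}
  {M : Subgroup ↥(Cfsg.isometryGroup F (⇑Q))} {k : ℕ} {B : Submodule F (ι → F) → Prop}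

theorem BSys.three_le (S : BSys Q M k B) : 3 ≤ k := by
  rcases S.kk with h | h <;> omega

theorem BSys.eG_mem (S : BSys Q M k B) {X : Submodule F (ι → F)} (hX : B X) {u y : ι → F}
    (huX : u ∈ X) (hyX : y ∈ X) (hu : Q u = 0) (huy : QuadraticMap.polar (⇑Q) u y = 0) :
    eG Q u y ∈ M :=
  S.K X hX (eG_mem_KX Q S.hQ S.h3 X u y huX hyX hu huy)

theorem BSys.eichDir_in (S : BSys Q M k B) {X : Submodule F (ι → F)} (hX : B X) {u y : ι → F}
    (huX : u ∈ X) (hyX : y ∈ X) (hu : Q u = 0) (huy : QuadraticMap.polar (⇑Q) u y = 0) :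
    eichDir Q M u y := by
  refine ⟨huy, fun c => ⟨eG Q u (c • y), S.eG_mem hX huX (X.smul_mem c hyX) hu
    (by rw [QuadraticMap.polar_smul_right, huy, smul_zero]), fun x => ?_⟩⟩
  exact act_eG Q u (c • y) hu (by rw [QuadraticMap.polar_smul_right, huy, smul_zero]) x

theorem BSys.eq_of_le (S : BSys Q M k B) {X X' : Submodule F (ι → F)} (hX : B X) (hX' : B X')
    (h : X ≤ X') : X = X' :=
  Submodule.eq_of_le_of_finrank_eq h (by rw [S.dim X hX, S.dim X' hX'])

/-- Two blocks sharing a singular vector whose tangent spaces differ. -/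
theorem BSys.w2a (S : BSys Q M k B) {X X' : Submodule F (ι → F)} (hX : B X) (hX' : B X')
    {s y : ι → F} (hsX : s ∈ X) (hsX' : s ∈ X') (hs0 : s ≠ 0) (hs : Q s = 0) (hyX' : y ∈ X')
    (hsy : QuadraticMap.polar (⇑Q) s y = 0) (hy : y ∉ X) : Win Q M B :=
  ⟨X, hX, s, hsX, hs0, hs, y, hy, S.eichDir_in hX' hsX' hyX' hs hsy⟩

theorem eG_inv (Q : QuadraticForm F (ι → F)) (u y : ι → F) (hu : Q u = 0)
    (huy : QuadraticMap.polar (⇑Q) u y = 0) : (eG Q u y)⁻¹ = eG Q u (-y) := by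
  have huy' : QuadraticMap.polar (⇑Q) u (-y) = 0 := by
    rw [QuadraticMap.polar_neg_right, huy, neg_zero]
  rw [inv_eq_iff_mul_eq_one]
  apply act_ext
  intro x
  rw [act_mul, act_eG Q u (-y) hu huy', act_eG Q u y hu huy, eich_comp Q u y (-y) x hu huy huy',
    add_neg_cancel, eich_zero_dir, act_one]

/-- Commutator of an Eichler element with an isometry scaling its centre and fixing its
direction. -/
theorem comm_eich (Q : QuadraticForm F (ι → F)) (s y : ι → F) (hs : Q s = 0)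
    (hsy : QuadraticMap.polar (⇑Q) s y = 0) (t : ↥(Cfsg.isometryGroup F (⇑Q))) (c : F)
    (hts : act t s = c • s) (hty : act t y = y) (x : ι → F) :
    act (eG Q s y * t * (eG Q s y)⁻¹ * t⁻¹) x = eich Q s ((1 - c) • y) x := by
  have hsy' : QuadraticMap.polar (⇑Q) s (-y) = 0 := by
    rw [QuadraticMap.polar_neg_right, hsy, neg_zero]
  rw [eG_inv Q s y hs hsy, act_mul, act_mul, act_mul, act_eG Q s (-y) hs hsy', act_eich,
    act_act_inv, hts, act_neg, hty, eich_smul_center, act_eG Q s y hs hsy,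
    eich_comp Q s y (c • -y) x hs hsy
      (by rw [QuadraticMap.polar_smul_right, hsy', smul_zero])]
  congr 1
  module

/-- Two distinct blocks sharing a singular vector and its tangent space (`q ≥ 5`). -/
theorem BSys.w2b (S : BSys Q M k B) (h5 : 5 ≤ Fintype.card F) {X X' : Submodule F (ι → F)}
    (hX : B X) (hX' : B X') (hne : X ≠ X') {s : ι → F} (hsX : s ∈ X) (hsX' : s ∈ X')
    (hs0 : s ≠ 0) (hs : Q s = 0)
    (h1 : ∀ y ∈ X', QuadraticMap.polar (⇑Q) s y = 0 → y ∈ X)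
    (h2 : ∀ y ∈ X, QuadraticMap.polar (⇑Q) s y = 0 → y ∈ X') : Win Q M B := by
  obtain ⟨s₁, hs₁X, hs₁, hss⟩ := exists_partner_in Q X (S.nd X hX) s hsX hs0 hs
  obtain ⟨s₁', hs₁'X', hs₁', hss'⟩ := exists_partner_in Q X' (S.nd X' hX') s hsX' hs0 hs
  have hs₁s : QuadraticMap.polar (⇑Q) s₁ s = 1 := by rw [QuadraticMap.polar_comm]; exact hss
  have hsself : QuadraticMap.polar (⇑Q) s s = 0 := by rw [polar_self', hs, mul_zero]
  have hs₁self : QuadraticMap.polar (⇑Q) s₁ s₁ = 0 := by rw [polar_self', hs₁, mul_zero]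
  obtain ⟨y₀, hy₀d⟩ : ∃ y₀, y₀ = s₁' - s₁ - QuadraticMap.polar (⇑Q) s₁ (s₁' - s₁) • s :=
    ⟨_, rfl⟩
  have hsy₀ : QuadraticMap.polar (⇑Q) s y₀ = 0 := by
    rw [hy₀d, QuadraticMap.polar_sub_right, QuadraticMap.polar_sub_right,
      QuadraticMap.polar_smul_right, hss, hss', hsself]
    simp
  have hs₁y₀ : QuadraticMap.polar (⇑Q) s₁ y₀ = 0 := by
    rw [hy₀d, QuadraticMap.polar_sub_right, QuadraticMap.polar_smul_right, hs₁s]
    simp
  -- `E(s, y₀)` maps `X` into `X'`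
  have hmap : ∀ x ∈ X, act (eG Q s y₀) x ∈ X' := by
    intro x hx
    rw [act_eG Q s y₀ hs hsy₀, eich_apply]
    have hx₀ : x - QuadraticMap.polar (⇑Q) s x • s₁ ∈ X' := by
      apply h2 _ (X.sub_mem hx (X.smul_mem _ hs₁X))
      rw [QuadraticMap.polar_sub_right, QuadraticMap.polar_smul_right, hss]
      simp
    have e : x + QuadraticMap.polar (⇑Q) s x • y₀
        - (QuadraticMap.polar (⇑Q) y₀ x + Q y₀ * QuadraticMap.polar (⇑Q) s x) • s
        = (x - QuadraticMap.polar (⇑Q) s x • s₁) + QuadraticMap.polar (⇑Q) s x • s₁'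
          - (QuadraticMap.polar (⇑Q) s x * QuadraticMap.polar (⇑Q) s₁ (s₁' - s₁)
            + QuadraticMap.polar (⇑Q) y₀ x + Q y₀ * QuadraticMap.polar (⇑Q) s x) • s := by
      rw [hy₀d]
      module
    rw [e]
    exact X'.sub_mem (X'.add_mem hx₀ (X'.smul_mem _ hs₁'X')) (X'.smul_mem _ hsX')
  have himg : img Q (eG Q s y₀) X = X' := by
    apply Submodule.eq_of_le_of_finrank_eq
    · intro z hz
      obtain ⟨x, hx, rfl⟩ := (mem_img Q _ X z).mp hz
      exact hmap x hx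
    · rw [finrank_img, S.dim X hX, S.dim X' hX']
  obtain ⟨μ, hμ0, hμ1⟩ := exists_avoid h5 (1 : F)
  have hμμ : μ * μ ≠ 0 := mul_ne_zero hμ0 hμ0
  have hQ1 : Q (s - s₁) = -1 := by rw [Q_sub', hs, hs₁, hss]; ring
  have hQ2 : Q (s - (μ * μ) • s₁) = -(μ * μ) := by rw [Q_sub_smul, hs, hs₁, hs₁s]; ring
  obtain ⟨t, htd⟩ : ∃ t, t = reflG Q (s - s₁) * reflG Q (s - (μ * μ) • s₁) := ⟨_, rfl⟩
  have ht : t ∈ KX Q X := by
    rw [htd]
    apply rot_mem_KX Q S.h2 X _ _ (X.sub_mem hsX hs₁X) (X.sub_mem hsX (X.smul_mem _ hs₁X))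
    · rw [hQ1]; exact neg_ne_zero.mpr one_ne_zero
    · rw [hQ2]; exact neg_ne_zero.mpr hμμ
    · rw [hQ1, hQ2]; exact ⟨μ, by ring⟩
  have e1 : act t s = (μ * μ) • s := by
    have e2 : QuadraticMap.polar (⇑Q) (s - (μ * μ) • s₁) s = -(μ * μ) := by
      rw [QuadraticMap.polar_sub_left, QuadraticMap.polar_smul_left, hsself, hs₁s]; simp
    have e3 : act (reflG Q (s - (μ * μ) • s₁)) s = (μ * μ) • s₁ := by
      rw [act_reflG, hQ2, e2, inv_mul_cancel₀ (neg_ne_zero.mpr hμμ)]; module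
    have e4 : QuadraticMap.polar (⇑Q) (s - s₁) s₁ = 1 := by
      rw [QuadraticMap.polar_sub_left, hss, hs₁self]; simp
    have e5 : ((-1 : F))⁻¹ * 1 = -1 := by norm_num
    rw [htd, act_mul, e3, act_smul, act_reflG, hQ1, e4, e5]
    module
  have e6 : act t y₀ = y₀ := by
    have e7 : QuadraticMap.polar (⇑Q) (s - (μ * μ) • s₁) y₀ = 0 := by
      rw [QuadraticMap.polar_sub_left, QuadraticMap.polar_smul_left, hsy₀, hs₁y₀]; simp
    have e8 : QuadraticMap.polar (⇑Q) (s - s₁) y₀ = 0 := by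
      rw [QuadraticMap.polar_sub_left, hsy₀, hs₁y₀]; simp
    have e9 : act (reflG Q (s - (μ * μ) • s₁)) y₀ = y₀ := by
      rw [act_reflG, e7, mul_zero, zero_smul, sub_zero]
    rw [htd, act_mul, e9, act_reflG, e8, mul_zero, zero_smul, sub_zero]
  -- the conjugate of `t` by `E(s, y₀)` lies in `K_{X'} ≤ M`
  have hconj : eG Q s y₀ * t * (eG Q s y₀)⁻¹ ∈ M := by
    apply S.K X' hX'
    rw [← himg]
    refine ⟨?_, fun z hz => ?_⟩
    · exact (inferInstance : (commutator ↥(Cfsg.isometryGroup F (⇑Q))).Normal).conj_mem t ht.1 _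
    · rw [act_mul, act_mul]
      have h4 : act t (act (eG Q s y₀)⁻¹ z) = act (eG Q s y₀)⁻¹ z := by
        apply ht.2
        intro a ha
        rw [← polar_act Q (eG Q s y₀), act_act_inv]
        exact hz _ (act_mem_img Q _ X ha)
      rw [h4, act_act_inv]
  have hcomm : eG Q s y₀ * t * (eG Q s y₀)⁻¹ * t⁻¹ ∈ M :=
    M.mul_mem hconj (M.inv_mem (S.K X hX ht))
  have hc : (1 : F) - μ * μ ≠ 0 := fun h => hμ1 (by linear_combination -h)
  have hd1 : Dir1 Q M s ((1 - μ * μ) • y₀) :=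
    ⟨by rw [QuadraticMap.polar_smul_right, hsy₀, smul_zero], _, hcomm,
      fun x => comm_eich Q s y₀ hs hsy₀ t (μ * μ) e1 e6 x⟩
  have hdir : eichDir Q M s ((1 - μ * μ) • y₀) :=
    eichDir_of_dir1 Q S.h2 M X (S.K X hX) s s₁ _ hsX hs₁X hs hs₁ hss
      (by rw [QuadraticMap.polar_smul_right, hsy₀, smul_zero])
      (by rw [QuadraticMap.polar_smul_right, hs₁y₀, smul_zero]) hd1
  refine ⟨X, hX, s, hsX, hs0, hs, _, ?_, hdir⟩
  intro hmem
  have hy₀X : y₀ ∈ X := by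
    have := X.smul_mem (1 - μ * μ)⁻¹ hmem
    rwa [smul_smul, inv_mul_cancel₀ hc, one_smul] at this
  have hs₁'X : s₁' ∈ X := by
    have e : s₁' = y₀ + s₁ + QuadraticMap.polar (⇑Q) s₁ (s₁' - s₁) • s := by
      rw [hy₀d]; module
    rw [e]
    exact X.add_mem (X.add_mem hy₀X hs₁X) (X.smul_mem _ hsX)
  apply hne
  symm
  apply S.eq_of_le hX' hX
  intro x' hx'
  have e : x' = (x' - QuadraticMap.polar (⇑Q) s x' • s₁') + QuadraticMap.polar (⇑Q) s x' • s₁' := by
    module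
  rw [e]
  refine X.add_mem (h1 _ (X'.sub_mem hx' (X'.smul_mem _ hs₁'X')) ?_) (X.smul_mem _ hs₁'X)
  rw [QuadraticMap.polar_sub_right, QuadraticMap.polar_smul_right, hss']
  simp

/-- Two distinct blocks sharing a singular vector and its tangent space (`k ≥ 5`). -/
theorem BSys.w2c (S : BSys Q M k B) (hk : 5 ≤ k) {X X' : Submodule F (ι → F)}
    (hX : B X) (hX' : B X') (hne : X ≠ X') {s : ι → F} (hsX : s ∈ X) (hsX' : s ∈ X')
    (hs0 : s ≠ 0) (hs : Q s = 0)
    (h2 : ∀ y ∈ X, QuadraticMap.polar (⇑Q) s y = 0 → y ∈ X') : Win Q M B := by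
  have _ := hsX'
  obtain ⟨s₁, hs₁X, hs₁, hss⟩ := exists_partner_in Q X (S.nd X hX) s hsX hs0 hs
  have hf1 := finrank_le_inf_orth Q S.hQ X (Submodule.span F {s, s₁})
  have hf2 := finrank_span_pair_le (F := F) s s₁
  have hdim := S.dim X hX
  obtain ⟨s₂, hs₂T, hs₂0, hs₂⟩ := exists_sing Q
    (X ⊓ LinearMap.BilinForm.orthogonal (QuadraticMap.polarBilin Q) (Submodule.span F {s, s₁}))
    (by omega)
  obtain ⟨hs₂X, hs₂O⟩ := Submodule.mem_inf.mp hs₂T
  have hss₂ : QuadraticMap.polar (⇑Q) s s₂ = 0 :=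
    (LinearMap.BilinForm.mem_orthogonal_iff.mp hs₂O) s (Submodule.subset_span (by simp))
  have hs₁s₂ : QuadraticMap.polar (⇑Q) s₁ s₂ = 0 :=
    (LinearMap.BilinForm.mem_orthogonal_iff.mp hs₂O) s₁ (Submodule.subset_span (by simp))
  have hs₂X' : s₂ ∈ X' := h2 s₂ hs₂X hss₂
  by_cases hA : ∃ y ∈ X', QuadraticMap.polar (⇑Q) s₂ y = 0 ∧ y ∉ X
  · obtain ⟨y, hyX', hs₂y, hy⟩ := hA
    exact S.w2a hX hX' hs₂X hs₂X' hs₂0 hs₂ hyX' hs₂y hy
  · by_cases hB : ∃ y ∈ X, QuadraticMap.polar (⇑Q) s₂ y = 0 ∧ y ∉ X'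
    · obtain ⟨y, hyX, hs₂y, hy⟩ := hB
      exact S.w2a hX' hX hs₂X' hs₂X hs₂0 hs₂ hyX hs₂y hy
    · push Not at hB
      exfalso
      apply hne
      apply S.eq_of_le hX hX'
      intro x hx
      have e : x = (x - QuadraticMap.polar (⇑Q) s x • s₁) + QuadraticMap.polar (⇑Q) s x • s₁ := by
        module
      rw [e]
      refine X'.add_mem (h2 _ (X.sub_mem hx (X.smul_mem _ hs₁X)) ?_)
        (X'.smul_mem _ (hB s₁ hs₁X (by rw [QuadraticMap.polar_comm]; exact hs₁s₂)))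
      rw [QuadraticMap.polar_sub_right, QuadraticMap.polar_smul_right, hss]
      simp

/-- Two distinct blocks sharing a non-zero singular vector. -/
theorem BSys.w2 (S : BSys Q M k B) {X X' : Submodule F (ι → F)}
    (hX : B X) (hX' : B X') (hne : X ≠ X') {s : ι → F} (hsX : s ∈ X) (hsX' : s ∈ X')
    (hs0 : s ≠ 0) (hs : Q s = 0) : Win Q M B := by
  by_cases hA : ∃ y ∈ X', QuadraticMap.polar (⇑Q) s y = 0 ∧ y ∉ X
  · obtain ⟨y, hyX', hsy, hy⟩ := hA
    exact S.w2a hX hX' hsX hsX' hs0 hs hyX' hsy hy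
  · by_cases hB : ∃ y ∈ X, QuadraticMap.polar (⇑Q) s y = 0 ∧ y ∉ X'
    · obtain ⟨y, hyX, hsy, hy⟩ := hB
      exact S.w2a hX' hX hsX' hsX hs0 hs hyX hsy hy
    · push Not at hA hB
      rcases S.kk with hk | hk
      · exact S.w2b (S.q5 hk) hX hX' hne hsX hsX' hs0 hs hA hB
      · exact S.w2c hk hX hX' hne hsX hsX' hs0 hs hB

/-- An element of `M` fixing a singular vector of a block stabilises the block. -/
theorem BSys.p2 (S : BSys Q M k B) (hW : ¬ Win Q M B) {X' : Submodule F (ι → F)}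
    (hX' : B X') {h : ↥(Cfsg.isometryGroup F (⇑Q))} (hh : h ∈ M) {r : ι → F} (hrX' : r ∈ X')
    (hr0 : r ≠ 0) (hr : Q r = 0) (hfix : act h r = r) : ∀ x' ∈ X', act h x' ∈ X' := by
  by_cases he : img Q h X' = X'
  · intro x' hx'
    rw [← he]
    exact act_mem_img Q h X' hx'
  · exfalso
    apply hW
    refine S.w2 (S.mv X' hX' h hh) hX' he ?_ hrX' hr0 hr
    rw [← hfix]
    exact act_mem_img Q h X' hrX'

/-- A singular vector of `X'` orthogonal to a tangent plane of `X` not orthogonal to `X'`. -/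
theorem BSys.s' (S : BSys Q M k B) (hW : ¬ Win Q M B) {X X' : Submodule F (ι → F)}
    (hX : B X) (hX' : B X') (hne : X ≠ X') {r s a₀ x' : ι → F} (hrX' : r ∈ X') (hr0 : r ≠ 0)
    (hr : Q r = 0) (hsX : s ∈ X) (hs : Q s = 0) (ha₀X : a₀ ∈ X)
    (hsa₀ : QuadraticMap.polar (⇑Q) s a₀ = 0) (hQa₀ : Q a₀ ≠ 0)
    (hsr : QuadraticMap.polar (⇑Q) s r = 0) (ha₀r : QuadraticMap.polar (⇑Q) a₀ r = 0)
    (hx' : x' ∈ X') (hsx' : QuadraticMap.polar (⇑Q) s x' ≠ 0) : False := by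
  have hs0 : s ≠ 0 := by
    rintro rfl
    exact hsx' (QuadraticMap.polar_zero_left _ _)
  have hsa₀' : QuadraticMap.polar (⇑Q) s (-a₀) = 0 := by
    rw [QuadraticMap.polar_neg_right, hsa₀, neg_zero]
  have hp := S.p2 hW hX' (S.eG_mem hX hsX ha₀X hs hsa₀) hrX' hr0 hr
    (by rw [act_eG Q s a₀ hs hsa₀]; exact eich_fix Q s a₀ r hsr ha₀r) x' hx'
  have hm := S.p2 hW hX' (S.eG_mem hX hsX (X.neg_mem ha₀X) hs hsa₀') hrX' hr0 hr
    (by
      rw [act_eG Q s (-a₀) hs hsa₀']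
      exact eich_fix Q s (-a₀) r hsr (by rw [QuadraticMap.polar_neg_left, ha₀r, neg_zero]))
    x' hx'
  rw [act_eG Q s a₀ hs hsa₀] at hp
  rw [act_eG Q s (-a₀) hs hsa₀'] at hm
  have h3' : eich Q s a₀ x' + eich Q s (-a₀) x' - (2 : F) • x' ∈ X' :=
    X'.sub_mem (X'.add_mem hp hm) (X'.smul_mem _ hx')
  have e : eich Q s a₀ x' + eich Q s (-a₀) x' - (2 : F) • x'
      = (-(2 * Q a₀ * QuadraticMap.polar (⇑Q) s x')) • s := by
    unfold eich
    rw [QuadraticMap.map_neg, QuadraticMap.polar_neg_left]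
    module
  rw [e] at h3'
  have hc : -(2 * Q a₀ * QuadraticMap.polar (⇑Q) s x') ≠ 0 :=
    neg_ne_zero.mpr (mul_ne_zero (mul_ne_zero S.h2 hQa₀) hsx')
  have hsX' : s ∈ X' := by
    have := X'.smul_mem (-(2 * Q a₀ * QuadraticMap.polar (⇑Q) s x'))⁻¹ h3'
    rwa [smul_smul, inv_mul_cancel₀ hc, one_smul] at this
  exact hW (S.w2 hX hX' hne hsX hsX' hs0 hs)

end

end Cfsg.Agent.H17.Dc
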