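import Cfsg.Agent.H17.DcC

set_option autoImplicit false
set_option linter.unusedSectionVars false

/-! helper17: block systems with blocks of dimension `≥ 5`: two distinct non-orthogonal
blocks give a mixed Eichler direction. -/

namespace Cfsg.Agent.H17.Dc

open Module Matrix Cfsg.Agent.H49 Cfsg.Agent.H95

section
variable {ι : Type} [Fintype ι] [DecidableEq ι] {F : Type*} [Field F]

theorem perp_nd (Q : QuadraticForm F (ι → F)) (X P : Submodule F (ι → F))
    (hX : X ⊓ LinearMap.BilinForm.orthogonal (QuadraticMap.polarBilin Q) X = ⊥)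
    (hP : P ⊓ LinearMap.BilinForm.orthogonal (QuadraticMap.polarBilin Q) P = ⊥) (hPX : P ≤ X) :
    (X ⊓ LinearMap.BilinForm.orthogonal (QuadraticMap.polarBilin Q) P) ⊓
      LinearMap.BilinForm.orthogonal (QuadraticMap.polarBilin Q)
        (X ⊓ LinearMap.BilinForm.orthogonal (QuadraticMap.polarBilin Q) P) = ⊥ := by
  rw [eq_bot_iff]
  rintro z ⟨⟨hzX, hzP⟩, hzT⟩
  rw [Submodule.mem_bot]
  have hz : z ∈ X ⊓ LinearMap.BilinForm.orthogonal (QuadraticMap.polarBilin Q) X := by
    refine ⟨hzX, LinearMap.BilinForm.mem_orthogonal_iff.mpr (fun w hw => ?_)⟩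
    obtain ⟨p, hp, y, hy, rfl⟩ := exists_decomp Q P hP w
    have hyX : y ∈ X := by
      have := X.sub_mem hw (hPX hp)
      rwa [add_sub_cancel_left] at this
    have hyT : y ∈ X ⊓ LinearMap.BilinForm.orthogonal (QuadraticMap.polarBilin Q) P :=
      ⟨hyX, LinearMap.BilinForm.mem_orthogonal_iff.mpr (fun n hn => hy n hn)⟩
    have h1 : QuadraticMap.polar (⇑Q) p z = 0 :=
      (LinearMap.BilinForm.mem_orthogonal_iff.mp hzP) p hp
    have h2 : QuadraticMap.polar (⇑Q) y z = 0 :=
      (LinearMap.BilinForm.mem_orthogonal_iff.mp hzT) y hyT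
    show QuadraticMap.polar (⇑Q) (p + y) z = 0
    rw [QuadraticMap.polar_add_left, h1, h2, add_zero]
  rw [hX] at hz
  exact (Submodule.mem_bot F).mp hz

theorem span_single_nd (Q : QuadraticForm F (ι → F)) (h2 : (2 : F) ≠ 0) (a : ι → F)
    (ha : Q a ≠ 0) :
    Submodule.span F {a} ⊓
      LinearMap.BilinForm.orthogonal (QuadraticMap.polarBilin Q) (Submodule.span F {a}) = ⊥ := by
  rw [eq_bot_iff]
  rintro z ⟨hz1, hz2⟩
  rw [Submodule.mem_bot]
  obtain ⟨c, rfl⟩ := Submodule.mem_span_singleton.mp hz1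
  have h : QuadraticMap.polar (⇑Q) a (c • a) = 0 :=
    (LinearMap.BilinForm.mem_orthogonal_iff.mp hz2) a (Submodule.mem_span_singleton_self a)
  rw [QuadraticMap.polar_smul_right, polar_self', smul_eq_mul] at h
  have hc : c = 0 := by
    rcases mul_eq_zero.mp h with h | h
    · exact h
    · exact absurd h (mul_ne_zero h2 ha)
  rw [hc, zero_smul]

theorem span_pair_nd (Q : QuadraticForm F (ι → F)) (a a₁ : ι → F) (ha : Q a = 0)
    (ha₁ : Q a₁ = 0) (haa : QuadraticMap.polar (⇑Q) a a₁ = 1) :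
    Submodule.span F {a, a₁} ⊓
      LinearMap.BilinForm.orthogonal (QuadraticMap.polarBilin Q) (Submodule.span F {a, a₁})
        = ⊥ := by
  rw [eq_bot_iff]
  rintro z ⟨hz1, hz2⟩
  rw [Submodule.mem_bot]
  obtain ⟨c, d, rfl⟩ := Submodule.mem_span_pair.mp hz1
  have h1 : QuadraticMap.polar (⇑Q) a (c • a + d • a₁) = 0 :=
    (LinearMap.BilinForm.mem_orthogonal_iff.mp hz2) a (Submodule.subset_span (by simp))
  have h2 : QuadraticMap.polar (⇑Q) a₁ (c • a + d • a₁) = 0 :=
    (LinearMap.BilinForm.mem_orthogonal_iff.mp hz2) a₁ (Submodule.subset_span (by simp))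
  have ha₁a : QuadraticMap.polar (⇑Q) a₁ a = 1 := by rw [QuadraticMap.polar_comm]; exact haa
  rw [QuadraticMap.polar_add_right, QuadraticMap.polar_smul_right, QuadraticMap.polar_smul_right,
    polar_self', ha, haa] at h1
  rw [QuadraticMap.polar_add_right, QuadraticMap.polar_smul_right, QuadraticMap.polar_smul_right,
    polar_self', ha₁, ha₁a] at h2
  simp only [smul_eq_mul, mul_zero, mul_one, zero_add, add_zero] at h1 h2
  rw [h1, h2, zero_smul, zero_smul, add_zero]

variable [Fintype F] {Q : QuadraticForm F (ι → F)}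
  {M : Subgroup ↥(Cfsg.isometryGroup F (⇑Q))} {k : ℕ} {B : Submodule F (ι → F) → Prop}

/-- Blocks of dimension at least five: two distinct blocks are orthogonal unless `M` has a
mixed Eichler direction. -/
theorem BSys.big (S : BSys Q M k B) (hk : 5 ≤ k) (hW : ¬ Win Q M B)
    {X X' : Submodule F (ι → F)} (hX : B X) (hX' : B X') (hne : X ≠ X') {x x' : ι → F}
    (hx : x ∈ X) (hx' : x' ∈ X') (hxx' : QuadraticMap.polar (⇑Q) x x' ≠ 0) : False := by
  have hndX := S.nd X hX
  have hdX := S.dim X hX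
  have hdX' := S.dim X' hX'
  by_cases h0 : ∃ r₀ ∈ X', r₀ ≠ 0 ∧ Q r₀ = 0 ∧ ∀ a ∈ X, QuadraticMap.polar (⇑Q) a r₀ = 0
  · obtain ⟨r₀, hr₀X', hr₀0, hr₀, hr₀X⟩ := h0
    obtain ⟨s, hsX, hs, hsx'⟩ := exists_sing_not_perp Q X hndX (by omega) x' ⟨x, hx, hxx'⟩
    have hs0 : s ≠ 0 := by
      rintro rfl
      exact hsx' (QuadraticMap.polar_zero_left _ _)
    obtain ⟨s₁, hs₁X, hs₁, hss⟩ := exists_partner_in Q X hndX s hsX hs0 hs
    obtain ⟨a₀, ha₀X, hsa₀, -, hQa₀⟩ :=
      exists_nonsing_perp Q S.hQ X hndX (by omega) s s₁ hsX hs₁X hs hs₁ hss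
    exact S.s' hW hX hX' hne hr₀X' hr₀0 hr₀ hsX hs ha₀X hsa₀ hQa₀ (hr₀X s hsX) (hr₀X a₀ ha₀X)
      hx' hsx'
  · push Not at h0
    have hN : finrank F (X' ⊓ LinearMap.BilinForm.orthogonal (QuadraticMap.polarBilin Q) X :
        Submodule F (ι → F)) ≤ 2 := by
      apply anisotropic_finrank_le_two Q
      intro a ha hQa
      by_contra hne0
      obtain ⟨b, hb, hab⟩ := h0 a ha.1 hne0 hQa
      exact hab ((LinearMap.BilinForm.mem_orthogonal_iff.mp ha.2) b hb)
    obtain ⟨r, hrX', hr0, hr⟩ := exists_sing Q X' (by omega)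
    obtain ⟨a, haX, b, hbX, hrab⟩ := exists_decomp Q X hndX r
    have ha0 : a ≠ 0 := by
      rintro rfl
      rw [zero_add] at hrab
      obtain ⟨c, hc, hcr⟩ := h0 r hrX' hr0 hr
      rw [hrab] at hcr
      exact hcr (hbX c hc)
    obtain ⟨y, hyX, hya⟩ := exists_polar_ne_of_inf_orth Q X hndX a haX ha0
    have hay : QuadraticMap.polar (⇑Q) a y ≠ 0 := by rw [QuadraticMap.polar_comm]; exact hya
    have hclaim : ∃ x'' ∈ X', ∃ v ∈ X, QuadraticMap.polar (⇑Q) a v = 0 ∧
        QuadraticMap.polar (⇑Q) v x'' ≠ 0 := by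
      by_contra hcon
      push Not at hcon
      have hle : (X' ⊓ LinearMap.BilinForm.orthogonal (QuadraticMap.polarBilin Q)
          (Submodule.span F {y}) : Submodule F (ι → F)) ≤
          X' ⊓ LinearMap.BilinForm.orthogonal (QuadraticMap.polarBilin Q) X := by
        rintro z ⟨hzX', hzy⟩
        refine ⟨hzX', LinearMap.BilinForm.mem_orthogonal_iff.mpr (fun w hw => ?_)⟩
        have hyz : QuadraticMap.polar (⇑Q) y z = 0 :=
          (LinearMap.BilinForm.mem_orthogonal_iff.mp hzy) y (Submodule.mem_span_singleton_self y)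
        have h1 := hcon z hzX'
          (w - (QuadraticMap.polar (⇑Q) a w * (QuadraticMap.polar (⇑Q) a y)⁻¹) • y)
          (X.sub_mem hw (X.smul_mem _ hyX))
          (by
            rw [QuadraticMap.polar_sub_right, QuadraticMap.polar_smul_right, smul_eq_mul,
              mul_assoc, inv_mul_cancel₀ hay, mul_one, sub_self])
        rw [QuadraticMap.polar_sub_left, QuadraticMap.polar_smul_left, hyz, smul_zero,
          sub_zero] at h1
        exact h1
      have h1 := finrank_le_inf_orth Q S.hQ X' (Submodule.span F {y})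
      have h2 := finrank_span_singleton_le' (F := F) y
      have h3 := Submodule.finrank_mono hle
      omega
    obtain ⟨x'', hx''X', v, hvX, hav, hvx''⟩ := hclaim
    have hsr : ∀ s ∈ X, QuadraticMap.polar (⇑Q) a s = 0 → QuadraticMap.polar (⇑Q) s r = 0 := by
      intro s hsX has
      rw [hrab, QuadraticMap.polar_add_right, hbX s hsX, add_zero, QuadraticMap.polar_comm]
      exact has
    -- the core argument inside a non-degenerate subspace `T ≤ X ∩ a^⊥`
    have core : ∀ T : Submodule F (ι → F), T ≤ X →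
        T ⊓ LinearMap.BilinForm.orthogonal (QuadraticMap.polarBilin Q) T = ⊥ →
        3 ≤ finrank F T → (∀ t ∈ T, QuadraticMap.polar (⇑Q) a t = 0) →
        (∃ t ∈ T, QuadraticMap.polar (⇑Q) t x'' ≠ 0) → False := by
      intro T hTX hT hT3 hTa hex
      obtain ⟨s, hsT, hs, hsx''⟩ := exists_sing_not_perp Q T hT hT3 x'' hex
      have hs0 : s ≠ 0 := by
        rintro rfl
        exact hsx'' (QuadraticMap.polar_zero_left _ _)
      obtain ⟨s₁, hs₁T, hs₁, hss⟩ := exists_partner_in Q T hT s hsT hs0 hs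
      obtain ⟨a₀, ha₀T, hsa₀, -, hQa₀⟩ :=
        exists_nonsing_perp Q S.hQ T hT hT3 s s₁ hsT hs₁T hs hs₁ hss
      exact S.s' hW hX hX' hne hrX' hr0 hr (hTX hsT) hs (hTX ha₀T) hsa₀ hQa₀
        (hsr s (hTX hsT) (hTa s hsT)) (hsr a₀ (hTX ha₀T) (hTa a₀ ha₀T)) hx''X' hsx''
    by_cases hQa : Q a = 0
    · obtain ⟨a₁, ha₁X, ha₁, haa⟩ := exists_partner_in Q X hndX a haX ha0 hQa
      have ha₁a : QuadraticMap.polar (⇑Q) a₁ a = 1 := by rw [QuadraticMap.polar_comm]; exact haa
      have haself : QuadraticMap.polar (⇑Q) a a = 0 := by rw [polar_self', hQa, mul_zero]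
      have hPX : Submodule.span F {a, a₁} ≤ X := by
        rw [Submodule.span_le]
        rintro z (rfl | rfl)
        · exact haX
        · exact ha₁X
      have hT := perp_nd Q X (Submodule.span F {a, a₁}) hndX (span_pair_nd Q a a₁ hQa ha₁ haa)
        hPX
      have hf1 := finrank_le_inf_orth Q S.hQ X (Submodule.span F {a, a₁})
      have hf2 := finrank_span_pair_le (F := F) a a₁
      have hTa : ∀ t ∈ (X ⊓ LinearMap.BilinForm.orthogonal (QuadraticMap.polarBilin Q)
          (Submodule.span F {a, a₁}) : Submodule F (ι → F)),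
          QuadraticMap.polar (⇑Q) a t = 0 := fun t ht =>
        (LinearMap.BilinForm.mem_orthogonal_iff.mp ht.2) a (Submodule.subset_span (by simp))
      by_cases hvt : QuadraticMap.polar (⇑Q) (v - QuadraticMap.polar (⇑Q) a₁ v • a) x'' = 0
      · -- then `a` itself is not orthogonal to `x''`
        have hax'' : QuadraticMap.polar (⇑Q) a x'' ≠ 0 := by
          intro h
          apply hvx''
          rw [QuadraticMap.polar_sub_left, QuadraticMap.polar_smul_left, h, smul_zero,
            sub_zero] at hvt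
          exact hvt
        obtain ⟨s, hsT, hs0, hs⟩ := exists_sing Q _ (show 3 ≤ finrank F (X ⊓
          LinearMap.BilinForm.orthogonal (QuadraticMap.polarBilin Q)
            (Submodule.span F {a, a₁}) : Submodule F (ι → F)) by omega)
        obtain ⟨s₁, hs₁T, hs₁, hss⟩ := exists_partner_in Q _ hT s hsT hs0 hs
        obtain ⟨a₀, ha₀T, -, -, hQa₀⟩ :=
          exists_nonsing_perp Q S.hQ _ hT (by omega) s s₁ hsT hs₁T hs hs₁ hss
        exact S.s' hW hX hX' hne hrX' hr0 hr haX hQa ha₀T.1 (hTa a₀ ha₀T) hQa₀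
          (hsr a haX haself) (hsr a₀ ha₀T.1 (hTa a₀ ha₀T)) hx''X' hax''
      · refine core _ inf_le_left hT (by omega) hTa ⟨_, ⟨X.sub_mem hvX (X.smul_mem _ haX), ?_⟩, hvt⟩
        refine LinearMap.BilinForm.mem_orthogonal_iff.mpr (fun n hn => ?_)
        obtain ⟨c, d, rfl⟩ := Submodule.mem_span_pair.mp hn
        show QuadraticMap.polar (⇑Q) (c • a + d • a₁) (v - QuadraticMap.polar (⇑Q) a₁ v • a) = 0
        rw [QuadraticMap.polar_add_left, QuadraticMap.polar_smul_left,
          QuadraticMap.polar_smul_left, QuadraticMap.polar_sub_right,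
          QuadraticMap.polar_sub_right, QuadraticMap.polar_smul_right,
          QuadraticMap.polar_smul_right, hav, haself, ha₁a]
        simp
    · have hPX : Submodule.span F {a} ≤ X := by
        rw [Submodule.span_singleton_le_iff_mem]
        exact haX
      have hT := perp_nd Q X (Submodule.span F {a}) hndX (span_single_nd Q S.h2 a hQa) hPX
      have hf1 := finrank_le_inf_orth Q S.hQ X (Submodule.span F {a})
      have hf2 := finrank_span_singleton_le' (F := F) a
      refine core _ inf_le_left hT (by omega)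
        (fun t ht => (LinearMap.BilinForm.mem_orthogonal_iff.mp ht.2) a
          (Submodule.mem_span_singleton_self a)) ⟨v, ⟨hvX, ?_⟩, hvx''⟩
      refine LinearMap.BilinForm.mem_orthogonal_iff.mpr (fun n hn => ?_)
      obtain ⟨c, rfl⟩ := Submodule.mem_span_singleton.mp hn
      show QuadraticMap.polar (⇑Q) (c • a) v = 0
      rw [QuadraticMap.polar_smul_left, hav, smul_zero]

end

end Cfsg.Agent.H17.Dc
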