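import Cfsg.Agent.H17.DcD

set_option autoImplicit false
set_option linter.unusedSectionVars false

/-! helper17: orthogonal projection onto a non-degenerate subspace, three-dimensional
blocks: bases, rotations about a non-singular vector, conics. -/

namespace Cfsg.Agent.H17.Dc

open Module Matrix Cfsg.Agent.H49 Cfsg.Agent.H95

section
variable {ι : Type} [Fintype ι] [DecidableEq ι] {F : Type*} [Field F]

/-- Orthogonal projection onto a non-degenerate subspace. -/
noncomputable def prj (Q : QuadraticForm F (ι → F)) (X : Submodule F (ι → F))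
    (hX : X ⊓ LinearMap.BilinForm.orthogonal (QuadraticMap.polarBilin Q) X = ⊥) (v : ι → F) :
    ι → F :=
  Classical.choose (exists_decomp Q X hX v)

theorem prj_mem (Q : QuadraticForm F (ι → F)) (X : Submodule F (ι → F))
    (hX : X ⊓ LinearMap.BilinForm.orthogonal (QuadraticMap.polarBilin Q) X = ⊥) (v : ι → F) :
    prj Q X hX v ∈ X :=
  (Classical.choose_spec (exists_decomp Q X hX v)).1

theorem prj_perp (Q : QuadraticForm F (ι → F)) (X : Submodule F (ι → F))
    (hX : X ⊓ LinearMap.BilinForm.orthogonal (QuadraticMap.polarBilin Q) X = ⊥) (v : ι → F) :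
    ∀ w ∈ X, QuadraticMap.polar (⇑Q) w (v - prj Q X hX v) = 0 := by
  obtain ⟨y, hy, e⟩ := (Classical.choose_spec (exists_decomp Q X hX v)).2
  intro w hw
  have h : v - prj Q X hX v = y := by
    unfold prj
    exact sub_eq_of_eq_add' e
  rw [h]
  exact hy w hw

theorem prj_polar (Q : QuadraticForm F (ι → F)) (X : Submodule F (ι → F))
    (hX : X ⊓ LinearMap.BilinForm.orthogonal (QuadraticMap.polarBilin Q) X = ⊥) (v : ι → F)
    {w : ι → F} (hw : w ∈ X) :
    QuadraticMap.polar (⇑Q) w (prj Q X hX v) = QuadraticMap.polar (⇑Q) w v := by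
  have := prj_perp Q X hX v w hw
  rw [QuadraticMap.polar_sub_right] at this
  exact (sub_eq_zero.mp this).symm

theorem prj_unique (Q : QuadraticForm F (ι → F)) (X : Submodule F (ι → F))
    (hX : X ⊓ LinearMap.BilinForm.orthogonal (QuadraticMap.polarBilin Q) X = ⊥) (v : ι → F)
    {x : ι → F} (hx : x ∈ X)
    (h : ∀ w ∈ X, QuadraticMap.polar (⇑Q) w x = QuadraticMap.polar (⇑Q) w v) :
    prj Q X hX v = x := by
  have hd : prj Q X hX v - x ∈ X ⊓ LinearMap.BilinForm.orthogonal (QuadraticMap.polarBilin Q) X := by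
    refine ⟨X.sub_mem (prj_mem Q X hX v) hx,
      LinearMap.BilinForm.mem_orthogonal_iff.mpr (fun w hw => ?_)⟩
    show QuadraticMap.polar (⇑Q) w (prj Q X hX v - x) = 0
    rw [QuadraticMap.polar_sub_right, prj_polar Q X hX v hw, h w hw, sub_self]
  rw [hX, Submodule.mem_bot] at hd
  exact sub_eq_zero.mp hd

theorem prj_of_mem (Q : QuadraticForm F (ι → F)) (X : Submodule F (ι → F))
    (hX : X ⊓ LinearMap.BilinForm.orthogonal (QuadraticMap.polarBilin Q) X = ⊥) {x : ι → F}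
    (hx : x ∈ X) : prj Q X hX x = x :=
  prj_unique Q X hX x hx (fun _ _ => rfl)

theorem prj_of_perp (Q : QuadraticForm F (ι → F)) (X : Submodule F (ι → F))
    (hX : X ⊓ LinearMap.BilinForm.orthogonal (QuadraticMap.polarBilin Q) X = ⊥) {y : ι → F}
    (hy : ∀ w ∈ X, QuadraticMap.polar (⇑Q) w y = 0) : prj Q X hX y = 0 :=
  prj_unique Q X hX y X.zero_mem
    (fun w hw => by rw [QuadraticMap.polar_zero_right, hy w hw])

theorem prj_add (Q : QuadraticForm F (ι → F)) (X : Submodule F (ι → F))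
    (hX : X ⊓ LinearMap.BilinForm.orthogonal (QuadraticMap.polarBilin Q) X = ⊥) (v w : ι → F) :
    prj Q X hX (v + w) = prj Q X hX v + prj Q X hX w :=
  prj_unique Q X hX _ (X.add_mem (prj_mem Q X hX v) (prj_mem Q X hX w)) (fun u hu => by
    rw [QuadraticMap.polar_add_right, QuadraticMap.polar_add_right, prj_polar Q X hX v hu,
      prj_polar Q X hX w hu])

theorem prj_smul (Q : QuadraticForm F (ι → F)) (X : Submodule F (ι → F))
    (hX : X ⊓ LinearMap.BilinForm.orthogonal (QuadraticMap.polarBilin Q) X = ⊥) (c : F)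
    (v : ι → F) : prj Q X hX (c • v) = c • prj Q X hX v :=
  prj_unique Q X hX _ (X.smul_mem c (prj_mem Q X hX v)) (fun u hu => by
    rw [QuadraticMap.polar_smul_right, QuadraticMap.polar_smul_right, prj_polar Q X hX v hu])

theorem prj_eq_zero_perp (Q : QuadraticForm F (ι → F)) (X : Submodule F (ι → F))
    (hX : X ⊓ LinearMap.BilinForm.orthogonal (QuadraticMap.polarBilin Q) X = ⊥) {v : ι → F}
    (h : prj Q X hX v = 0) : ∀ w ∈ X, QuadraticMap.polar (⇑Q) w v = 0 := by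
  intro w hw
  rw [← prj_polar Q X hX v hw, h, QuadraticMap.polar_zero_right]

/-- Elements of the block subgroup stabilise the block. -/
theorem KX_act_mem (Q : QuadraticForm F (ι → F))
    (hQ : (QuadraticMap.polarBilin Q).Nondegenerate) (X : Submodule F (ι → F))
    (hX : X ⊓ LinearMap.BilinForm.orthogonal (QuadraticMap.polarBilin Q) X = ⊥)
    {g : ↥(Cfsg.isometryGroup F (⇑Q))} (hg : g ∈ KX Q X) {x : ι → F} (hx : x ∈ X) :
    act g x ∈ X := by
  have h0 : act g x - prj Q X hX (act g x) = 0 := by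
    apply hQ.1
    intro v
    show QuadraticMap.polar (⇑Q) (act g x - prj Q X hX (act g x)) v = 0
    have h1 : QuadraticMap.polar (⇑Q) (act g x - prj Q X hX (act g x)) (prj Q X hX v) = 0 := by
      rw [QuadraticMap.polar_comm]
      exact prj_perp Q X hX (act g x) _ (prj_mem Q X hX v)
    have h2 : QuadraticMap.polar (⇑Q) (act g x - prj Q X hX (act g x)) (v - prj Q X hX v)
        = 0 := by
      rw [QuadraticMap.polar_sub_left]
      have hfix : act g (v - prj Q X hX v) = v - prj Q X hX v := hg.2 _ (prj_perp Q X hX v)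
      have e1 : QuadraticMap.polar (⇑Q) (act g x) (v - prj Q X hX v) = 0 := by
        rw [← hfix, polar_act]
        exact prj_perp Q X hX v x hx
      have e2 : QuadraticMap.polar (⇑Q) (prj Q X hX (act g x)) (v - prj Q X hX v) = 0 :=
        prj_perp Q X hX v _ (prj_mem Q X hX (act g x))
      rw [e1, e2, sub_zero]
    have hv : QuadraticMap.polar (⇑Q) (act g x - prj Q X hX (act g x)) v
        = QuadraticMap.polar (⇑Q) (act g x - prj Q X hX (act g x)) (prj Q X hX v)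
          + QuadraticMap.polar (⇑Q) (act g x - prj Q X hX (act g x)) (v - prj Q X hX v) := by
      rw [← QuadraticMap.polar_add_right]
      congr 1
      abel
    rw [hv, h1, h2, add_zero]
  rw [sub_eq_zero] at h0
  rw [h0]
  exact prj_mem Q X hX (act g x)

theorem KX_act_prj (Q : QuadraticForm F (ι → F)) (X : Submodule F (ι → F))
    (hX : X ⊓ LinearMap.BilinForm.orthogonal (QuadraticMap.polarBilin Q) X = ⊥)
    {g : ↥(Cfsg.isometryGroup F (⇑Q))} (hg : g ∈ KX Q X) (v : ι → F) :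
    act g v = v + (act g (prj Q X hX v) - prj Q X hX v) := by
  have hfix : act g (v - prj Q X hX v) = v - prj Q X hX v := hg.2 _ (prj_perp Q X hX v)
  rw [act_sub] at hfix
  rw [sub_eq_iff_eq_add] at hfix
  rw [hfix]
  abel

/-- A three-dimensional subspace is spanned by three vectors with a dual family. -/
theorem span3 (Q : QuadraticForm F (ι → F)) (X : Submodule F (ι → F)) (hdim : finrank F X = 3)
    (v₀ v₁ v₂ w₀ w₁ w₂ : ι → F) (h₀ : v₀ ∈ X) (h₁ : v₁ ∈ X) (h₂ : v₂ ∈ X)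
    (h00 : QuadraticMap.polar (⇑Q) v₀ w₀ = 1) (h01 : QuadraticMap.polar (⇑Q) v₀ w₁ = 0)
    (h02 : QuadraticMap.polar (⇑Q) v₀ w₂ = 0) (h10 : QuadraticMap.polar (⇑Q) v₁ w₀ = 0)
    (h11 : QuadraticMap.polar (⇑Q) v₁ w₁ = 1) (h12 : QuadraticMap.polar (⇑Q) v₁ w₂ = 0)
    (h20 : QuadraticMap.polar (⇑Q) v₂ w₀ = 0) (h21 : QuadraticMap.polar (⇑Q) v₂ w₁ = 0)
    (h22 : QuadraticMap.polar (⇑Q) v₂ w₂ = 1) {x : ι → F} (hx : x ∈ X) :
    x = QuadraticMap.polar (⇑Q) x w₀ • v₀ + QuadraticMap.polar (⇑Q) x w₁ • v₁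
      + QuadraticMap.polar (⇑Q) x w₂ • v₂ := by
  have hli : LinearIndependent F ![v₀, v₁, v₂] := by
    apply linearIndependent_of_dual Q ![v₀, v₁, v₂] ![w₀, w₁, w₂]
    intro i j
    fin_cases i <;> fin_cases j <;> simp [h00, h01, h02, h10, h11, h12, h20, h21, h22]
  have hle : Submodule.span F (Set.range ![v₀, v₁, v₂]) ≤ X := by
    rw [Submodule.span_le]
    rintro _ ⟨i, rfl⟩
    fin_cases i
    · exact h₀
    · exact h₁
    · exact h₂
  have hfr : finrank F (Submodule.span F (Set.range ![v₀, v₁, v₂])) = 3 := by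
    rw [finrank_span_eq_card hli]
    simp
  have heq : Submodule.span F (Set.range ![v₀, v₁, v₂]) = X :=
    Submodule.eq_of_le_of_finrank_eq hle (by rw [hfr, hdim])
  rw [← heq] at hx
  obtain ⟨c, rfl⟩ := (Submodule.mem_span_range_iff_exists_fun F).mp hx
  simp only [Fin.sum_univ_three, Matrix.cons_val_zero, Matrix.cons_val_one, Matrix.cons_val_two,
    Matrix.head_cons, Matrix.tail_cons, QuadraticMap.polar_add_left,
    QuadraticMap.polar_smul_left, h00, h01, h02, h10, h11, h12, h20, h21, h22, smul_eq_mul,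
    mul_one, mul_zero, add_zero, zero_add]

theorem exists_nonsing_in (Q : QuadraticForm F (ι → F)) (T : Submodule F (ι → F))
    (hT : T ⊓ LinearMap.BilinForm.orthogonal (QuadraticMap.polarBilin Q) T = ⊥) (hT0 : T ≠ ⊥) :
    ∃ p ∈ T, Q p ≠ 0 := by
  obtain ⟨t, ht, ht0⟩ := Submodule.exists_mem_ne_zero_of_ne_bot hT0
  obtain ⟨y, hy, hyt⟩ := exists_polar_ne_of_inf_orth Q T hT t ht ht0
  by_cases h1 : Q t = 0
  · by_cases h2 : Q y = 0
    · exact ⟨y + t, T.add_mem hy ht, by rw [Q_add', h1, h2, zero_add, zero_add]; exact hyt⟩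
    · exact ⟨y, hy, h2⟩
  · exact ⟨t, ht, h1⟩

/-! ### Eichler elements `E(s, c a₁)` -/

theorem eG_diff_perp (Q : QuadraticForm F (ι → F)) (s a₁ : ι → F) (c : F) (hs : Q s = 0)
    (hsa : QuadraticMap.polar (⇑Q) s a₁ = 0) (y : ι → F) :
    QuadraticMap.polar (⇑Q) s (act (eG Q s (c • a₁)) y - y) = 0 := by
  have hsa' : QuadraticMap.polar (⇑Q) s (c • a₁) = 0 := by
    rw [QuadraticMap.polar_smul_right, hsa, smul_zero]
  have hss : QuadraticMap.polar (⇑Q) s s = 0 := by rw [polar_self', hs, mul_zero]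
  rw [act_eG Q s (c • a₁) hs hsa', eich_apply]
  simp only [QuadraticMap.polar_sub_right, QuadraticMap.polar_add_right,
    QuadraticMap.polar_smul_right, hsa, hss, smul_eq_mul, mul_zero, add_zero, sub_zero, sub_self]

theorem eG_polar_self (Q : QuadraticForm F (ι → F)) (s a₁ : ι → F) (c : F) (hs : Q s = 0)
    (hsa : QuadraticMap.polar (⇑Q) s a₁ = 0) (y : ι → F) :
    QuadraticMap.polar (⇑Q) (act (eG Q s (c • a₁)) y) y
      = 2 * Q y - c * c * Q a₁ * (QuadraticMap.polar (⇑Q) s y * QuadraticMap.polar (⇑Q) s y) := by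
  have hsa' : QuadraticMap.polar (⇑Q) s (c • a₁) = 0 := by
    rw [QuadraticMap.polar_smul_right, hsa, smul_zero]
  rw [act_eG Q s (c • a₁) hs hsa', eich_apply]
  simp only [QuadraticMap.polar_sub_left, QuadraticMap.polar_add_left,
    QuadraticMap.polar_smul_left, QuadraticMap.map_smul, polar_self', smul_eq_mul]
  ring

/-- An Eichler element of a block with prescribed behaviour on a vector `w`. -/
theorem exists_eG [Fintype F] (Q : QuadraticForm F (ι → F))
    (hQ : (QuadraticMap.polarBilin Q).Nondegenerate) (h3 : HasTS3 Q)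
    (h5 : 5 ≤ Fintype.card F) (X : Submodule F (ι → F))
    (hX : X ⊓ LinearMap.BilinForm.orthogonal (QuadraticMap.polarBilin Q) X = ⊥)
    (hdim : 3 ≤ finrank F X) (s w : ι → F) (hsX : s ∈ X) (hs : Q s = 0)
    (hsw : QuadraticMap.polar (⇑Q) s w ≠ 0) (τ : F) :
    ∃ g ∈ KX Q X, (∀ y, QuadraticMap.polar (⇑Q) s (act g y - y) = 0) ∧
      (∀ y, act g y = y → QuadraticMap.polar (⇑Q) s y = 0) ∧
      QuadraticMap.polar (⇑Q) (act g w) w ≠ τ := by
  have hs0 : s ≠ 0 := by
    rintro rfl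
    exact hsw (QuadraticMap.polar_zero_left _ _)
  obtain ⟨s₁, hs₁X, hs₁, hss⟩ := exists_partner_in Q X hX s hsX hs0 hs
  obtain ⟨a₁, ha₁X, hsa₁, -, hQa₁⟩ :=
    exists_nonsing_perp Q hQ X hX hdim s s₁ hsX hs₁X hs hs₁ hss
  obtain ⟨c, hc0, hc⟩ := exists_avoid h5
    ((2 * Q w - τ) / (Q a₁ * (QuadraticMap.polar (⇑Q) s w * QuadraticMap.polar (⇑Q) s w)))
  have hsa' : QuadraticMap.polar (⇑Q) s (c • a₁) = 0 := by
    rw [QuadraticMap.polar_smul_right, hsa₁, smul_zero]
  refine ⟨eG Q s (c • a₁), eG_mem_KX Q hQ h3 X s (c • a₁) hsX (X.smul_mem c ha₁X) hs hsa',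
    fun y => eG_diff_perp Q s a₁ c hs hsa₁ y, fun y hy => ?_, ?_⟩
  · have h := eG_polar_self Q s a₁ c hs hsa₁ y
    rw [hy, polar_self'] at h
    have h0 : c * c * Q a₁ * (QuadraticMap.polar (⇑Q) s y * QuadraticMap.polar (⇑Q) s y) = 0 := by
      linear_combination h
    rcases mul_eq_zero.mp h0 with h' | h'
    · exact absurd h' (mul_ne_zero (mul_ne_zero hc0 hc0) hQa₁)
    · exact mul_self_eq_zero.mp h'
  · rw [eG_polar_self Q s a₁ c hs hsa₁ w]
    intro h
    apply hc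
    have hd : Q a₁ * (QuadraticMap.polar (⇑Q) s w * QuadraticMap.polar (⇑Q) s w) ≠ 0 :=
      mul_ne_zero hQa₁ (mul_ne_zero hsw hsw)
    rw [eq_div_iff hd]
    linear_combination -h

/-- A rotation of a three-dimensional block about a non-singular vector `a`, lying in the
block subgroup, whose only fixed vectors in the block are the multiples of `a`. -/
theorem exists_rot [Fintype F] (Q : QuadraticForm F (ι → F))
    (hQ : (QuadraticMap.polarBilin Q).Nondegenerate) (h2 : (2 : F) ≠ 0)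
    (h5 : 5 ≤ Fintype.card F) (X : Submodule F (ι → F))
    (hX : X ⊓ LinearMap.BilinForm.orthogonal (QuadraticMap.polarBilin Q) X = ⊥)
    (hdim : finrank F X = 3) (a : ι → F) (haX : a ∈ X) (ha : Q a ≠ 0) :
    ∃ h ∈ KX Q X, act h a = a ∧ ∀ y ∈ X, act h y = y → ∃ c : F, y = c • a := by
  have hPX : Submodule.span F {a} ≤ X := by
    rw [Submodule.span_singleton_le_iff_mem]
    exact haX
  have hT := perp_nd Q X (Submodule.span F {a}) hX (span_single_nd Q h2 a ha) hPX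
  have hf1 := finrank_le_inf_orth Q hQ X (Submodule.span F {a})
  have hf2 := finrank_span_singleton_le' (F := F) a
  have hT0 : (X ⊓ LinearMap.BilinForm.orthogonal (QuadraticMap.polarBilin Q)
      (Submodule.span F {a}) : Submodule F (ι → F)) ≠ ⊥ := by
    intro hb
    rw [hb, finrank_bot] at hf1
    omega
  obtain ⟨p₁, hp₁T, hQp₁⟩ := exists_nonsing_in Q _ hT hT0
  have hP₁T : Submodule.span F {p₁} ≤ (X ⊓ LinearMap.BilinForm.orthogonal
      (QuadraticMap.polarBilin Q) (Submodule.span F {a}) : Submodule F (ι → F)) := by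
    rw [Submodule.span_singleton_le_iff_mem]
    exact hp₁T
  have hT' := perp_nd Q _ (Submodule.span F {p₁}) hT (span_single_nd Q h2 p₁ hQp₁) hP₁T
  have hf3 := finrank_le_inf_orth Q hQ (X ⊓ LinearMap.BilinForm.orthogonal
      (QuadraticMap.polarBilin Q) (Submodule.span F {a}) : Submodule F (ι → F))
      (Submodule.span F {p₁})
  have hf4 := finrank_span_singleton_le' (F := F) p₁
  have hT'0 : ((X ⊓ LinearMap.BilinForm.orthogonal (QuadraticMap.polarBilin Q)
      (Submodule.span F {a})) ⊓ LinearMap.BilinForm.orthogonal (QuadraticMap.polarBilin Q)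
      (Submodule.span F {p₁}) : Submodule F (ι → F)) ≠ ⊥ := by
    intro hb
    rw [hb, finrank_bot] at hf3
    omega
  obtain ⟨p₂, hp₂T', hQp₂⟩ := exists_nonsing_in Q _ hT' hT'0
  have hp₁X : p₁ ∈ X := hp₁T.1
  have hap₁ : QuadraticMap.polar (⇑Q) a p₁ = 0 :=
    (LinearMap.BilinForm.mem_orthogonal_iff.mp hp₁T.2) a (Submodule.mem_span_singleton_self a)
  have hp₂X : p₂ ∈ X := hp₂T'.1.1
  have hap₂ : QuadraticMap.polar (⇑Q) a p₂ = 0 :=
    (LinearMap.BilinForm.mem_orthogonal_iff.mp hp₂T'.1.2) a (Submodule.mem_span_singleton_self a)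
  have hp₁p₂ : QuadraticMap.polar (⇑Q) p₁ p₂ = 0 :=
    (LinearMap.BilinForm.mem_orthogonal_iff.mp hp₂T'.2) p₁ (Submodule.mem_span_singleton_self p₁)
  have hp₁a : QuadraticMap.polar (⇑Q) p₁ a = 0 := by rw [QuadraticMap.polar_comm]; exact hap₁
  have hp₂a : QuadraticMap.polar (⇑Q) p₂ a = 0 := by rw [QuadraticMap.polar_comm]; exact hap₂
  have hp₂p₁ : QuadraticMap.polar (⇑Q) p₂ p₁ = 0 := by rw [QuadraticMap.polar_comm]; exact hp₁p₂
  obtain ⟨ν, hν0, hν⟩ := exists_avoid h5 (-(Q p₁) / Q p₂)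
  obtain ⟨w, hwd⟩ : ∃ w, w = p₁ + ν • p₂ := ⟨_, rfl⟩
  have hQw : Q w = Q p₁ + ν * ν * Q p₂ := by
    rw [hwd, Q_add', QuadraticMap.map_smul, QuadraticMap.polar_smul_right, hp₁p₂]
    simp
  have hQw0 : Q w ≠ 0 := by
    rw [hQw]
    intro h
    apply hν
    rw [eq_div_iff hQp₂]
    linear_combination h
  obtain ⟨κ, hκd⟩ : ∃ κ, κ = (Q w)⁻¹ * (2 * Q p₁) := ⟨_, rfl⟩
  have hκ0 : κ ≠ 0 := by
    rw [hκd]
    exact mul_ne_zero (inv_ne_zero hQw0) (mul_ne_zero h2 hQp₁)
  have hwp₁ : QuadraticMap.polar (⇑Q) w p₁ = 2 * Q p₁ := by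
    rw [hwd, QuadraticMap.polar_add_left, QuadraticMap.polar_smul_left, polar_self', hp₂p₁]
    simp
  obtain ⟨b', hb'd⟩ : ∃ b', b' = act (reflG Q w) p₁ := ⟨_, rfl⟩
  have hb' : b' = p₁ - κ • (p₁ + ν • p₂) := by rw [hb'd, act_reflG, hwp₁, hκd, hwd]
  have hQb' : Q b' = Q p₁ := by rw [hb'd, Q_act]
  have hb'X : b' ∈ X := by
    rw [hb']
    exact X.sub_mem hp₁X (X.smul_mem _ (X.add_mem hp₁X (X.smul_mem _ hp₂X)))
  have hb'a : QuadraticMap.polar (⇑Q) b' a = 0 := by
    rw [hb']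
    simp only [QuadraticMap.polar_sub_left, QuadraticMap.polar_add_left,
      QuadraticMap.polar_smul_left, hp₁a, hp₂a, smul_eq_mul, mul_zero, add_zero, sub_zero]
  have hb'p₂ : QuadraticMap.polar (⇑Q) b' p₂ = -(κ * ν * (2 * Q p₂)) := by
    rw [hb']
    simp only [QuadraticMap.polar_sub_left, QuadraticMap.polar_add_left,
      QuadraticMap.polar_smul_left, hp₁p₂, polar_self', smul_eq_mul]
    ring
  have hQb'0 : Q b' ≠ 0 := by rw [hQb']; exact hQp₁
  refine ⟨reflG Q p₁ * reflG Q b', rot_mem_KX Q h2 X p₁ b' hp₁X hb'X hQp₁ hQb'0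
    ⟨Q p₁, by rw [hQb']⟩, ?_, ?_⟩
  · have e : act (reflG Q b') a = a := by
      rw [act_reflG, hb'a, mul_zero, zero_smul, sub_zero]
    rw [act_mul, e, act_reflG, hp₁a, mul_zero, zero_smul, sub_zero]
  · intro y hyX hy
    have h2a : (2 : F) * Q a ≠ 0 := mul_ne_zero h2 ha
    have h2p₁ : (2 : F) * Q p₁ ≠ 0 := mul_ne_zero h2 hQp₁
    have h2p₂ : (2 : F) * Q p₂ ≠ 0 := mul_ne_zero h2 hQp₂
    have hexp := span3 Q X hdim a p₁ p₂ ((2 * Q a)⁻¹ • a) ((2 * Q p₁)⁻¹ • p₁)
      ((2 * Q p₂)⁻¹ • p₂) haX hp₁X hp₂X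
      (by rw [QuadraticMap.polar_smul_right, polar_self', smul_eq_mul, inv_mul_cancel₀ h2a])
      (by rw [QuadraticMap.polar_smul_right, hap₁, smul_zero])
      (by rw [QuadraticMap.polar_smul_right, hap₂, smul_zero])
      (by rw [QuadraticMap.polar_smul_right, hp₁a, smul_zero])
      (by rw [QuadraticMap.polar_smul_right, polar_self', smul_eq_mul, inv_mul_cancel₀ h2p₁])
      (by rw [QuadraticMap.polar_smul_right, hp₁p₂, smul_zero])
      (by rw [QuadraticMap.polar_smul_right, hp₂a, smul_zero])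
      (by rw [QuadraticMap.polar_smul_right, hp₂p₁, smul_zero])
      (by rw [QuadraticMap.polar_smul_right, polar_self', smul_eq_mul, inv_mul_cancel₀ h2p₂])
      hyX
    have h1 : act (reflG Q b') y = act (reflG Q p₁) y := by
      have := congrArg (act (reflG Q p₁)) hy
      rw [act_mul, ← act_mul, reflG_mul_self, act_one] at this
      exact this
    rw [act_reflG, act_reflG] at h1
    have h2' : ((Q b')⁻¹ * QuadraticMap.polar (⇑Q) b' y) • b'
        = ((Q p₁)⁻¹ * QuadraticMap.polar (⇑Q) p₁ y) • p₁ := sub_right_injective h1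
    have h3 := congrArg (fun z => QuadraticMap.polar (⇑Q) z p₂) h2'
    simp only [QuadraticMap.polar_smul_left, hp₁p₂, smul_eq_mul, mul_zero, hb'p₂] at h3
    have hb'y : QuadraticMap.polar (⇑Q) b' y = 0 := by
      have hne : -(κ * ν * (2 * Q p₂)) ≠ 0 :=
        neg_ne_zero.mpr (mul_ne_zero (mul_ne_zero hκ0 hν0) h2p₂)
      rcases mul_eq_zero.mp h3 with h | h
      · rcases mul_eq_zero.mp h with h' | h'
        · exact absurd h' (inv_ne_zero hQb'0)
        · exact h'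
      · exact absurd h hne
    rw [hb'y, mul_zero, zero_smul] at h2'
    have hp₁0 : p₁ ≠ 0 := by
      rintro rfl
      exact hQp₁ (QuadraticMap.map_zero _)
    have hp₁y : QuadraticMap.polar (⇑Q) p₁ y = 0 := by
      rcases smul_eq_zero.mp h2'.symm with h | h
      · rcases mul_eq_zero.mp h with h' | h'
        · exact absurd h' (inv_ne_zero hQp₁)
        · exact h'
      · exact absurd h hp₁0
    have hp₂y : QuadraticMap.polar (⇑Q) p₂ y = 0 := by
      rw [hb'] at hb'y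
      simp only [QuadraticMap.polar_sub_left, QuadraticMap.polar_add_left,
        QuadraticMap.polar_smul_left, hp₁y, smul_eq_mul, mul_zero, zero_add, zero_sub,
        neg_eq_zero] at hb'y
      rcases mul_eq_zero.mp hb'y with h | h
      · exact absurd h hκ0
      · rcases mul_eq_zero.mp h with h' | h'
        · exact absurd h' hν0
        · exact h'
    refine ⟨QuadraticMap.polar (⇑Q) y ((2 * Q a)⁻¹ • a), ?_⟩
    have e1 : QuadraticMap.polar (⇑Q) y ((2 * Q p₁)⁻¹ • p₁) = 0 := by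
      rw [QuadraticMap.polar_smul_right, QuadraticMap.polar_comm, hp₁y, smul_zero]
    have e2 : QuadraticMap.polar (⇑Q) y ((2 * Q p₂)⁻¹ • p₂) = 0 := by
      rw [QuadraticMap.polar_smul_right, QuadraticMap.polar_comm, hp₂y, smul_zero]
    rw [e1, e2, zero_smul, zero_smul, add_zero, add_zero] at hexp
    exact hexp

/-- Three points of a conic span the plane. -/
theorem three_conic (W : Submodule F (ι → F)) (s s₁ a₀ : ι → F) (q₀ : F) (hq₀ : q₀ ≠ 0)
    (c₁ c₂ c₃ : F) (h12 : c₁ ≠ c₂) (h13 : c₁ ≠ c₃) (h23 : c₂ ≠ c₃)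
    (h1 : s + c₁ • a₀ - (c₁ * c₁ * q₀) • s₁ ∈ W) (h2 : s + c₂ • a₀ - (c₂ * c₂ * q₀) • s₁ ∈ W)
    (h3 : s + c₃ • a₀ - (c₃ * c₃ * q₀) • s₁ ∈ W) : s ∈ W ∧ s₁ ∈ W ∧ a₀ ∈ W := by
  have e12 : (c₁ - c₂) • (a₀ - ((c₁ + c₂) * q₀) • s₁) ∈ W := by
    have := W.sub_mem h1 h2
    convert this using 1
    module
  have y12 : a₀ - ((c₁ + c₂) * q₀) • s₁ ∈ W :=
    (Submodule.smul_mem_iff W (sub_ne_zero.mpr h12)).mp e12
  have e13 : (c₁ - c₃) • (a₀ - ((c₁ + c₃) * q₀) • s₁) ∈ W := by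
    have := W.sub_mem h1 h3
    convert this using 1
    module
  have y13 : a₀ - ((c₁ + c₃) * q₀) • s₁ ∈ W :=
    (Submodule.smul_mem_iff W (sub_ne_zero.mpr h13)).mp e13
  have e : ((c₃ - c₂) * q₀) • s₁ ∈ W := by
    have := W.sub_mem y12 y13
    convert this using 1
    module
  have hs₁ : s₁ ∈ W :=
    (Submodule.smul_mem_iff W (mul_ne_zero (sub_ne_zero.mpr (Ne.symm h23)) hq₀)).mp e
  have ha₀ : a₀ ∈ W := by
    have := W.add_mem y12 (W.smul_mem ((c₁ + c₂) * q₀) hs₁)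
    rwa [sub_add_cancel] at this
  have hs : s ∈ W := by
    have := W.add_mem (W.sub_mem h1 (W.smul_mem c₁ ha₀)) (W.smul_mem (c₁ * c₁ * q₀) hs₁)
    convert this using 1
    module
  exact ⟨hs, hs₁, ha₀⟩

/-- The singular vectors of a three-dimensional block do not lie in the union of two proper
subspaces. -/
theorem genpos [Fintype F] (Q : QuadraticForm F (ι → F))
    (hQ : (QuadraticMap.polarBilin Q).Nondegenerate) (h2 : (2 : F) ≠ 0)
    (h5 : 5 ≤ Fintype.card F) (X' : Submodule F (ι → F))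
    (hX' : X' ⊓ LinearMap.BilinForm.orthogonal (QuadraticMap.polarBilin Q) X' = ⊥)
    (hdim : finrank F X' = 3) (A B' : Submodule F (ι → F))
    (h : ∀ r ∈ X', Q r = 0 → r ∈ A ∨ r ∈ B') : X' ≤ A ∨ X' ≤ B' := by
  classical
  obtain ⟨s, hsX, hs0, hs⟩ := exists_sing Q X' (by omega)
  obtain ⟨s₁, hs₁X, hs₁, hss⟩ := exists_partner_in Q X' hX' s hsX hs0 hs
  obtain ⟨a₀, ha₀X, hsa₀, hs₁a₀, hQa₀⟩ :=
    exists_nonsing_perp Q hQ X' hX' (by omega) s s₁ hsX hs₁X hs hs₁ hss
  have hs₁s : QuadraticMap.polar (⇑Q) s₁ s = 1 := by rw [QuadraticMap.polar_comm]; exact hss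
  have hsself : QuadraticMap.polar (⇑Q) s s = 0 := by rw [polar_self', hs, mul_zero]
  have hs₁self : QuadraticMap.polar (⇑Q) s₁ s₁ = 0 := by rw [polar_self', hs₁, mul_zero]
  have ha₀s : QuadraticMap.polar (⇑Q) a₀ s = 0 := by rw [QuadraticMap.polar_comm]; exact hsa₀
  have ha₀s₁ : QuadraticMap.polar (⇑Q) a₀ s₁ = 0 := by rw [QuadraticMap.polar_comm]; exact hs₁a₀
  have h2a₀ : (2 : F) * Q a₀ ≠ 0 := mul_ne_zero h2 hQa₀
  have hv : ∀ c : F, s + c • a₀ - (c * c * Q a₀) • s₁ ∈ X' ∧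
      Q (s + c • a₀ - (c * c * Q a₀) • s₁) = 0 := by
    intro c
    refine ⟨X'.sub_mem (X'.add_mem hsX (X'.smul_mem _ ha₀X)) (X'.smul_mem _ hs₁X), ?_⟩
    rw [Q_sub_smul, Q_add', hs, hs₁, QuadraticMap.map_smul, QuadraticMap.polar_smul_right, hsa₀,
      QuadraticMap.polar_add_right, QuadraticMap.polar_smul_right, hs₁s, hs₁a₀]
    simp only [smul_eq_mul, mul_zero, add_zero, zero_add, mul_one]
    ring
  have hspan : ∀ W : Submodule F (ι → F), s ∈ W → s₁ ∈ W → a₀ ∈ W → X' ≤ W := by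
    intro W h1 h2' h3 x hx
    have := span3 Q X' hdim s s₁ a₀ s₁ s ((2 * Q a₀)⁻¹ • a₀) hsX hs₁X ha₀X hss hsself
      (by rw [QuadraticMap.polar_smul_right, hsa₀, smul_zero]) hs₁self hs₁s
      (by rw [QuadraticMap.polar_smul_right, hs₁a₀, smul_zero]) ha₀s₁ ha₀s
      (by rw [QuadraticMap.polar_smul_right, polar_self', smul_eq_mul, inv_mul_cancel₀ h2a₀]) hx
    rw [this]
    exact W.add_mem (W.add_mem (W.smul_mem _ h1) (W.smul_mem _ h2')) (W.smul_mem _ h3)
  by_cases hP : 2 < (Finset.univ.filter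
      (fun c : F => s + c • a₀ - (c * c * Q a₀) • s₁ ∈ A)).card
  · left
    obtain ⟨c₁, c₂, c₃, m1, m2, m3, h12, h13, h23⟩ := Finset.two_lt_card_iff.mp hP
    rw [Finset.mem_filter] at m1 m2 m3
    obtain ⟨e1, e2, e3⟩ := three_conic A s s₁ a₀ (Q a₀) hQa₀ c₁ c₂ c₃ h12 h13 h23 m1.2 m2.2 m3.2
    exact hspan A e1 e2 e3
  · right
    have hcard : 2 < (Finset.univ.filter
        (fun c : F => ¬ (s + c • a₀ - (c * c * Q a₀) • s₁ ∈ A))).card := by
      have := Finset.card_filter_add_card_filter_not (s := (Finset.univ : Finset F))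
        (fun c : F => s + c • a₀ - (c * c * Q a₀) • s₁ ∈ A)
      rw [Finset.card_univ] at this
      omega
    obtain ⟨c₁, c₂, c₃, m1, m2, m3, h12, h13, h23⟩ := Finset.two_lt_card_iff.mp hcard
    rw [Finset.mem_filter] at m1 m2 m3
    have f : ∀ c : F, ¬ (s + c • a₀ - (c * c * Q a₀) • s₁ ∈ A) →
        s + c • a₀ - (c * c * Q a₀) • s₁ ∈ B' :=
      fun c hc => (h _ (hv c).1 (hv c).2).resolve_left hc
    obtain ⟨e1, e2, e3⟩ := three_conic B' s s₁ a₀ (Q a₀) hQa₀ c₁ c₂ c₃ h12 h13 h23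
      (f _ m1.2) (f _ m2.2) (f _ m3.2)
    exact hspan B' e1 e2 e3

end

end Cfsg.Agent.H17.Dc
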