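import Cfsg.Agent.H17.DcE

set_option autoImplicit false
set_option linter.unusedSectionVars false

/-! helper17: block systems with three-dimensional blocks (`q ≥ 5`): two distinct blocks
are orthogonal unless `M` has a mixed Eichler direction. -/

namespace Cfsg.Agent.H17.Dc

open Module Matrix Cfsg.Agent.H49 Cfsg.Agent.H95

section
variable {ι : Type} [Fintype ι] [DecidableEq ι] {F : Type*} [Field F]
variable [Fintype F] {Q : QuadraticForm F (ι → F)}
  {M : Subgroup ↥(Cfsg.isometryGroup F (⇑Q))} {k : ℕ} {B : Submodule F (ι → F) → Prop}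

theorem BSys.f0 (S : BSys Q M k B) (hW : ¬ Win Q M B) {X X' : Submodule F (ι → F)} (hX : B X)
    (hX' : B X') (hne : X ≠ X') {s : ι → F} (hsX : s ∈ X) (hsX' : s ∈ X') (hs : Q s = 0) :
    s = 0 := by
  by_contra hs0
  exact hW (S.w2 hX hX' hne hsX hsX' hs0 hs)

/-- A singular vector of `X'` orthogonal to `X` forces `X ⟂ X'`. -/
theorem BSys.f1a (S : BSys Q M k B) (hW : ¬ Win Q M B) {X X' : Submodule F (ι → F)} (hX : B X)
    (hX' : B X') (hne : X ≠ X') {r : ι → F} (hrX' : r ∈ X') (hr0 : r ≠ 0) (hr : Q r = 0)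
    (hrX : ∀ a ∈ X, QuadraticMap.polar (⇑Q) a r = 0) :
    ∀ x ∈ X, ∀ x' ∈ X', QuadraticMap.polar (⇑Q) x x' = 0 := by
  intro x hx x' hx'
  by_contra hxx'
  have hndX := S.nd X hX
  have hdX := S.dim X hX
  have h3 := S.three_le
  obtain ⟨s, hsX, hs, hsx'⟩ := exists_sing_not_perp Q X hndX (by omega) x' ⟨x, hx, hxx'⟩
  have hs0 : s ≠ 0 := by
    rintro rfl
    exact hsx' (QuadraticMap.polar_zero_left _ _)
  obtain ⟨s₁, hs₁X, hs₁, hss⟩ := exists_partner_in Q X hndX s hsX hs0 hs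
  obtain ⟨a₀, ha₀X, hsa₀, -, hQa₀⟩ :=
    exists_nonsing_perp Q S.hQ X hndX (by omega) s s₁ hsX hs₁X hs hs₁ hss
  exact S.s' hW hX hX' hne hrX' hr0 hr hsX hs ha₀X hsa₀ hQa₀ (hrX s hsX) (hrX a₀ ha₀X) hx' hsx'

/-- The projection to `X` of a singular vector of `X'` is non-singular. -/
theorem BSys.f1b (S : BSys Q M k B) (hW : ¬ Win Q M B) {X X' : Submodule F (ι → F)} (hX : B X)
    (hX' : B X') (hne : X ≠ X')
    (hndX : X ⊓ LinearMap.BilinForm.orthogonal (QuadraticMap.polarBilin Q) X = ⊥)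
    (hno : ¬ ∀ x ∈ X, ∀ x' ∈ X', QuadraticMap.polar (⇑Q) x x' = 0) {r : ι → F} (hrX' : r ∈ X')
    (hr0 : r ≠ 0) (hr : Q r = 0) : Q (prj Q X hndX r) ≠ 0 := by
  intro hQa
  have hdX := S.dim X hX
  have h3 := S.three_le
  obtain ⟨a, had⟩ : ∃ a, a = prj Q X hndX r := ⟨_, rfl⟩
  rw [← had] at hQa
  have haX : a ∈ X := by rw [had]; exact prj_mem Q X hndX r
  have hpol : ∀ w ∈ X, QuadraticMap.polar (⇑Q) w r = QuadraticMap.polar (⇑Q) w a :=
    fun w hw => by rw [had, prj_polar Q X hndX r hw]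
  by_cases ha0 : a = 0
  · apply hno
    apply S.f1a hW hX hX' hne hrX' hr0 hr
    intro w hw
    rw [hpol w hw, ha0, QuadraticMap.polar_zero_right]
  · obtain ⟨a₁, ha₁X, ha₁, haa⟩ := exists_partner_in Q X hndX a haX ha0 hQa
    obtain ⟨a₀, ha₀X, haa₀, -, hQa₀⟩ :=
      exists_nonsing_perp Q S.hQ X hndX (by omega) a a₁ haX ha₁X hQa ha₁ haa
    have har : QuadraticMap.polar (⇑Q) a r = 0 := by rw [hpol a haX, polar_self', hQa, mul_zero]
    have ha₀r : QuadraticMap.polar (⇑Q) a₀ r = 0 := by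
      rw [hpol a₀ ha₀X, QuadraticMap.polar_comm]
      exact haa₀
    have hperp : ∀ x' ∈ X', QuadraticMap.polar (⇑Q) a x' = 0 := by
      intro x' hx'
      by_contra hne'
      exact S.s' hW hX hX' hne hrX' hr0 hr haX hQa ha₀X haa₀ hQa₀ har ha₀r hx' hne'
    apply hno
    intro x hx x' hx'
    rw [QuadraticMap.polar_comm]
    exact S.f1a hW hX' hX (Ne.symm hne) haX ha0 hQa
      (fun w hw => by rw [QuadraticMap.polar_comm]; exact hperp w hw) x' hx' x hx

/-- Key step of the trichotomy. -/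
theorem BSys.cl_key (S : BSys Q M k B) (hk3 : k = 3) (hW : ¬ Win Q M B)
    {X X' : Submodule F (ι → F)} (hX : B X) (hX' : B X') (hne : X ≠ X')
    (hndX : X ⊓ LinearMap.BilinForm.orthogonal (QuadraticMap.polarBilin Q) X = ⊥)
    (hno : ¬ ∀ x ∈ X, ∀ x' ∈ X', QuadraticMap.polar (⇑Q) x x' = 0) {r : ι → F} (hrX' : r ∈ X')
    (hr0 : r ≠ 0) (hr : Q r = 0) (haX' : prj Q X hndX r ∉ X') :
    (∀ z ∈ X, z ∈ X' → QuadraticMap.polar (⇑Q) z (prj Q X hndX r) = 0) ∧
    (∀ x' ∈ X', ∃ z ∈ X, z ∈ X' ∧ ∃ c : F, prj Q X hndX x' = z + c • prj Q X hndX r) := by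
  have hdX : finrank F X = 3 := by rw [S.dim X hX, hk3]
  have h5 := S.q5 hk3
  have hQa : Q (prj Q X hndX r) ≠ 0 := S.f1b hW hX hX' hne hndX hno hrX' hr0 hr
  obtain ⟨a, had⟩ : ∃ a, a = prj Q X hndX r := ⟨_, rfl⟩
  rw [← had] at haX' hQa ⊢
  have haX : a ∈ X := by rw [had]; exact prj_mem Q X hndX r
  have h2a : (2 : F) * Q a ≠ 0 := mul_ne_zero S.h2 hQa
  obtain ⟨h₀, hh₀K, hh₀a, hh₀fix⟩ := exists_rot Q S.hQ S.h2 h5 X hndX hdX a haX hQa
  have hh₀M : h₀ ∈ M := S.K X hX hh₀K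
  have hh₀r : act h₀ r = r := by
    rw [KX_act_prj Q X hndX hh₀K r, ← had, hh₀a, sub_self, add_zero]
  have hstab := S.p2 hW hX' hh₀M hrX' hr0 hr hh₀r
  have hpa : ∀ y, QuadraticMap.polar (⇑Q) a (act h₀ y) = QuadraticMap.polar (⇑Q) a y := by
    intro y
    have := polar_act Q h₀ a y
    rwa [hh₀a] at this
  have fix0 : ∀ y ∈ X, act h₀ y = y → QuadraticMap.polar (⇑Q) a y = 0 → y = 0 := by
    intro y hy hfix hay
    obtain ⟨c, rfl⟩ := hh₀fix y hy hfix
    rw [QuadraticMap.polar_smul_right, polar_self', smul_eq_mul] at hay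
    rcases mul_eq_zero.mp hay with h | h
    · rw [h, zero_smul]
    · exact absurd h h2a
  -- the linear map `h₀ - 1` on `Z₀ = X ∩ X' ∩ a^⊥`
  obtain ⟨f, hf⟩ : ∃ f : (ι → F) →ₗ[F] (ι → F), ∀ z, f z = act h₀ z - z :=
    ⟨Matrix.toLin' ((h₀ : Matrix.GeneralLinearGroup ι F) : Matrix ι ι F) - LinearMap.id,
      fun z => by
        rw [LinearMap.sub_apply, Matrix.toLin'_apply, LinearMap.id_apply]
        rfl⟩
  obtain ⟨Z₀, hZ₀d⟩ : ∃ Z₀ : Submodule F (ι → F),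
      Z₀ = X ⊓ X' ⊓ LinearMap.ker (QuadraticMap.polarBilin Q a) := ⟨_, rfl⟩
  have hZ₀ : ∀ z, z ∈ Z₀ ↔ (z ∈ X ∧ z ∈ X') ∧ QuadraticMap.polar (⇑Q) a z = 0 := by
    intro z
    rw [hZ₀d]
    exact Iff.rfl
  have hfZ : ∀ z ∈ Z₀, f z ∈ Z₀ := by
    intro z hz
    obtain ⟨⟨hzX, hzX'⟩, haz⟩ := (hZ₀ z).mp hz
    rw [hf]
    refine (hZ₀ _).mpr ⟨⟨X.sub_mem (KX_act_mem Q S.hQ X hndX hh₀K hzX) hzX,
      X'.sub_mem (hstab z hzX') hzX'⟩, ?_⟩
    rw [QuadraticMap.polar_sub_right, hpa, sub_self]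
  have hinj : Function.Injective (f.restrict hfZ) := by
    rw [← LinearMap.ker_eq_bot, LinearMap.ker_eq_bot']
    rintro ⟨z, hz⟩ h0
    have h1 := congrArg Subtype.val h0
    rw [LinearMap.coe_restrict_apply] at h1
    simp only [ZeroMemClass.coe_zero] at h1
    rw [hf] at h1
    obtain ⟨⟨hzX, -⟩, haz⟩ := (hZ₀ z).mp hz
    exact Subtype.ext (fix0 z hzX (sub_eq_zero.mp h1) haz)
  have hsurj : Function.Surjective (f.restrict hfZ) := LinearMap.injective_iff_surjective.mp hinj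
  have hsurj' : ∀ d ∈ Z₀, ∃ z₀, z₀ ∈ X ∧ z₀ ∈ X' ∧ act h₀ z₀ - z₀ = d := by
    intro d hd
    obtain ⟨⟨z₀, hz₀⟩, e⟩ := hsurj ⟨d, hd⟩
    have h1 := congrArg Subtype.val e
    rw [LinearMap.coe_restrict_apply] at h1
    simp only at h1
    rw [hf] at h1
    obtain ⟨⟨hzX, hzX'⟩, -⟩ := (hZ₀ z₀).mp hz₀
    exact ⟨z₀, hzX, hzX', h1⟩
  -- vectors of `X` with the same `h₀ - 1` image differ by a multiple of `a`
  have hdiff : ∀ p ∈ X, ∀ z₀ ∈ X, act h₀ z₀ - z₀ = act h₀ p - p → ∃ c : F, p - z₀ = c • a := by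
    intro p hp z₀ hz₀ e
    apply hh₀fix _ (X.sub_mem hp hz₀)
    obtain ⟨d, hd⟩ : ∃ d, d = act h₀ p - p := ⟨_, rfl⟩
    rw [← hd] at e
    have e1 : act h₀ p = d + p := by rw [hd]; abel
    have e2 : act h₀ z₀ = d + z₀ := eq_add_of_sub_eq e
    rw [act_sub, e1, e2]
    abel
  constructor
  · intro z hzX hzX'
    have hd : act h₀ z - z ∈ Z₀ := by
      refine (hZ₀ _).mpr ⟨⟨X.sub_mem (KX_act_mem Q S.hQ X hndX hh₀K hzX) hzX,
        X'.sub_mem (hstab z hzX') hzX'⟩, ?_⟩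
      rw [QuadraticMap.polar_sub_right, hpa, sub_self]
    obtain ⟨z₀, hz₀X, hz₀X', e⟩ := hsurj' _ hd
    obtain ⟨c, hc⟩ := hdiff z hzX z₀ hz₀X e
    have hc0 : c = 0 := by
      by_contra hc0
      apply haX'
      have h1 : c • a ∈ X' := by rw [← hc]; exact X'.sub_mem hzX' hz₀X'
      exact (Submodule.smul_mem_iff X' hc0).mp h1
    rw [hc0, zero_smul, sub_eq_zero] at hc
    have hz₀Z : z₀ ∈ Z₀ := by
      obtain ⟨⟨w, hw⟩, e'⟩ := hsurj ⟨_, hd⟩
      have h1 := congrArg Subtype.val e'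
      rw [LinearMap.coe_restrict_apply] at h1
      simp only at h1
      rw [hf] at h1
      have hwX : w ∈ X := ((hZ₀ w).mp hw).1.1
      obtain ⟨c', hc'⟩ := hdiff z hzX w hwX h1
      have hc'0 : c' = 0 := by
        by_contra hc'0
        apply haX'
        have h2 : c' • a ∈ X' := by rw [← hc']; exact X'.sub_mem hzX' ((hZ₀ w).mp hw).1.2
        exact (Submodule.smul_mem_iff X' hc'0).mp h2
      rw [hc'0, zero_smul, sub_eq_zero] at hc'
      rw [← hc, hc']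
      exact hw
    rw [hc, QuadraticMap.polar_comm]
    exact ((hZ₀ z₀).mp hz₀Z).2
  · intro x' hx'
    obtain ⟨p, hpd⟩ : ∃ p, p = prj Q X hndX x' := ⟨_, rfl⟩
    rw [← hpd]
    have hpX : p ∈ X := by rw [hpd]; exact prj_mem Q X hndX x'
    have hd : act h₀ p - p ∈ Z₀ := by
      refine (hZ₀ _).mpr ⟨⟨X.sub_mem (KX_act_mem Q S.hQ X hndX hh₀K hpX) hpX, ?_⟩, ?_⟩
      · have e : act h₀ p - p = act h₀ x' - x' := by
          rw [KX_act_prj Q X hndX hh₀K x', ← hpd]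
          abel
        rw [e]
        exact X'.sub_mem (hstab x' hx') hx'
      · rw [QuadraticMap.polar_sub_right, hpa, sub_self]
    obtain ⟨z₀, hz₀X, hz₀X', e⟩ := hsurj' _ hd
    obtain ⟨c, hc⟩ := hdiff p hpX z₀ hz₀X e
    exact ⟨z₀, hz₀X, hz₀X', c, by rw [← hc]; abel⟩

/-- The trichotomy for two distinct three-dimensional blocks. -/
theorem BSys.cl (S : BSys Q M k B) (hk3 : k = 3) (hW : ¬ Win Q M B)
    {X X' : Submodule F (ι → F)} (hX : B X) (hX' : B X') (hne : X ≠ X')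
    (hndX : X ⊓ LinearMap.BilinForm.orthogonal (QuadraticMap.polarBilin Q) X = ⊥) :
    (∀ x ∈ X, ∀ x' ∈ X', QuadraticMap.polar (⇑Q) x x' = 0) ∨
    (∀ x' ∈ X', prj Q X hndX x' ∈ X') ∨
    ((∀ z ∈ X, z ∈ X' → z = 0) ∧ ∃ y : ι → F, ∀ x' ∈ X', ∃ c : F, prj Q X hndX x' = c • y) := by
  by_cases hno : ∀ x ∈ X, ∀ x' ∈ X', QuadraticMap.polar (⇑Q) x x' = 0
  · exact Or.inl hno
  · right
    have hndX' := S.nd X' hX'
    have hdX' : finrank F X' = 3 := by rw [S.dim X' hX', hk3]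
    have h5 := S.q5 hk3
    have hgp := genpos Q S.hQ S.h2 h5 X' hndX' hdX'
      ((X ⊓ X') ⊔ (X' ⊓ LinearMap.BilinForm.orthogonal (QuadraticMap.polarBilin Q) X))
      (LinearMap.BilinForm.orthogonal (QuadraticMap.polarBilin Q) (X ⊓ X'))
      (by
        intro r hrX' hr
        by_cases hr0 : r = 0
        · left
          rw [hr0]
          exact Submodule.zero_mem _
        · by_cases hin : prj Q X hndX r ∈ X'
          · left
            have e : r = prj Q X hndX r + (r - prj Q X hndX r) := by abel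
            rw [e]
            exact Submodule.add_mem_sup ⟨prj_mem Q X hndX r, hin⟩
              ⟨X'.sub_mem hrX' hin, LinearMap.BilinForm.mem_orthogonal_iff.mpr
                (fun w hw => prj_perp Q X hndX r w hw)⟩
          · right
            obtain ⟨h1, -⟩ := S.cl_key hk3 hW hX hX' hne hndX hno hrX' hr0 hr hin
            refine LinearMap.BilinForm.mem_orthogonal_iff.mpr (fun z hz => ?_)
            show QuadraticMap.polar (⇑Q) z r = 0
            rw [← prj_polar Q X hndX r hz.1]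
            exact h1 z hz.1 hz.2)
    rcases hgp with hA | hB
    · left
      intro x' hx'
      obtain ⟨z, hz, n, hn, rfl⟩ := Submodule.mem_sup.mp (hA hx')
      rw [prj_add, prj_of_mem Q X hndX hz.1, prj_of_perp Q X hndX
        (fun w hw => (LinearMap.BilinForm.mem_orthogonal_iff.mp hn.2) w hw), add_zero]
      exact hz.2
    · right
      have hZ0 : ∀ z ∈ X, z ∈ X' → z = 0 := by
        intro z hzX hzX'
        have : z ∈ X' ⊓ LinearMap.BilinForm.orthogonal (QuadraticMap.polarBilin Q) X' := by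
          refine ⟨hzX', LinearMap.BilinForm.mem_orthogonal_iff.mpr (fun w hw => ?_)⟩
          show QuadraticMap.polar (⇑Q) w z = 0
          rw [QuadraticMap.polar_comm]
          exact (LinearMap.BilinForm.mem_orthogonal_iff.mp (hB hw)) z ⟨hzX, hzX'⟩
        rw [hndX', Submodule.mem_bot] at this
        exact this
      refine ⟨hZ0, ?_⟩
      obtain ⟨r, hrX', hr0, hr⟩ := exists_sing Q X' (by omega)
      have hQa := S.f1b hW hX hX' hne hndX hno hrX' hr0 hr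
      have hin : prj Q X hndX r ∉ X' := by
        intro hin
        have := hZ0 _ (prj_mem Q X hndX r) hin
        rw [this] at hQa
        exact hQa (QuadraticMap.map_zero _)
      obtain ⟨-, h2⟩ := S.cl_key hk3 hW hX hX' hne hndX hno hrX' hr0 hr hin
      refine ⟨prj Q X hndX r, fun x' hx' => ?_⟩
      obtain ⟨z, hzX, hzX', c, e⟩ := h2 x' hx'
      rw [hZ0 z hzX hzX', zero_add] at e
      exact ⟨c, e⟩

end

end Cfsg.Agent.H17.Dc
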