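import Cfsg.Agent.H17.DcF

set_option autoImplicit false
set_option linter.unusedSectionVars false

/-! helper17: block systems with three-dimensional blocks (`q ≥ 5`): the two non-orthogonal
configurations of the trichotomy are impossible. -/

namespace Cfsg.Agent.H17.Dc

open Module Matrix Cfsg.Agent.H49 Cfsg.Agent.H95

section
variable {ι : Type} [Fintype ι] [DecidableEq ι] {F : Type*} [Field F]
variable [Fintype F] {Q : QuadraticForm F (ι → F)}
  {M : Subgroup ↥(Cfsg.isometryGroup F (⇑Q))} {k : ℕ} {B : Submodule F (ι → F) → Prop}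

/-- The rank-one configuration is impossible. -/
theorem BSys.kill_rank1 (S : BSys Q M k B) (hk3 : k = 3) (hW : ¬ Win Q M B)
    {X X' : Submodule F (ι → F)} (hX : B X) (hX' : B X') (hne : X ≠ X')
    (hndX : X ⊓ LinearMap.BilinForm.orthogonal (QuadraticMap.polarBilin Q) X = ⊥)
    (hno : ¬ ∀ x ∈ X, ∀ x' ∈ X', QuadraticMap.polar (⇑Q) x x' = 0)
    (hZ0 : ∀ z ∈ X, z ∈ X' → z = 0) (y₀ : ι → F)
    (hy₀ : ∀ x' ∈ X', ∃ c : F, prj Q X hndX x' = c • y₀) : False := by
  have hndX' := S.nd X' hX'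
  have hdX : finrank F X = 3 := by rw [S.dim X hX, hk3]
  have hdX' : finrank F X' = 3 := by rw [S.dim X' hX', hk3]
  have h5 := S.q5 hk3
  obtain ⟨r, hrX', hr0, hr⟩ := exists_sing Q X' (by omega)
  have hQa : Q (prj Q X hndX r) ≠ 0 := S.f1b hW hX hX' hne hndX hno hrX' hr0 hr
  obtain ⟨a, had⟩ : ∃ a, a = prj Q X hndX r := ⟨_, rfl⟩
  rw [← had] at hQa
  have haX : a ∈ X := by rw [had]; exact prj_mem Q X hndX r
  have h2a : (2 : F) * Q a ≠ 0 := mul_ne_zero S.h2 hQa
  have H1 : ∀ x' ∈ X', ∃ c : F, prj Q X hndX x' = c • a := by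
    obtain ⟨c₀, hc₀⟩ := hy₀ r hrX'
    rw [← had] at hc₀
    have hc₀0 : c₀ ≠ 0 := by
      rintro rfl
      rw [zero_smul] at hc₀
      rw [hc₀] at hQa
      exact hQa (QuadraticMap.map_zero _)
    intro x' hx'
    obtain ⟨c, hc⟩ := hy₀ x' hx'
    refine ⟨c * c₀⁻¹, ?_⟩
    rw [hc, hc₀, smul_smul, mul_assoc, inv_mul_cancel₀ hc₀0, mul_one]
  have H2 : ∀ x' ∈ X', QuadraticMap.polar (⇑Q) a x' = 0 →
      ∀ w ∈ X, QuadraticMap.polar (⇑Q) w x' = 0 := by
    intro x' hx' hax'
    obtain ⟨c, hc⟩ := H1 x' hx'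
    have h1 : QuadraticMap.polar (⇑Q) a (prj Q X hndX x') = 0 := by
      rw [prj_polar Q X hndX x' haX]
      exact hax'
    rw [hc, QuadraticMap.polar_smul_right, polar_self', smul_eq_mul] at h1
    have hc0 : c = 0 := by
      rcases mul_eq_zero.mp h1 with h | h
      · exact h
      · exact absurd h h2a
    rw [hc0, zero_smul] at hc
    exact prj_eq_zero_perp Q X hndX hc
  obtain ⟨a', ha'd⟩ : ∃ a', a' = prj Q X' hndX' a := ⟨_, rfl⟩
  have ha'X' : a' ∈ X' := by rw [ha'd]; exact prj_mem Q X' hndX' a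
  have hpa' : ∀ w ∈ X', QuadraticMap.polar (⇑Q) w a' = QuadraticMap.polar (⇑Q) w a :=
    fun w hw => by rw [ha'd, prj_polar Q X' hndX' a hw]
  have hra : QuadraticMap.polar (⇑Q) r a = 2 * Q a := by
    rw [QuadraticMap.polar_comm, ← prj_polar Q X hndX r haX, ← had, polar_self']
  have haa' : QuadraticMap.polar (⇑Q) a a' = 2 * Q a' := by
    rw [QuadraticMap.polar_comm, ← hpa' a' ha'X', polar_self']
  have ha'0 : a' ≠ 0 := by
    intro h0
    have := hpa' r hrX'
    rw [h0, QuadraticMap.polar_zero_right, hra] at this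
    exact h2a this.symm
  have hQa' : Q a' ≠ 0 := by
    intro hQa'
    apply hno
    apply S.f1a hW hX hX' hne ha'X' ha'0 hQa'
    apply H2 a' ha'X'
    rw [haa', hQa', mul_zero]
  obtain ⟨lam, hlam⟩ := H1 a' ha'X'
  have hlamQ : lam * Q a = Q a' := by
    have := prj_polar Q X hndX a' haX
    rw [hlam, QuadraticMap.polar_smul_right, polar_self', haa', smul_eq_mul] at this
    apply mul_left_cancel₀ S.h2
    linear_combination this
  have hlam0 : lam ≠ 0 := by
    rintro rfl
    rw [zero_mul] at hlamQ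
    exact hQa' hlamQ.symm
  obtain ⟨s, hsX, hs, hsa⟩ := exists_sing_not_perp Q X hndX (by omega) a
    ⟨a, haX, by rw [polar_self']; exact h2a⟩
  obtain ⟨g, hgK, hg1, hg2, hg3⟩ := exists_eG Q S.hQ S.h3 h5 X hndX (by omega) s a hsX hs hsa
    (2 * Q a - 2 * Q a * Q a / Q a')
  have hgM : g ∈ M := S.K X hX hgK
  have hga : act g a ≠ a := fun h => hsa (hg2 a h)
  have hf1 := finrank_le_inf_orth Q S.hQ X' (Submodule.span F {a})
  have hf2 := finrank_span_singleton_le' (F := F) a
  have hN0 : (X' ⊓ LinearMap.BilinForm.orthogonal (QuadraticMap.polarBilin Q)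
      (Submodule.span F {a}) : Submodule F (ι → F)) ≠ ⊥ := by
    intro hb
    rw [hb, finrank_bot] at hf1
    omega
  obtain ⟨n, hn, hn0⟩ := Submodule.exists_mem_ne_zero_of_ne_bot hN0
  have hnX' : n ∈ X' := hn.1
  have han : QuadraticMap.polar (⇑Q) a n = 0 :=
    (LinearMap.BilinForm.mem_orthogonal_iff.mp hn.2) a (Submodule.mem_span_singleton_self a)
  have hnX : ∀ w ∈ X, QuadraticMap.polar (⇑Q) w n = 0 := H2 n hnX' han
  have hgn : act g n = n := hgK.2 n hnX
  have hX'' : B (img Q g X') := S.mv X' hX' g hgM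
  have hnX'' : n ∈ img Q g X' := (mem_img Q g X' n).mpr ⟨n, hnX', hgn⟩
  have hne' : X' ≠ img Q g X' := by
    intro heq
    have h1 : act g r ∈ X' := by
      rw [heq]
      exact act_mem_img Q g X' hrX'
    have h2 : act g r - r = act g a - a := by
      rw [KX_act_prj Q X hndX hgK r, ← had]
      abel
    have h3 : act g a - a ∈ X' := by
      rw [← h2]
      exact X'.sub_mem h1 hrX'
    have h4 : act g a - a ∈ X := X.sub_mem (KX_act_mem Q S.hQ X hndX hgK haX) haX
    exact hga (sub_eq_zero.mp (hZ0 _ h4 h3))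
  rcases S.cl hk3 hW hX' hX'' hne' hndX' with hO | hC | hR
  · have : n ∈ X' ⊓ LinearMap.BilinForm.orthogonal (QuadraticMap.polarBilin Q) X' :=
      ⟨hnX', LinearMap.BilinForm.mem_orthogonal_iff.mpr (fun w hw => hO w hw n hnX'')⟩
    rw [hndX', Submodule.mem_bot] at this
    exact hn0 this
  · have h1 := hC (act g a') (act_mem_img Q g X' ha'X')
    have hπ' : ∀ x ∈ X, prj Q X' hndX' x
        = (QuadraticMap.polar (⇑Q) x a / (2 * Q a)) • a' := by
      intro x hx
      apply prj_unique Q X' hndX' x (X'.smul_mem _ ha'X')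
      intro w hw
      obtain ⟨cw, hcw⟩ := H1 w hw
      have e1 : QuadraticMap.polar (⇑Q) w x = cw * QuadraticMap.polar (⇑Q) x a := by
        rw [QuadraticMap.polar_comm, ← prj_polar Q X hndX w hx, hcw,
          QuadraticMap.polar_smul_right, smul_eq_mul]
      have e2 : QuadraticMap.polar (⇑Q) w a = cw * (2 * Q a) := by
        rw [QuadraticMap.polar_comm, ← prj_polar Q X hndX w haX, hcw,
          QuadraticMap.polar_smul_right, polar_self', smul_eq_mul]
      rw [QuadraticMap.polar_smul_right, hpa' w hw, e1, e2, smul_eq_mul,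
        div_mul_eq_mul_div, div_eq_iff h2a]
      ring
    have e3 : act g a' = a' + lam • (act g a - a) := by
      rw [KX_act_prj Q X hndX hgK a', hlam, act_smul, smul_sub]
    have hdX' : act g a - a ∈ X := X.sub_mem (KX_act_mem Q S.hQ X hndX hgK haX) haX
    have e4 : prj Q X' hndX' (act g a')
        = (1 + lam * (QuadraticMap.polar (⇑Q) (act g a - a) a / (2 * Q a))) • a' := by
      rw [e3, prj_add, prj_smul, prj_of_mem Q X' hndX' ha'X', hπ' _ hdX']
      module
    have hμ : 1 + lam * (QuadraticMap.polar (⇑Q) (act g a - a) a / (2 * Q a)) ≠ 0 := by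
      intro h
      apply hg3
      rw [QuadraticMap.polar_sub_left, polar_self'] at h
      have hl : lam = Q a' / Q a := by
        rw [eq_div_iff hQa]
        exact hlamQ
      rw [hl] at h
      have h2' := S.h2
      field_simp at h
      field_simp
      linear_combination h
    rw [e4] at h1
    have ha'X'' : a' ∈ img Q g X' := (Submodule.smul_mem_iff _ hμ).mp h1
    have h5' : act g⁻¹ a' ∈ X' := (mem_img' Q g X' a').mp ha'X''
    have hginv : g⁻¹ ∈ KX Q X := (KX Q X).inv_mem hgK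
    have e5 : act g⁻¹ a' - a' = lam • (act g⁻¹ a - a) := by
      rw [KX_act_prj Q X hndX hginv a', hlam, act_smul, smul_sub]
      abel
    have h6 : lam • (act g⁻¹ a - a) ∈ X' := by
      rw [← e5]
      exact X'.sub_mem h5' ha'X'
    have h7 : lam • (act g⁻¹ a - a) ∈ X :=
      X.smul_mem _ (X.sub_mem (KX_act_mem Q S.hQ X hndX hginv haX) haX)
    have h8 := hZ0 _ h7 h6
    have h9 : act g⁻¹ a = a := by
      rcases smul_eq_zero.mp h8 with h | h
      · exact absurd h hlam0
      · exact sub_eq_zero.mp h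
    apply hga
    have := congrArg (act g) h9
    rw [act_act_inv] at this
    exact this.symm
  · exact hn0 (hR.1 n hnX' hnX'')

/-- The compatible configuration is impossible. -/
theorem BSys.kill_compat (S : BSys Q M k B) (hk3 : k = 3) (hW : ¬ Win Q M B)
    {X X' : Submodule F (ι → F)} (hX : B X) (hX' : B X') (hne : X ≠ X')
    (hndX : X ⊓ LinearMap.BilinForm.orthogonal (QuadraticMap.polarBilin Q) X = ⊥)
    (hno : ¬ ∀ x ∈ X, ∀ x' ∈ X', QuadraticMap.polar (⇑Q) x x' = 0)
    (hC : ∀ x' ∈ X', prj Q X hndX x' ∈ X') : False := by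
  have hndX' := S.nd X' hX'
  have hdX : finrank F X = 3 := by rw [S.dim X hX, hk3]
  have h5 := S.q5 hk3
  -- the symmetric statement
  have hC' : ∀ x ∈ X, prj Q X' hndX' x ∈ X := by
    intro x hx
    obtain ⟨p, hpd⟩ : ∃ p, p = prj Q X' hndX' x := ⟨_, rfl⟩
    rw [← hpd]
    have hpX' : p ∈ X' := by rw [hpd]; exact prj_mem Q X' hndX' x
    have hu : p - prj Q X hndX p ∈
        X' ⊓ LinearMap.BilinForm.orthogonal (QuadraticMap.polarBilin Q) X' := by
      refine ⟨X'.sub_mem hpX' (hC p hpX'),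
        LinearMap.BilinForm.mem_orthogonal_iff.mpr (fun w hw => ?_)⟩
      show QuadraticMap.polar (⇑Q) w (p - prj Q X hndX p) = 0
      have hπw : prj Q X hndX w ∈ X' := hC w hw
      have hπwX : prj Q X hndX w ∈ X := prj_mem Q X hndX w
      have e1 : QuadraticMap.polar (⇑Q) w p = QuadraticMap.polar (⇑Q) w x := by
        rw [hpd, prj_polar Q X' hndX' x hw]
      have e2 : QuadraticMap.polar (⇑Q) w (prj Q X hndX p) = QuadraticMap.polar (⇑Q) w x := by
        rw [QuadraticMap.polar_comm, ← prj_polar Q X hndX w (prj_mem Q X hndX p),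
          QuadraticMap.polar_comm, prj_polar Q X hndX p hπwX, hpd, prj_polar Q X' hndX' x hπw,
          QuadraticMap.polar_comm, prj_polar Q X hndX w hx, QuadraticMap.polar_comm]
      rw [QuadraticMap.polar_sub_right, e1, e2, sub_self]
    rw [hndX', Submodule.mem_bot] at hu
    rw [sub_eq_zero.mp hu]
    exact prj_mem Q X hndX p
  have hn : ∃ n ∈ X', n ≠ 0 ∧ ∀ w ∈ X, QuadraticMap.polar (⇑Q) w n = 0 := by
    by_contra hcon
    push Not at hcon
    apply hne
    symm
    apply S.eq_of_le hX' hX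
    intro x' hx'
    by_contra hx'X
    obtain ⟨w, hw, hwn⟩ := hcon (x' - prj Q X hndX x') (X'.sub_mem hx' (hC x' hx')) (by
      intro h0
      apply hx'X
      rw [sub_eq_zero.mp h0]
      exact prj_mem Q X hndX x')
    exact hwn (prj_perp Q X hndX x' w hw)
  obtain ⟨n, hnX', hn0, hnX⟩ := hn
  have hx : ∃ x ∈ X, x ≠ 0 ∧ ∀ w ∈ X', QuadraticMap.polar (⇑Q) w x = 0 := by
    by_contra hcon
    push Not at hcon
    apply hne
    apply S.eq_of_le hX hX'
    intro y hy
    by_contra hyX'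
    obtain ⟨w, hw, hwn⟩ := hcon (y - prj Q X' hndX' y) (X.sub_mem hy (hC' y hy)) (by
      intro h0
      apply hyX'
      rw [sub_eq_zero.mp h0]
      exact prj_mem Q X' hndX' y)
    exact hwn (prj_perp Q X' hndX' y w hw)
  obtain ⟨x, hxX, hx0, hxX'⟩ := hx
  have hQx : Q x ≠ 0 := by
    intro hQx
    apply hno
    intro y hy y' hy'
    rw [QuadraticMap.polar_comm]
    exact S.f1a hW hX' hX (Ne.symm hne) hxX hx0 hQx hxX' y' hy' y hy
  have hz : ∃ z ∈ X, z ∈ X' ∧ z ≠ 0 := by
    by_contra hcon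
    push Not at hcon
    apply hno
    intro y hy y' hy'
    rw [← prj_polar Q X hndX y' hy, hcon _ (prj_mem Q X hndX y') (hC y' hy'),
      QuadraticMap.polar_zero_right]
  obtain ⟨z₀, hz₀X, hz₀X', hz₀0⟩ := hz
  have hZan : ∀ z ∈ X, z ∈ X' → z ≠ 0 → Q z ≠ 0 :=
    fun z hzX hzX' hz0 hQz => hz0 (S.f0 hW hX hX' hne hzX hzX' hQz)
  have K1 : ∀ g ∈ KX Q X, X' ≠ img Q g X' →
      ∀ x'' ∈ img Q g X', prj Q X' hndX' x'' ∈ img Q g X' := by
    intro g hgK heq
    have hgM := S.K X hX hgK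
    have hX'' := S.mv X' hX' g hgM
    have hnX'' : n ∈ img Q g X' := (mem_img Q g X' n).mpr ⟨n, hnX', hgK.2 n hnX⟩
    rcases S.cl hk3 hW hX' hX'' heq hndX' with hO | hC2 | hR
    · exfalso
      have : n ∈ X' ⊓ LinearMap.BilinForm.orthogonal (QuadraticMap.polarBilin Q) X' :=
        ⟨hnX', LinearMap.BilinForm.mem_orthogonal_iff.mpr (fun w hw => hO w hw n hnX'')⟩
      rw [hndX', Submodule.mem_bot] at this
      exact hn0 this
    · exact hC2
    · exact absurd (hR.1 n hnX' hnX'') hn0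
  by_cases hB : ∀ s ∈ X, Q s = 0 → ∀ z ∈ X, z ∈ X' → QuadraticMap.polar (⇑Q) s z ≠ 0 →
      ∃ v ∈ X, v ∈ X' ∧ QuadraticMap.polar (⇑Q) s v = 0 ∧ v ≠ 0
  · -- the common part is a plane
    obtain ⟨s₀, hs₀X, hs₀, hs₀z₀⟩ := exists_sing_not_perp Q X hndX (by omega) z₀
      ⟨z₀, hz₀X, by rw [polar_self']; exact mul_ne_zero S.h2 (hZan z₀ hz₀X hz₀X' hz₀0)⟩
    obtain ⟨v, hvX, hvX', hs₀v, hv0⟩ := hB s₀ hs₀X hs₀ z₀ hz₀X hz₀X' hs₀z₀
    have hQv : Q v ≠ 0 := hZan v hvX hvX' hv0
    have h2v : (2 : F) * Q v ≠ 0 := mul_ne_zero S.h2 hQv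
    obtain ⟨z', hz'd⟩ : ∃ z', z' = z₀ - (QuadraticMap.polar (⇑Q) v z₀ / (2 * Q v)) • v :=
      ⟨_, rfl⟩
    have hz'X : z' ∈ X := by rw [hz'd]; exact X.sub_mem hz₀X (X.smul_mem _ hvX)
    have hz'X' : z' ∈ X' := by rw [hz'd]; exact X'.sub_mem hz₀X' (X'.smul_mem _ hvX')
    have hvz' : QuadraticMap.polar (⇑Q) v z' = 0 := by
      rw [hz'd, QuadraticMap.polar_sub_right, QuadraticMap.polar_smul_right, polar_self',
        smul_eq_mul, div_mul_cancel₀ _ h2v, sub_self]
    have hs₀z' : QuadraticMap.polar (⇑Q) s₀ z' ≠ 0 := by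
      rw [hz'd, QuadraticMap.polar_sub_right, QuadraticMap.polar_smul_right, hs₀v, smul_zero,
        sub_zero]
      exact hs₀z₀
    have hz'0 : z' ≠ 0 := by
      intro h
      rw [h, QuadraticMap.polar_zero_right] at hs₀z'
      exact hs₀z' rfl
    have hQz' : Q z' ≠ 0 := hZan z' hz'X hz'X' hz'0
    have h2z' : (2 : F) * Q z' ≠ 0 := mul_ne_zero S.h2 hQz'
    have h2x : (2 : F) * Q x ≠ 0 := mul_ne_zero S.h2 hQx
    have hvx : QuadraticMap.polar (⇑Q) v x = 0 := hxX' v hvX'
    have hz'x : QuadraticMap.polar (⇑Q) z' x = 0 := hxX' z' hz'X'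
    have hz'v : QuadraticMap.polar (⇑Q) z' v = 0 := by rw [QuadraticMap.polar_comm]; exact hvz'
    have hxv : QuadraticMap.polar (⇑Q) x v = 0 := by rw [QuadraticMap.polar_comm]; exact hvx
    have hxz' : QuadraticMap.polar (⇑Q) x z' = 0 := by rw [QuadraticMap.polar_comm]; exact hz'x
    have K2 : ∀ u ∈ X, QuadraticMap.polar (⇑Q) v u = 0 → QuadraticMap.polar (⇑Q) z' u = 0 →
        u = QuadraticMap.polar (⇑Q) u ((2 * Q x)⁻¹ • x) • x := by
      intro u hu h1 h2
      have hexp := span3 Q X hdX v z' x ((2 * Q v)⁻¹ • v) ((2 * Q z')⁻¹ • z') ((2 * Q x)⁻¹ • x)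
        hvX hz'X hxX
        (by rw [QuadraticMap.polar_smul_right, polar_self', smul_eq_mul, inv_mul_cancel₀ h2v])
        (by rw [QuadraticMap.polar_smul_right, hvz', smul_zero])
        (by rw [QuadraticMap.polar_smul_right, hvx, smul_zero])
        (by rw [QuadraticMap.polar_smul_right, hz'v, smul_zero])
        (by rw [QuadraticMap.polar_smul_right, polar_self', smul_eq_mul, inv_mul_cancel₀ h2z'])
        (by rw [QuadraticMap.polar_smul_right, hz'x, smul_zero])
        (by rw [QuadraticMap.polar_smul_right, hxv, smul_zero])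
        (by rw [QuadraticMap.polar_smul_right, hxz', smul_zero])
        (by rw [QuadraticMap.polar_smul_right, polar_self', smul_eq_mul, inv_mul_cancel₀ h2x])
        hu
      have e1 : QuadraticMap.polar (⇑Q) u ((2 * Q v)⁻¹ • v) = 0 := by
        rw [QuadraticMap.polar_smul_right, QuadraticMap.polar_comm, h1, smul_zero]
      have e2 : QuadraticMap.polar (⇑Q) u ((2 * Q z')⁻¹ • z') = 0 := by
        rw [QuadraticMap.polar_smul_right, QuadraticMap.polar_comm, h2, smul_zero]
      rw [e1, e2, zero_smul, zero_smul, zero_add, zero_add] at hexp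
      exact hexp
    obtain ⟨s', hs'X, hs', hs'x⟩ := exists_sing_not_perp Q X hndX (by omega) x
      ⟨x, hxX, by rw [polar_self']; exact h2x⟩
    obtain ⟨g, hgK, hg1, hg2, hg3⟩ :=
      exists_eG Q S.hQ S.h3 h5 X hndX (by omega) s' x hs'X hs' hs'x 0
    have hginv : g⁻¹ ∈ KX Q X := (KX Q X).inv_mem hgK
    have hgx : act g x ≠ x := fun h => hs'x (hg2 x h)
    have hnotmul : ∀ γ : F, act g x ≠ γ • x := by
      intro γ h
      have h1 := hg1 x
      rw [h, QuadraticMap.polar_sub_right, QuadraticMap.polar_smul_right, smul_eq_mul] at h1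
      have h2 : (γ - 1) * QuadraticMap.polar (⇑Q) s' x = 0 := by linear_combination h1
      have h3 : γ = 1 := by
        rcases mul_eq_zero.mp h2 with h' | h'
        · linear_combination h'
        · exact absurd h' hs'x
      rw [h3, one_smul] at h
      exact hgx h
    by_cases heq : X' = img Q g X'
    · have hperp : ∀ w ∈ X', QuadraticMap.polar (⇑Q) w (act g x) = 0 := by
        intro w hw
        have h1 : act g⁻¹ w ∈ X' := by
          apply (mem_img' Q g X' w).mp
          rw [← heq]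
          exact hw
        have h2 := polar_act Q g (act g⁻¹ w) x
        rw [act_act_inv] at h2
        rw [h2]
        exact hxX' _ h1
      exact hnotmul _ (K2 (act g x) (KX_act_mem Q S.hQ X hndX hgK hxX) (hperp v hvX')
        (hperp z' hz'X'))
    · have hK1 := K1 g hgK heq
      by_cases hγ : ∃ z ∈ X, z ∈ X' ∧ QuadraticMap.polar (⇑Q) (act g z) x ≠ 0
      · obtain ⟨z, hzX, hzX', hgzx⟩ := hγ
        have hyX : act g z ∈ X := KX_act_mem Q S.hQ X hndX hgK hzX
        have hyX'' : act g z ∈ img Q g X' := act_mem_img Q g X' hzX'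
        obtain ⟨u, hud⟩ : ∃ u, u = act g z - prj Q X' hndX' (act g z) := ⟨_, rfl⟩
        have huX : u ∈ X := by rw [hud]; exact X.sub_mem hyX (hC' _ hyX)
        have huX'' : u ∈ img Q g X' := by
          rw [hud]
          exact (img Q g X').sub_mem hyX'' (hK1 _ hyX'')
        have hu1 : ∀ w ∈ X', QuadraticMap.polar (⇑Q) w u = 0 := by
          intro w hw
          rw [hud]
          exact prj_perp Q X' hndX' (act g z) w hw
        have hux : QuadraticMap.polar (⇑Q) u x = QuadraticMap.polar (⇑Q) (act g z) x := by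
          rw [hud, QuadraticMap.polar_sub_left,
            hxX' _ (prj_mem Q X' hndX' (act g z)), sub_zero]
        have hu2 := K2 u huX (hu1 v hvX') (hu1 z' hz'X')
        have hcoef : QuadraticMap.polar (⇑Q) u ((2 * Q x)⁻¹ • x) ≠ 0 := by
          rw [QuadraticMap.polar_smul_right, hux, smul_eq_mul]
          exact mul_ne_zero (inv_ne_zero h2x) hgzx
        have hxX'' : x ∈ img Q g X' := by
          rw [hu2] at huX''
          exact (Submodule.smul_mem_iff _ hcoef).mp huX''
        have h1 : act g⁻¹ x ∈ X' := (mem_img' Q g X' x).mp hxX''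
        have h2 := polar_act Q g (act g⁻¹ x) x
        rw [act_act_inv] at h2
        apply hg3
        rw [QuadraticMap.polar_comm, h2]
        exact hxX' _ h1
      · push Not at hγ
        have hperp : ∀ w ∈ X, w ∈ X' → QuadraticMap.polar (⇑Q) w (act g⁻¹ x) = 0 := by
          intro w hwX hwX'
          have h2 := polar_act Q g w (act g⁻¹ x)
          rw [act_act_inv] at h2
          rw [← h2]
          exact hγ w hwX hwX'
        have h1 := K2 (act g⁻¹ x) (KX_act_mem Q S.hQ X hndX hginv hxX) (hperp v hvX hvX')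
          (hperp z' hz'X hz'X')
        obtain ⟨c, hcd⟩ : ∃ c, c = QuadraticMap.polar (⇑Q) (act g⁻¹ x) ((2 * Q x)⁻¹ • x) :=
          ⟨_, rfl⟩
        rw [← hcd] at h1
        have h2 := congrArg (act g) h1
        rw [act_act_inv, act_smul] at h2
        have hc0 : c ≠ 0 := by
          intro h0
          rw [h0, zero_smul] at h2
          exact hx0 h2
        apply hnotmul c⁻¹
        rw [eq_inv_smul_iff₀ hc0]
        exact h2.symm
  · -- some singular point of `X` sees the common part faithfully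
    push Not at hB
    obtain ⟨s, hsX, hs, z, hzX, hzX', hsz, hsZ⟩ := hB
    obtain ⟨g, hgK, hg1, hg2, hg3⟩ :=
      exists_eG Q S.hQ S.h3 h5 X hndX (by omega) s z hsX hs hsz 0
    have hginv : g⁻¹ ∈ KX Q X := (KX Q X).inv_mem hgK
    have hgz : act g z ≠ z := fun h => hsz (hg2 z h)
    have hgzX : act g z ∈ X := KX_act_mem Q S.hQ X hndX hgK hzX
    by_cases heq : X' = img Q g X'
    · have h1 : act g z ∈ X' := by
        rw [heq]
        exact act_mem_img Q g X' hzX'
      exact hgz (sub_eq_zero.mp (hsZ _ (X.sub_mem hgzX hzX) (X'.sub_mem h1 hzX') (hg1 z)))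
    · have hζ'' := K1 g hgK heq (act g z) (act_mem_img Q g X' hzX')
      obtain ⟨ζ, hζd⟩ : ∃ ζ, ζ = prj Q X' hndX' (act g z) := ⟨_, rfl⟩
      rw [← hζd] at hζ''
      have hζX : ζ ∈ X := by rw [hζd]; exact hC' _ hgzX
      have hζX' : ζ ∈ X' := by rw [hζd]; exact prj_mem Q X' hndX' (act g z)
      have h1 : act g⁻¹ ζ ∈ X' := (mem_img' Q g X' ζ).mp hζ''
      have h2 : act g⁻¹ ζ ∈ X := KX_act_mem Q S.hQ X hndX hginv hζX
      have h3 : QuadraticMap.polar (⇑Q) s (ζ - act g⁻¹ ζ) = 0 := by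
        have := hg1 (act g⁻¹ ζ)
        rwa [act_act_inv] at this
      have h4 := hsZ _ (X.sub_mem hζX h2) (X'.sub_mem hζX' h1) h3
      have h5' : act g (act g⁻¹ ζ) = act g⁻¹ ζ := by
        rw [act_act_inv]
        exact sub_eq_zero.mp h4
      have h6 := hg2 _ h5'
      have h7 := hsZ _ h2 h1 h6
      have hζ0 : ζ = 0 := by
        have := congrArg (act g) h7
        rwa [act_act_inv, act_zero] at this
      apply hg3
      rw [QuadraticMap.polar_comm, ← prj_polar Q X' hndX' (act g z) hzX', ← hζd, hζ0,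
        QuadraticMap.polar_zero_right]

/-- Three-dimensional blocks: two distinct blocks are orthogonal unless `M` has a mixed Eichler
direction. -/
theorem BSys.small (S : BSys Q M k B) (hk3 : k = 3) (hW : ¬ Win Q M B)
    {X X' : Submodule F (ι → F)} (hX : B X) (hX' : B X') (hne : X ≠ X') {x x' : ι → F}
    (hx : x ∈ X) (hx' : x' ∈ X') (hxx' : QuadraticMap.polar (⇑Q) x x' ≠ 0) : False := by
  have hno : ¬ ∀ x ∈ X, ∀ x' ∈ X', QuadraticMap.polar (⇑Q) x x' = 0 :=
    fun h => hxx' (h x hx x' hx')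
  rcases S.cl hk3 hW hX hX' hne (S.nd X hX) with hO | hC | hR
  · exact hno hO
  · exact S.kill_compat hk3 hW hX hX' hne (S.nd X hX) hno hC
  · obtain ⟨hZ0, y₀, hy₀⟩ := hR
    exact S.kill_rank1 hk3 hW hX hX' hne (S.nd X hX) hno hZ0 y₀ hy₀

/-- Two distinct non-orthogonal blocks give a mixed Eichler direction. -/
theorem BSys.win_of_not_orth (S : BSys Q M k B) {X X' : Submodule F (ι → F)} (hX : B X)
    (hX' : B X') (hne : X ≠ X') {x x' : ι → F} (hx : x ∈ X) (hx' : x' ∈ X')
    (hxx' : QuadraticMap.polar (⇑Q) x x' ≠ 0) : Win Q M B := by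
  by_contra hW
  rcases S.kk with hk | hk
  · exact S.small hk hW hX hX' hne hx hx' hxx'
  · exact S.big hk hW hX hX' hne hx hx' hxx'

end

end Cfsg.Agent.H17.Dc
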