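import Cfsg.Agent.H17.DcG
import Cfsg.Agent.H95.SpDecomp

set_option autoImplicit false
set_option linter.unusedSectionVars false

/-! helper17: orthogonal decompositions: block swaps and three-cycles of blocks inside the
isometry group. -/

namespace Cfsg.Agent.H17.Dc

open Module Matrix Cfsg.Agent.H49 Cfsg.Agent.H95

section
variable {ι : Type} [Fintype ι] [DecidableEq ι] {F : Type*} [Field F]

theorem polar_sum_right (Q : QuadraticForm F (ι → F)) {κ : Type*} (s : Finset κ) (x : ι → F)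
    (f : κ → ι → F) :
    QuadraticMap.polar (⇑Q) x (∑ j ∈ s, f j) = ∑ j ∈ s, QuadraticMap.polar (⇑Q) x (f j) := by
  show QuadraticMap.polarBilin Q x (∑ j ∈ s, f j) = _
  rw [map_sum]
  rfl

theorem polar_comp (Q : QuadraticForm F (ι → F)) {t : ℕ} {D : Fin t → Submodule F (ι → F)}
    (hI : DirectSum.IsInternal D)
    (horth : ∀ i j, i ≠ j → ∀ u ∈ D i, ∀ v ∈ D j, QuadraticMap.polar (⇑Q) u v = 0)
    {i : Fin t} {d : ι → F} (hd : d ∈ D i) (z : ι → F) :
    QuadraticMap.polar (⇑Q) d z = QuadraticMap.polar (⇑Q) d (comp hI i z) := by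
  conv_lhs => rw [← sum_comp hI z]
  rw [polar_sum_right, Finset.sum_eq_single i]
  · intro j _ hji
    exact horth i j (Ne.symm hji) d hd _ (comp_mem hI j z)
  · intro h
    exact absurd (Finset.mem_univ i) h

theorem img_mul (Q : QuadraticForm F (ι → F)) (g h : ↥(Cfsg.isometryGroup F (⇑Q)))
    (X : Submodule F (ι → F)) : img Q (g * h) X = img Q g (img Q h X) := by
  ext y
  rw [mem_img', mem_img', mem_img', _root_.mul_inv_rev, act_mul]

theorem img_one (Q : QuadraticForm F (ι → F)) (X : Submodule F (ι → F)) : img Q 1 X = X := by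
  ext y
  rw [mem_img', inv_one, act_one]

theorem img_inv (Q : QuadraticForm F (ι → F)) (g : ↥(Cfsg.isometryGroup F (⇑Q)))
    {X Y : Submodule F (ι → F)} (h : img Q g X = Y) : img Q g⁻¹ Y = X := by
  rw [← h, ← img_mul, inv_mul_cancel, img_one]

/-- An isometry interchanging two isometric members of an orthogonal decomposition and
fixing the other members pointwise. -/
theorem exists_blk_swap (Q : QuadraticForm F (ι → F)) {t : ℕ} (D : Fin t → Submodule F (ι → F))
    (hI : DirectSum.IsInternal D)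
    (horth : ∀ i j, i ≠ j → ∀ u ∈ D i, ∀ v ∈ D j, QuadraticMap.polar (⇑Q) u v = 0)
    {i l : Fin t} (hil : i ≠ l) (hiso : Cfsg.Geo.AreIsometricFor (⇑Q) (D i) (D l)) :
    ∃ σ : ↥(Cfsg.isometryGroup F (⇑Q)), σ * σ = 1 ∧ (∀ x ∈ D i, act σ x ∈ D l) ∧
      (∀ x ∈ D l, act σ x ∈ D i) ∧ ∀ j, j ≠ i → j ≠ l → ∀ x ∈ D j, act σ x = x := by
  classical
  obtain ⟨e, he⟩ := hiso
  obtain ⟨φ, hφ⟩ : ∃ φ : (ι → F) →ₗ[F] (ι → F),
      ∀ x, φ x = ((e (compD hI i x) : D l) : ι → F) :=
    ⟨(D l).subtype ∘ₗ e.toLinearMap ∘ₗ compD hI i, fun x => rfl⟩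
  obtain ⟨φ', hφ'⟩ : ∃ φ' : (ι → F) →ₗ[F] (ι → F),
      ∀ x, φ' x = ((e.symm (compD hI l x) : D i) : ι → F) :=
    ⟨(D i).subtype ∘ₗ e.symm.toLinearMap ∘ₗ compD hI l, fun x => rfl⟩
  have hφD : ∀ x, φ x ∈ D l := fun x => by rw [hφ]; exact Submodule.coe_mem _
  have hφ'D : ∀ x, φ' x ∈ D i := fun x => by rw [hφ']; exact Submodule.coe_mem _
  have hQφ : ∀ x, Q (φ x) = Q (comp hI i x) := fun x => by rw [hφ, he, coe_compD]
  have hQφ' : ∀ x, Q (φ' x) = Q (comp hI l x) := fun x => by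
    rw [hφ']
    have := he (e.symm (compD hI l x))
    rw [LinearEquiv.apply_symm_apply] at this
    rw [← this, coe_compD]
  have hφc : ∀ y, φ y = φ (comp hI i y) := by
    intro y
    rw [hφ, hφ]
    have : compD hI i y = compD hI i (comp hI i y) := by
      apply Subtype.ext
      rw [coe_compD, coe_compD, comp_of_mem hI (comp_mem hI i y)]
    rw [this]
  have hφ'c : ∀ y, φ' y = φ' (comp hI l y) := by
    intro y
    rw [hφ', hφ']
    have : compD hI l y = compD hI l (comp hI l y) := by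
      apply Subtype.ext
      rw [coe_compD, coe_compD, comp_of_mem hI (comp_mem hI l y)]
    rw [this]
  have hφφ' : ∀ x, φ (φ' x) = comp hI l x := by
    intro x
    rw [hφ]
    have : compD hI i (φ' x) = e.symm (compD hI l x) := by
      apply Subtype.ext
      rw [coe_compD, comp_of_mem hI (hφ'D x), hφ']
    rw [this, LinearEquiv.apply_symm_apply, coe_compD]
  have hφ'φ : ∀ x, φ' (φ x) = comp hI i x := by
    intro x
    rw [hφ']
    have : compD hI l (φ x) = e (compD hI i x) := by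
      apply Subtype.ext
      rw [coe_compD, comp_of_mem hI (hφD x), hφ]
    rw [this, LinearEquiv.symm_apply_apply, coe_compD]
  obtain ⟨T, hT⟩ : ∃ T : (ι → F) →ₗ[F] (ι → F),
      ∀ x, T x = x - comp hI i x - comp hI l x + φ x + φ' x :=
    ⟨LinearMap.id - comp hI i - comp hI l + φ + φ', fun x => by simp⟩
  have hr_i : ∀ x, comp hI i (x - comp hI i x - comp hI l x) = 0 := by
    intro x
    rw [map_sub, map_sub, comp_of_mem hI (comp_mem hI i x),
      comp_of_mem_ne hI (comp_mem hI l x) (Ne.symm hil)]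
    simp
  have hr_l : ∀ x, comp hI l (x - comp hI i x - comp hI l x) = 0 := by
    intro x
    rw [map_sub, map_sub, comp_of_mem hI (comp_mem hI l x),
      comp_of_mem_ne hI (comp_mem hI i x) hil]
    simp
  have hTi : ∀ x, comp hI i (T x) = φ' x := by
    intro x
    rw [hT, map_add, map_add, hr_i, comp_of_mem_ne hI (hφD x) (Ne.symm hil),
      comp_of_mem hI (hφ'D x)]
    simp
  have hTl : ∀ x, comp hI l (T x) = φ x := by
    intro x
    rw [hT, map_add, map_add, hr_l, comp_of_mem_ne hI (hφ'D x) hil, comp_of_mem hI (hφD x)]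
    simp
  have hTT : ∀ x, T (T x) = x := by
    intro x
    have e1 : φ (T x) = comp hI l x := by rw [hφc, hTi, hφφ']
    have e2 : φ' (T x) = comp hI i x := by rw [hφ'c, hTl, hφ'φ]
    rw [hT (T x), hTi, hTl, e1, e2, hT x]
    abel
  have hpol_i : ∀ x d, d ∈ D i →
      QuadraticMap.polar (⇑Q) (x - comp hI i x - comp hI l x) d = 0 := by
    intro x d hd
    rw [QuadraticMap.polar_comm, polar_comp Q hI horth hd, hr_i, QuadraticMap.polar_zero_right]
  have hpol_l : ∀ x d, d ∈ D l →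
      QuadraticMap.polar (⇑Q) (x - comp hI i x - comp hI l x) d = 0 := by
    intro x d hd
    rw [QuadraticMap.polar_comm, polar_comp Q hI horth hd, hr_l, QuadraticMap.polar_zero_right]
  have hQT : ∀ x, Q (T x) = Q x := by
    intro x
    obtain ⟨r, hrd⟩ : ∃ r, r = x - comp hI i x - comp hI l x := ⟨_, rfl⟩
    have hx : x = r + comp hI i x + comp hI l x := by rw [hrd]; abel
    have hTx : T x = r + φ x + φ' x := by rw [hT, hrd]
    have z1 : QuadraticMap.polar (⇑Q) r (φ x) = 0 := by rw [hrd]; exact hpol_l x _ (hφD x)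
    have z2 : QuadraticMap.polar (⇑Q) r (φ' x) = 0 := by rw [hrd]; exact hpol_i x _ (hφ'D x)
    have z3 : QuadraticMap.polar (⇑Q) (φ x) (φ' x) = 0 :=
      horth l i (Ne.symm hil) _ (hφD x) _ (hφ'D x)
    have z4 : QuadraticMap.polar (⇑Q) r (comp hI i x) = 0 := by
      rw [hrd]; exact hpol_i x _ (comp_mem hI i x)
    have z5 : QuadraticMap.polar (⇑Q) r (comp hI l x) = 0 := by
      rw [hrd]; exact hpol_l x _ (comp_mem hI l x)
    have z6 : QuadraticMap.polar (⇑Q) (comp hI i x) (comp hI l x) = 0 :=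
      horth i l hil _ (comp_mem hI i x) _ (comp_mem hI l x)
    have eL : Q (r + φ x + φ' x) = Q r + Q (comp hI i x) + Q (comp hI l x) := by
      rw [Q_add', Q_add', QuadraticMap.polar_add_left, hQφ, hQφ', z1, z2, z3]
      ring
    have eR : Q (r + comp hI i x + comp hI l x) = Q r + Q (comp hI i x) + Q (comp hI l x) := by
      rw [Q_add', Q_add', QuadraticMap.polar_add_left, z4, z5, z6]
      ring
    rw [hTx, eL]
    conv_rhs => rw [hx]
    exact eR.symm
  have hmat : LinearMap.toMatrix' T * LinearMap.toMatrix' T = 1 := by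
    rw [← LinearMap.toMatrix'_comp]
    have : T ∘ₗ T = LinearMap.id := LinearMap.ext (fun x => hTT x)
    rw [this, LinearMap.toMatrix'_id]
  have hact : ∀ (σ : ↥(Cfsg.isometryGroup F (⇑Q))),
      ((σ : Matrix.GeneralLinearGroup ι F) : Matrix ι ι F) = LinearMap.toMatrix' T →
      ∀ x, act σ x = T x := by
    intro σ hσ x
    show ((σ : Matrix.GeneralLinearGroup ι F) : Matrix ι ι F) *ᵥ x = T x
    rw [hσ, LinearMap.toMatrix'_mulVec]
  obtain ⟨σ, hσ⟩ : ∃ σ : ↥(Cfsg.isometryGroup F (⇑Q)),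
      ((σ : Matrix.GeneralLinearGroup ι F) : Matrix ι ι F) = LinearMap.toMatrix' T :=
    ⟨⟨⟨LinearMap.toMatrix' T, LinearMap.toMatrix' T, hmat, hmat⟩,
      mem_isometryGroup_iff.mpr (fun x => by
        show Q (LinearMap.toMatrix' T *ᵥ x) = Q x
        rw [LinearMap.toMatrix'_mulVec]
        exact hQT x)⟩, rfl⟩
  have hσT := hact σ hσ
  refine ⟨σ, ?_, ?_, ?_, ?_⟩
  · apply act_ext
    intro x
    rw [act_mul, act_one, hσT, hσT, hTT]
  · intro x hx
    have : T x = φ x := by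
      rw [hT, comp_of_mem hI hx, comp_of_mem_ne hI hx hil, hφ'c x, comp_of_mem_ne hI hx hil,
        map_zero]
      abel
    rw [hσT, this]
    exact hφD x
  · intro x hx
    have : T x = φ' x := by
      rw [hT, comp_of_mem hI hx, comp_of_mem_ne hI hx (Ne.symm hil), hφc x,
        comp_of_mem_ne hI hx (Ne.symm hil), map_zero]
      abel
    rw [hσT, this]
    exact hφ'D x
  · intro j hji hjl x hx
    rw [hσT, hT, hφc x, hφ'c x, comp_of_mem_ne hI hx hji, comp_of_mem_ne hI hx hjl, map_zero,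
      map_zero]
    abel

/-- A three-cycle of blocks inside `M`. -/
theorem exists_cycle (Q : QuadraticForm F (ι → F)) {t k : ℕ} (D : Fin t → Submodule F (ι → F))
    (hD : Cfsg.Geo.IsOrthogonalMDecomposition (⇑Q) k D)
    (M : Subgroup ↥(Cfsg.isometryGroup F (⇑Q)))
    (hM : ∀ g ∈ commutator ↥(Cfsg.isometryGroup F (⇑Q)),
      (g : Matrix.GeneralLinearGroup ι F) ∈ Cfsg.Geo.decompositionStabilizer D → g ∈ M)
    {i j j' : Fin t} (hij : i ≠ j) (hij' : i ≠ j') (hjj' : j ≠ j') :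
    ∃ m ∈ M, img Q m (D j) = D i ∧ img Q m (D i) = D j' := by
  have hdec := hD.decomp.decomp
  have hI : DirectSum.IsInternal D :=
    DirectSum.isInternal_submodule_of_iSupIndep_of_iSup_eq_top hdec.indep hdec.iSup_eq_top
  have horth : ∀ i j, i ≠ j → ∀ u ∈ D i, ∀ v ∈ D j, QuadraticMap.polar (⇑Q) u v = 0 :=
    hD.decomp.orthogonal
  obtain ⟨σ, hσσ, hσ1, hσ2, hσ3⟩ := exists_blk_swap Q D hI horth hij' (hD.isometric i j')
  obtain ⟨τ, hττ, hτ1, hτ2, hτ3⟩ := exists_blk_swap Q D hI horth hij (hD.isometric i j)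
  have hσinv : σ⁻¹ = σ := inv_eq_of_mul_eq_one_left hσσ
  have hτinv : τ⁻¹ = τ := inv_eq_of_mul_eq_one_left hττ
  have hσS : (σ : Matrix.GeneralLinearGroup ι F) ∈ Cfsg.Geo.decompositionStabilizer D := by
    apply mem_decompositionStabilizer_of_forall hdec
    intro p
    by_cases hp : p = i
    · exact ⟨j', fun x hx => hσ1 x (hp ▸ hx)⟩
    · by_cases hp' : p = j'
      · exact ⟨i, fun x hx => hσ2 x (hp' ▸ hx)⟩
      · refine ⟨p, fun x hx => ?_⟩
        have := hσ3 p hp hp' x hx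
        show act σ x ∈ D p
        rw [this]
        exact hx
  have hτS : (τ : Matrix.GeneralLinearGroup ι F) ∈ Cfsg.Geo.decompositionStabilizer D := by
    apply mem_decompositionStabilizer_of_forall hdec
    intro p
    by_cases hp : p = i
    · exact ⟨j, fun x hx => hτ1 x (hp ▸ hx)⟩
    · by_cases hp' : p = j
      · exact ⟨i, fun x hx => hτ2 x (hp' ▸ hx)⟩
      · refine ⟨p, fun x hx => ?_⟩
        have := hτ3 p hp hp' x hx
        show act τ x ∈ D p
        rw [this]
        exact hx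
  have hmM : σ * τ * σ⁻¹ * τ⁻¹ ∈ M := by
    apply hM
    · exact Subgroup.commutator_mem_commutator (Subgroup.mem_top σ) (Subgroup.mem_top τ)
    · have e : ((σ * τ * σ⁻¹ * τ⁻¹ : ↥(Cfsg.isometryGroup F (⇑Q))) :
          Matrix.GeneralLinearGroup ι F)
          = (σ : Matrix.GeneralLinearGroup ι F) * τ * (σ : Matrix.GeneralLinearGroup ι F)⁻¹
            * (τ : Matrix.GeneralLinearGroup ι F)⁻¹ := rfl
      rw [e]
      exact mul_mem (mul_mem (mul_mem hσS hτS) (inv_mem hσS)) (inv_mem hτS)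
  have hfr : ∀ a b : Fin t, img Q (σ * τ * σ⁻¹ * τ⁻¹) (D a) ≤ D b →
      img Q (σ * τ * σ⁻¹ * τ⁻¹) (D a) = D b := by
    intro a b hle
    apply Submodule.eq_of_le_of_finrank_eq hle
    rw [finrank_img, hdec.finrank_eq, hdec.finrank_eq]
  refine ⟨σ * τ * σ⁻¹ * τ⁻¹, hmM, hfr j i ?_, hfr i j' ?_⟩
  · intro y hy
    obtain ⟨x, hx, rfl⟩ := (mem_img Q _ (D j) y).mp hy
    rw [act_mul, act_mul, act_mul, hσinv, hτinv]
    have h1 : act τ x ∈ D i := hτ2 x hx
    have h2 : act σ (act τ x) ∈ D j' := hσ1 _ h1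
    have h3 : act τ (act σ (act τ x)) = act σ (act τ x) :=
      hτ3 j' (Ne.symm hij') (Ne.symm hjj') _ h2
    rw [h3]
    exact hσ2 _ h2
  · intro y hy
    obtain ⟨x, hx, rfl⟩ := (mem_img Q _ (D i) y).mp hy
    rw [act_mul, act_mul, act_mul, hσinv, hτinv]
    have h1 : act τ x ∈ D j := hτ1 x hx
    have h2 : act σ (act τ x) = act τ x := hσ3 j (Ne.symm hij) hjj' _ h1
    rw [h2]
    have h3 : act τ (act τ x) ∈ D i := hτ2 _ h1
    exact hσ1 _ h3

end

end Cfsg.Agent.H17.Dc
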