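import Cfsg.Agent.H17.DcH

set_option autoImplicit false
set_option linter.unusedSectionVars false

/-! helper17: a subgroup of the isometry group containing the `Ω`-part of the stabiliser of
an orthogonal decomposition (blocks of odd dimension `k ≥ 3`, `q ≥ 5` when `k = 3`) and an
element outside the stabiliser contains `Ω`. -/

namespace Cfsg.Agent.H17.Dc

open Module Matrix Cfsg.Agent.H49 Cfsg.Agent.H95

section
variable {ι : Type} [Fintype ι] [DecidableEq ι] {F : Type*} [Field F]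

/-- The Eichler directions at a singular vector form a subspace. -/
def dirSub (Q : QuadraticForm F (ι → F)) (M : Subgroup ↥(Cfsg.isometryGroup F (⇑Q)))
    (u : ι → F) (hu : Q u = 0) : Submodule F (ι → F) where
  carrier := {y | eichDir Q M u y}
  add_mem' := fun {a b} ha hb => eichDir_add Q M u a b hu ha hb
  zero_mem' := eichDir_zero Q M u
  smul_mem' := fun c y h => eichDir_smul Q M u y c h

theorem mem_dirSub (Q : QuadraticForm F (ι → F)) (M : Subgroup ↥(Cfsg.isometryGroup F (⇑Q)))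
    (u : ι → F) (hu : Q u = 0) (y : ι → F) : y ∈ dirSub Q M u hu ↔ eichDir Q M u y := Iff.rfl

theorem decomp_core [Fintype F] (Q : QuadraticForm F (ι → F))
    (hQ : (QuadraticMap.polarBilin Q).Nondegenerate) (h2 : (2 : F) ≠ 0) (h3 : HasTS3 Q)
    {t k : ℕ} (D : Fin t → Submodule F (ι → F))
    (hD : Cfsg.Geo.IsOrthogonalMDecomposition (⇑Q) k D) (hk : k = 3 ∨ 5 ≤ k)
    (hq : k = 3 → 5 ≤ Fintype.card F) (M : Subgroup ↥(Cfsg.isometryGroup F (⇑Q)))
    (hM : ∀ g ∈ commutator ↥(Cfsg.isometryGroup F (⇑Q)),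
      (g : Matrix.GeneralLinearGroup ι F) ∈ Cfsg.Geo.decompositionStabilizer D → g ∈ M)
    (g₀ : ↥(Cfsg.isometryGroup F (⇑Q))) (hg₀M : g₀ ∈ M)
    (hg₀ : (g₀ : Matrix.GeneralLinearGroup ι F) ∉ Cfsg.Geo.decompositionStabilizer D) :
    commutator ↥(Cfsg.isometryGroup F (⇑Q)) ≤ M := by
  classical
  have hdec := hD.decomp.decomp
  have hI : DirectSum.IsInternal D :=
    DirectSum.isInternal_submodule_of_iSupIndep_of_iSup_eq_top hdec.indep hdec.iSup_eq_top
  have horth : ∀ i j, i ≠ j → ∀ u ∈ D i, ∀ v ∈ D j, QuadraticMap.polar (⇑Q) u v = 0 :=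
    hD.decomp.orthogonal
  have hnd : ∀ i, D i ⊓ LinearMap.BilinForm.orthogonal (QuadraticMap.polarBilin Q) (D i) = ⊥ := by
    intro i
    rw [eq_bot_iff]
    rintro z ⟨hz1, hz2⟩
    rw [Submodule.mem_bot]
    by_contra hz0
    obtain ⟨⟨x, hx, hxz⟩, -⟩ := hD.decomp.nondegenerate i z hz1 hz0
    exact hxz ((LinearMap.BilinForm.mem_orthogonal_iff.mp hz2) x hx)
  have hdim : ∀ i, finrank F (D i) = k := hdec.finrank_eq
  have hk3 : 3 ≤ k := by rcases hk with h | h <;> omega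
  -- the block subgroups of the members lie in `M`
  have KXD : ∀ i, KX Q (D i) ≤ M := by
    intro i g hg
    apply hM g hg.1
    apply mem_decompositionStabilizer_of_forall hdec
    intro j
    refine ⟨j, fun x hx => ?_⟩
    show act g x ∈ D j
    by_cases hji : j = i
    · rw [hji] at hx ⊢
      exact KX_act_mem Q hQ (D i) (hnd i) hg hx
    · rw [hg.2 x (fun a ha => horth i j (Ne.symm hji) a ha x hx)]
      exact hx
  -- the block system
  obtain ⟨B, hBd⟩ : ∃ B : Submodule F (ι → F) → Prop,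
      B = fun X => ∃ g ∈ M, ∃ i, X = img Q g (D i) := ⟨_, rfl⟩
  have hBD : ∀ i, B (D i) := fun i => by
    rw [hBd]
    exact ⟨1, M.one_mem, i, (img_one Q (D i)).symm⟩
  have S : BSys Q M k B := by
    rw [hBd]
    refine ⟨hQ, h3, h2, hk, hq, ?_, ?_, ?_, ?_⟩
    · rintro X ⟨g, hg, i, rfl⟩
      exact img_nd Q g (D i) (hnd i)
    · rintro X ⟨g, hg, i, rfl⟩
      rw [finrank_img, hdim]
    · rintro X ⟨g, hg, i, rfl⟩
      exact KX_img_le Q M g hg (D i) (KXD i)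
    · rintro X ⟨g₁, hg₁, i, rfl⟩ g hg
      exact ⟨g * g₁, M.mul_mem hg hg₁, i, (img_mul Q g g₁ (D i)).symm⟩
  -- a mixed Eichler direction
  have hWin : Win Q M B := by
    obtain ⟨i, hi⟩ : ∃ i, ∀ j, img Q g₀ (D i) ≠ D j := by
      by_contra hcon
      push Not at hcon
      apply hg₀
      apply mem_decompositionStabilizer_of_forall hdec
      intro i
      obtain ⟨j, hj⟩ := hcon i
      refine ⟨j, fun x hx => ?_⟩
      show act g₀ x ∈ D j
      rw [← hj]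
      exact act_mem_img Q g₀ (D i) hx
    have hX : B (img Q g₀ (D i)) := by
      rw [hBd]
      exact ⟨g₀, hg₀M, i, rfl⟩
    have hne0 : img Q g₀ (D i) ≠ ⊥ := by
      intro hb
      have := finrank_img Q g₀ (D i)
      rw [hb, finrank_bot, hdim] at this
      omega
    obtain ⟨x, hx, hx0⟩ := Submodule.exists_mem_ne_zero_of_ne_bot hne0
    obtain ⟨v, hv⟩ : ∃ v, QuadraticMap.polar (⇑Q) x v ≠ 0 := by
      by_contra hcon
      push Not at hcon
      exact hx0 (hQ.1 x hcon)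
    rw [← sum_comp hI v, polar_sum_right] at hv
    obtain ⟨j, -, hj⟩ := Finset.exists_ne_zero_of_sum_ne_zero hv
    exact S.win_of_not_orth hX (hBD j) (hi j) hx (comp_mem hI j v) hj
  obtain ⟨X₁, hX₁, u, huX₁, hu0, hu, y, hyX₁, hdir⟩ := hWin
  rw [hBd] at hX₁
  obtain ⟨g, hgM, i, rfl⟩ := hX₁
  have hginv : g⁻¹ ∈ M := M.inv_mem hgM
  obtain ⟨u₀, hu₀d⟩ : ∃ u₀, u₀ = act g⁻¹ u := ⟨_, rfl⟩
  have hu₀D : u₀ ∈ D i := by
    rw [hu₀d]
    exact (mem_img' Q g (D i) u).mp huX₁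
  have hQu₀ : Q u₀ = 0 := by
    rw [hu₀d, Q_act]
    exact hu
  have hu₀0 : u₀ ≠ 0 := by
    rw [hu₀d]
    exact act_ne_zero g⁻¹ hu0
  have hy₀ : act g⁻¹ y ∉ D i := fun h => hyX₁ ((mem_img' Q g (D i) y).mpr h)
  have hdir₀ : eichDir Q M u₀ (act g⁻¹ y) := by
    rw [hu₀d]
    exact eichDir_conj Q M u y hginv hdir
  obtain ⟨y₁, hy₁d⟩ : ∃ y₁, y₁ = prj Q (D i) (hnd i) (act g⁻¹ y) := ⟨_, rfl⟩
  have hy₁D : y₁ ∈ D i := by
    rw [hy₁d]
    exact prj_mem Q (D i) (hnd i) _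
  have hy₂perp : ∀ w ∈ D i, QuadraticMap.polar (⇑Q) w (act g⁻¹ y - y₁) = 0 := by
    rw [hy₁d]
    exact prj_perp Q (D i) (hnd i) _
  have hy₂0 : act g⁻¹ y - y₁ ≠ 0 := by
    intro h
    apply hy₀
    rw [sub_eq_zero.mp h]
    exact hy₁D
  have hu₀y₁ : QuadraticMap.polar (⇑Q) u₀ y₁ = 0 := by
    rw [hy₁d, prj_polar Q (D i) (hnd i) _ hu₀D]
    exact hdir₀.1
  have hdir₁ : eichDir Q M u₀ y₁ := S.eichDir_in (hBD i) hu₀D hy₁D hQu₀ hu₀y₁
  have hdir₂ : eichDir Q M u₀ (act g⁻¹ y - y₁) := eichDir_sub Q M u₀ _ _ hQu₀ hdir₀ hdir₁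
  -- a direction not orthogonal to a member fills the member
  have dir_block : ∀ (a b : Fin t), a ≠ b → ∀ u ∈ D a, Q u = 0 → ∀ w, eichDir Q M u w →
      (∃ x ∈ D b, QuadraticMap.polar (⇑Q) x w ≠ 0) → ∀ v ∈ D b, eichDir Q M u v := by
    intro a b hab u huD hu w hw hex v hv
    have hle := irr Q hQ h2 (D b) (hnd b) (by rw [hdim]; exact hk3) (dirSub Q M u hu) (by
        intro s hs hQs y hy hsy w' hw'
        have hmem : eG Q s y ∈ M := KXD b (eG_mem_KX Q hQ h3 (D b) s y hs hy hQs hsy)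
        have h1 := eichDir_conj Q M u w' hmem hw'
        rw [act_eG Q s y hQs hsy, act_eG Q s y hQs hsy,
          eich_fix Q s y u (horth b a (Ne.symm hab) s hs u huD)
            (horth b a (Ne.symm hab) y hy u huD)] at h1
        exact h1)
      (by
        obtain ⟨x, hx, hxw⟩ := hex
        exact ⟨w, hw, x, hx, hxw⟩)
    exact hle hv
  obtain ⟨v, hv⟩ : ∃ v, QuadraticMap.polar (⇑Q) (act g⁻¹ y - y₁) v ≠ 0 := by
    by_contra hcon
    push Not at hcon
    exact hy₂0 (hQ.1 _ hcon)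
  rw [← sum_comp hI v, polar_sum_right] at hv
  obtain ⟨j, -, hj⟩ := Finset.exists_ne_zero_of_sum_ne_zero hv
  have hj' : QuadraticMap.polar (⇑Q) (comp hI j v) (act g⁻¹ y - y₁) ≠ 0 := by
    rw [QuadraticMap.polar_comm]
    exact hj
  have hji : j ≠ i := by
    rintro rfl
    exact hj' (hy₂perp _ (comp_mem hI j v))
  have hR0 : ∀ v ∈ D j, eichDir Q M u₀ v :=
    dir_block i j (Ne.symm hji) u₀ hu₀D hQu₀ _ hdir₂ ⟨comp hI j v, comp_mem hI j v, hj'⟩
  have R_of_one : ∀ a b : Fin t, a ≠ b → ∀ u₀ ∈ D a, Q u₀ = 0 → u₀ ≠ 0 →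
      (∀ v ∈ D b, eichDir Q M u₀ v) →
      (∀ v ∈ D b, Q v = 0 → ∀ x ∈ D a, eichDir Q M v x) ∧
      (∀ u ∈ D a, Q u = 0 → ∀ v ∈ D b, eichDir Q M u v) := by
    intro a b hab u₀ hu₀ hQu₀ hu₀0 h
    have hba : ∀ v ∈ D b, Q v = 0 → ∀ x ∈ D a, eichDir Q M v x := by
      intro v hv hQv x hx
      have h1 : eichDir Q M v u₀ := eichDir_symm Q M u₀ v hQu₀ hQv (h v hv)
      obtain ⟨x₀, hx₀, hx₀u⟩ := exists_polar_ne_of_inf_orth Q (D a) (hnd a) u₀ hu₀ hu₀0
      exact dir_block b a (Ne.symm hab) v hv hQv u₀ h1 ⟨x₀, hx₀, hx₀u⟩ x hx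
    refine ⟨hba, ?_⟩
    intro u hu hQu v hv
    obtain ⟨e, heD, he0, hQe⟩ := exists_sing Q (D b) (by rw [hdim]; exact hk3)
    obtain ⟨e', he'D, hQe', hee'⟩ := exists_partner_in Q (D b) (hnd b) e heD he0 hQe
    have hspan := mem_span_singular Q (D b) e e' heD he'D hQe hQe' hee' v hv
    exact eichDir_span Q M u hQu {s | s ∈ D b ∧ Q s = 0}
      (fun z hz => eichDir_symm Q M z u hz.2 hQu (hba z hz.1 hz.2 u hu)) v hspan
  obtain ⟨hRji, hRij⟩ := R_of_one i j (Ne.symm hji) u₀ hu₀D hQu₀ hu₀0 hR0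
  have hall : ∀ j', j' ≠ i → ∀ u ∈ D i, Q u = 0 → ∀ v ∈ D j', eichDir Q M u v := by
    intro j' hj'i u hu hQu v hv
    by_cases hj'j : j' = j
    · rw [hj'j] at hv
      exact hRij u hu hQu v hv
    · obtain ⟨m, hmM, hm1, hm2⟩ :=
        exists_cycle Q D hD M hM (Ne.symm hji) (Ne.symm hj'i) (Ne.symm hj'j)
      have h1 : act m⁻¹ u ∈ D j := by
        apply (mem_img' Q m (D j) u).mp
        rw [hm1]
        exact hu
      have h2 : act m⁻¹ v ∈ D i := by
        apply (mem_img' Q m (D i) v).mp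
        rw [hm2]
        exact hv
      have h3 := hRji _ h1 (by rw [Q_act]; exact hQu) _ h2
      have h4 := eichDir_conj Q M _ _ hmM h3
      rwa [act_act_inv, act_act_inv] at h4
  have hfull : ∀ u ∈ D i, Q u = 0 → u ∈ fullPts Q M := by
    intro u hu hQu
    apply mem_fullPts_of_eichDir Q M u hQu
    intro z huz
    have hsum : ∑ j', comp hI j' z ∈ dirSub Q M u hQu := by
      apply Submodule.sum_mem
      intro j' _
      by_cases hj'i : j' = i
      · rw [hj'i]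
        exact S.eichDir_in (hBD i) hu (comp_mem hI i z) hQu
          (by rw [← polar_comp Q hI horth hu z]; exact huz)
      · exact hall j' hj'i u hu hQu _ (comp_mem hI j' z)
    rw [sum_comp hI z] at hsum
    exact hsum
  obtain ⟨u₁, hu₁D, hQu₁, huu₁⟩ := exists_partner_in Q (D i) (hnd i) u₀ hu₀D hu₀0 hQu₀
  exact commutator_le_of_fullPts_pair Q hQ h3 M (hfull u₀ hu₀D hQu₀) (hfull u₁ hu₁D hQu₁)
    (by rw [huu₁]; exact one_ne_zero)

end

end Cfsg.Agent.H17.Dc
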