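import Cfsg.Agent.H17.DcI

set_option autoImplicit false
set_option linter.unusedSectionVars false

/-! helper17: maximality of the stabiliser in `Ω(Q)` of an orthogonal decomposition into
isometric non-degenerate blocks of dimension `k = 3` (`q ≥ 5`) or `k ≥ 5`, `q` odd. -/

namespace Cfsg.Agent.H17.Dc

open Module Matrix Cfsg.Agent.H49 Cfsg.Agent.H95

section
variable {ι : Type} [Fintype ι] [DecidableEq ι] {F : Type*} [Field F]

theorem decomp_isMaximalIn [Fintype F] (Q : QuadraticForm F (ι → F))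
    (hQ : (QuadraticMap.polarBilin Q).Nondegenerate) (h2 : (2 : F) ≠ 0) (h3 : HasTS3 Q)
    {t k : ℕ} (D : Fin t → Submodule F (ι → F))
    (hD : Cfsg.Geo.IsOrthogonalMDecomposition (⇑Q) k D) (hk : k = 3 ∨ 5 ≤ k)
    (hq : k = 3 → 5 ≤ Fintype.card F) :
    Cfsg.Geo.IsMaximalIn (Cfsg.Geo.omegaGL (⇑Q))
      (Cfsg.Geo.decompositionStabilizer D ⊓ Cfsg.Geo.omegaGL (⇑Q)) := by
  classical
  refine ⟨lt_of_le_of_ne inf_le_right ?_, ?_⟩
  · intro hEq
    have hdec := hD.decomp.decomp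
    have hI : DirectSum.IsInternal D :=
      DirectSum.isInternal_submodule_of_iSupIndep_of_iSup_eq_top hdec.indep hdec.iSup_eq_top
    have horth : ∀ i j, i ≠ j → ∀ u ∈ D i, ∀ v ∈ D j, QuadraticMap.polar (⇑Q) u v = 0 :=
      hD.decomp.orthogonal
    have hnd : ∀ i,
        D i ⊓ LinearMap.BilinForm.orthogonal (QuadraticMap.polarBilin Q) (D i) = ⊥ := by
      intro i
      rw [eq_bot_iff]
      rintro z ⟨hz1, hz2⟩
      rw [Submodule.mem_bot]
      by_contra hz0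
      obtain ⟨⟨x, hx, hxz⟩, -⟩ := hD.decomp.nondegenerate i z hz1 hz0
      exact hxz ((LinearMap.BilinForm.mem_orthogonal_iff.mp hz2) x hx)
    have hdim : ∀ i, finrank F (D i) = k := hdec.finrank_eq
    have hk3 : 3 ≤ k := by rcases hk with h | h <;> omega
    have ht := hdec.two_le
    obtain ⟨i₀, hi₀⟩ : ∃ i₀ : Fin t, i₀ = ⟨0, by omega⟩ := ⟨_, rfl⟩
    obtain ⟨i₁, hi₁⟩ : ∃ i₁ : Fin t, i₁ = ⟨1, by omega⟩ := ⟨_, rfl⟩
    have h01 : i₀ ≠ i₁ := by
      rw [hi₀, hi₁]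
      intro h
      have := congrArg Fin.val h
      simp at this
    obtain ⟨u, huD, hu0, hQu⟩ := exists_sing Q (D i₀) (by rw [hdim]; exact hk3)
    obtain ⟨u₁, hu₁D, hQu₁, huu₁⟩ := exists_partner_in Q (D i₀) (hnd i₀) u huD hu0 hQu
    obtain ⟨v, hvD, hv0, hQv⟩ := exists_sing Q (D i₁) (by rw [hdim]; exact hk3)
    have huv : QuadraticMap.polar (⇑Q) u v = 0 := horth i₀ i₁ h01 u huD v hvD
    have hmem : (Cfsg.isometryGroup F (⇑Q)).subtype (eG Q u v) ∈ Cfsg.Geo.omegaGL (⇑Q) :=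
      ⟨_, eG_mem_commutator Q hQ h3 u v hQu huv, rfl⟩
    rw [← hEq] at hmem
    obtain ⟨σ, hσ⟩ := hmem.1
    have h1 : act (eG Q u v) u₁ ∈ D (σ i₀) := by
      rw [← hσ i₀]
      exact ⟨u₁, hu₁D, by rw [Matrix.toLin'_apply]; rfl⟩
    rw [act_eG Q u v hQu huv, eich_apply, huu₁, hQv,
      horth i₁ i₀ (Ne.symm h01) v hvD u₁ hu₁D] at h1
    have c0 : comp hI i₀ (u₁ + (1 : F) • v - ((0 : F) + 0 * 1) • u) = u₁ := by
      rw [map_sub, map_add, map_smul, map_smul, comp_of_mem hI hu₁D,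
        comp_of_mem_ne hI hvD (Ne.symm h01), comp_of_mem hI huD]
      simp
    have c1 : comp hI i₁ (u₁ + (1 : F) • v - ((0 : F) + 0 * 1) • u) = v := by
      rw [map_sub, map_add, map_smul, map_smul, comp_of_mem_ne hI hu₁D h01,
        comp_of_mem hI hvD, comp_of_mem_ne hI huD h01]
      simp
    have hu₁0 : u₁ ≠ 0 := by
      rintro rfl
      rw [QuadraticMap.polar_zero_right] at huu₁
      exact zero_ne_one huu₁
    by_cases hσ0 : σ i₀ = i₀
    · rw [hσ0] at h1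
      rw [comp_of_mem_ne hI h1 h01] at c1
      exact hv0 c1.symm
    · rw [comp_of_mem_ne hI h1 hσ0] at c0
      exact hu₁0 c0.symm
  · intro M hHM hMΩ
    by_cases hMH : M = Cfsg.Geo.decompositionStabilizer D ⊓ Cfsg.Geo.omegaGL (⇑Q)
    · exact Or.inl hMH
    · right
      apply le_antisymm hMΩ
      obtain ⟨g, hgM, hgH⟩ : ∃ g ∈ M, g ∉ Cfsg.Geo.decompositionStabilizer D ⊓
          Cfsg.Geo.omegaGL (⇑Q) := by
        by_contra hcon
        push Not at hcon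
        exact hMH (le_antisymm hcon hHM)
      obtain ⟨g', hg', rfl⟩ := hMΩ hgM
      have hgS : ((Cfsg.isometryGroup F (⇑Q)).subtype g') ∉ Cfsg.Geo.decompositionStabilizer D :=
        fun h => hgH ⟨h, ⟨g', hg', rfl⟩⟩
      have key := decomp_core Q hQ h2 h3 D hD hk hq
        (M.comap (Cfsg.isometryGroup F (⇑Q)).subtype)
        (fun k' hk' hkS => hHM ⟨hkS, ⟨k', hk', rfl⟩⟩) g' hgM hgS
      rintro _ ⟨k', hk', rfl⟩
      exact key hk'

end

end Cfsg.Agent.H17.Dc
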