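import Cfsg.Agent.H17.JxPSide
import Cfsg.Agent.H52.JxKB
import Cfsg.Agent.H54.JxStar
import Cfsg.Agent.H48.JxVne
import Cfsg.Agent.H53.JxPF

/-!
# JX (S2953, helper52's KILL2): the case `V ⊄ Q₁` closed, hypothesis-free

`kbNorm : StKBNorm` and `kb : StKB` from the landed pieces: helper52's `kbNorm_of` and `kb_of`,
`pSide` (H17), `stVne` (helper48), `pf` (helper53), `star` (helper54).
-/

set_option autoImplicit false

namespace Cfsg.Agent.H17.Jx

universe u

open Cfsg.Agent.H52.Jx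

/-- KB-NORM, hypothesis-free. -/
theorem kbNorm : StKBNorm.{u} :=
  kbNorm_of Cfsg.Agent.H17.Jx.pSide Cfsg.Agent.H48.Jx.stVne Cfsg.Agent.H53.Jx.pf

/-- KB: the case `V ⊄ Q₁` of the residual configuration is impossible. -/
theorem kb : StKB.{u} := kb_of Cfsg.Agent.H54.Jx.star Cfsg.Agent.H53.Jx.pf kbNorm

end Cfsg.Agent.H17.Jx

#print axioms Cfsg.Agent.H17.Jx.kb

universe v

example : Cfsg.Agent.H52.Jx.StKBNorm.{v} := Cfsg.Agent.H17.Jx.kbNorm
example : Cfsg.Agent.H52.Jx.StKB.{v} := Cfsg.Agent.H17.Jx.kb
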