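import Mathlib
import Cfsg.Agent.H64.JzDefs
import Cfsg.Agent.S2950
import Cfsg.Agent.Helper55.UqBase
import Cfsg.Agent.H39.JzLex
import Cfsg.Agent.H26.JzAEq
import Cfsg.Agent.H16.W4Basic
import Cfsg.Agent.H32.SqV
import Cfsg.Agent.H40.ConjMore

/-!
# JZ-LT (piece of S2951, helper64's project): the case `T < S`

helper60's argument (board post 10194): `x ∈ N_S(T) ∖ T` is not in `L`; `(U)`: `C_G(y) ≤ L` for
`1 ≠ y ∈ Z₁ = Z₀ ∩ Z(⟨K, J(T)⟩)`; `(Y)`: `Z₁ ∩ Z₁^x = 1`; hence `|Z₁| ≤ 2`, and clause 1 or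
clause 3 of S2951 holds.
-/

set_option autoImplicit false
open Cfsg
open scoped commutatorElement

namespace Cfsg.Agent.H17.Jz

universe u

section gen
variable {G : Type u} [Group G]

theorem two_elts {H : Subgroup G} (h2 : Nat.card H = 2) {z : G} (hz : z ∈ H) (hz1 : z ≠ 1) :
    ∀ u ∈ H, u = 1 ∨ u = z := by
  intro u hu
  obtain ⟨y, hy, huniq⟩ := (Nat.card_eq_two_iff' (1 : H)).mp h2
  by_cases hu1 : u = 1
  · exact Or.inl hu1
  · right
    have h1 : (⟨u, hu⟩ : H) = y := huniq _ (fun h => hu1 (congrArg Subtype.val h))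
    have h2' : (⟨z, hz⟩ : H) = y := huniq _ (fun h => hz1 (congrArg Subtype.val h))
    exact congrArg Subtype.val (h1.trans h2'.symm)

theorem exists_ne_one_of_card_two {H : Subgroup G} (h2 : Nat.card H = 2) : ∃ w ∈ H, w ≠ 1 := by
  obtain ⟨y, hy, -⟩ := (Nat.card_eq_two_iff' (1 : H)).mp h2
  exact ⟨y.1, y.2, fun h => hy (Subtype.ext h)⟩

theorem card_two_of_elts {H : Subgroup G} {z : G} (hz : z ∈ H) (hz1 : z ≠ 1)
    (hel : ∀ u ∈ H, u = 1 ∨ u = z) : Nat.card H = 2 := by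
  rw [Nat.card_eq_two_iff' (1 : H)]
  refine ⟨⟨z, hz⟩, fun h => hz1 (congrArg Subtype.val h), ?_⟩
  intro y hy
  rcases hel y.1 y.2 with h | h
  · exact absurd (Subtype.ext h) hy
  · exact Subtype.ext h

theorem mem_sup_of_commute {A B : Subgroup G} (hc : ∀ a ∈ A, ∀ b ∈ B, a * b = b * a) {u : G}
    (hu : u ∈ A ⊔ B) : ∃ a ∈ A, ∃ b ∈ B, u = a * b := by
  let P : Subgroup G :=
    { carrier := {g | ∃ a ∈ A, ∃ b ∈ B, g = a * b}
      mul_mem' := by
        rintro _ _ ⟨a, ha, b, hb, rfl⟩ ⟨a', ha', b', hb', rfl⟩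
        refine ⟨a * a', A.mul_mem ha ha', b * b', B.mul_mem hb hb', ?_⟩
        have h := hc a' ha' b hb
        calc a * b * (a' * b') = a * (b * a') * b' := by group
          _ = a * (a' * b) * b' := by rw [h]
          _ = a * a' * (b * b') := by group
      one_mem' := ⟨1, A.one_mem, 1, B.one_mem, by simp⟩
      inv_mem' := by
        rintro _ ⟨a, ha, b, hb, rfl⟩
        refine ⟨a⁻¹, A.inv_mem ha, b⁻¹, B.inv_mem hb, ?_⟩
        have h := hc a⁻¹ (A.inv_mem ha) b⁻¹ (B.inv_mem hb)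
        rw [mul_inv_rev, h] }
  have h1 : A ⊔ B ≤ P :=
    sup_le (fun a ha => ⟨a, ha, 1, B.one_mem, by simp⟩) (fun b hb => ⟨1, A.one_mem, b, hb, by simp⟩)
  exact h1 hu

/-- The abstract core of the case `T < S`. -/
theorem core [Finite G] (L Z Z0 Z1 W0 T : Subgroup G) (x : G)
    (hZle : Z ≤ Z0) (hZne : Z ≠ ⊥) (hZ1le : Z1 ≤ Z0) (hW0le : W0 ≤ Z0)
    (hdec : ∀ u ∈ Z0, ∃ a ∈ Z1, ∃ b ∈ W0, u = a * b)
    (hW2 : Nat.card W0 = 2)
    (hsq : ∀ u ∈ Z0, u * u = 1)
    (hU : ∀ y ∈ Z1, y ≠ 1 → ∀ g : G, g * y = y * g → g ∈ L)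
    (hY : ∀ y ∈ Z1, y ≠ 1 → x * y * x⁻¹ ∈ Z1 → x ∈ L)
    (hxL : x ∉ L)
    (hxN : x ∈ Subgroup.normalizer (Z0 : Set G))
    (hxZ : ∀ u ∈ Z, x * u = u * x)
    (hZZ1 : ∀ y ∈ Z, y ∈ Z1 → y = 1)
    (hTL : T ≤ L)
    (hTN : T ≤ Subgroup.normalizer (Z0 : Set G))
    (hTZ : ∀ t ∈ T, ∀ u ∈ Z, t * u = u * t)
    (hNoFuse : ∀ z ∈ Z, z ≠ 1 → (∀ u ∈ Z, u = 1 ∨ u = z) → ∀ z1 ∈ Z1, z1 ≠ 1 →
      ∀ y : G, y * z1 * y⁻¹ = z → False) :
    (Z = Z0 ∧ Nat.card Z0 = 2) ∨
      ((∀ t ∈ T, ∀ u ∈ Z0, t * u = u * t) ∧ Nat.card Z0 = 4 ∧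
        (L ⊓ Subgroup.centralizer (Z0 : Set G)).relIndex
          (Subgroup.normalizer (Z0 : Set G)) = 2) := by
  classical
  have hconj : ∀ g ∈ Subgroup.normalizer (Z0 : Set G), ∀ u ∈ Z0, g * u * g⁻¹ ∈ Z0 := by
    intro g hg u hu
    exact (Subgroup.mem_normalizer_iff.mp hg u).mp hu
  obtain ⟨w, hwW, hw1⟩ := exists_ne_one_of_card_two hW2
  have hWel := two_elts hW2 hwW hw1
  have hx_out : ∀ a ∈ Z1, a ≠ 1 → ∃ a' ∈ Z1, x * a * x⁻¹ = a' * w := by
    intro a ha ha1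
    obtain ⟨a', ha', b, hb, hab⟩ := hdec _ (hconj x hxN a (hZ1le ha))
    rcases hWel b hb with h | h
    · exfalso
      apply hxL
      apply hY a ha ha1
      rw [hab, h, mul_one]; exact ha'
    · exact ⟨a', ha', by rw [hab, h]⟩
  have halpha : ∀ a ∈ Z1, ∀ b ∈ Z1, a ≠ 1 → b ≠ 1 → a = b := by
    intro a ha b hb ha1 hb1
    by_contra hne
    obtain ⟨a', ha', h1⟩ := hx_out a ha ha1
    obtain ⟨b', hb', h2⟩ := hx_out b hb hb1
    apply hxL
    apply hY (a * b⁻¹) (Z1.mul_mem ha (Z1.inv_mem hb))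
    · intro h; exact hne (mul_inv_eq_one.mp h)
    · have h3 : x * (a * b⁻¹) * x⁻¹ = a' * b'⁻¹ := by
        calc x * (a * b⁻¹) * x⁻¹ = (x * a * x⁻¹) * (x * b * x⁻¹)⁻¹ := by group
          _ = a' * w * (b' * w)⁻¹ := by rw [h1, h2]
          _ = a' * b'⁻¹ := by group
      rw [h3]; exact Z1.mul_mem ha' (Z1.inv_mem hb')
  obtain ⟨z, hzZ, hz1⟩ : ∃ z ∈ Z, z ≠ 1 := by
    by_contra hcon
    push_neg at hcon
    exact hZne ((Subgroup.eq_bot_iff_forall Z).mpr hcon)
  have hzZ0 : z ∈ Z0 := hZle hzZ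
  by_cases hex : ∃ z1 ∈ Z1, z1 ≠ 1
  · right
    obtain ⟨z1, hz1Z1, hz11⟩ := hex
    have hZ1el : ∀ u ∈ Z1, u = 1 ∨ u = z1 := by
      intro u hu
      by_cases hu1 : u = 1
      · exact Or.inl hu1
      · exact Or.inr (halpha u hu z1 hz1Z1 hu1 hz11)
    have hzz1 : z ≠ z1 := by
      intro h; apply hz1; apply hZZ1 z hzZ; rw [h]; exact hz1Z1
    have hz1sq : z1 * z1 = 1 := hsq z1 (hZ1le hz1Z1)
    have hzsq : z * z = 1 := hsq z hzZ0
    have hel0 : ∀ u ∈ Z0, u = 1 ∨ u = z1 ∨ u = w ∨ u = z1 * w := by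
      intro u hu
      obtain ⟨a, ha, b, hb, hab⟩ := hdec u hu
      rcases hZ1el a ha with h1 | h1 <;> rcases hWel b hb with h2 | h2
      · left; rw [hab, h1, h2, mul_one]
      · right; right; left; rw [hab, h1, h2, one_mul]
      · right; left; rw [hab, h1, h2, mul_one]
      · right; right; right; rw [hab, h1, h2]
    have hel : ∀ u ∈ Z0, u = 1 ∨ u = z1 ∨ u = z ∨ u = z1 * z := by
      have hzw : z = w ∨ z = z1 * w := by
        rcases hel0 z hzZ0 with h | h | h | h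
        · exact absurd h hz1
        · exact absurd h hzz1
        · exact Or.inl h
        · exact Or.inr h
      intro u hu
      rcases hzw with hzw | hzw
      · rw [hzw]; exact hel0 u hu
      · have hw' : w = z1 * z := by rw [hzw, ← mul_assoc, hz1sq, one_mul]
        rcases hel0 u hu with h | h | h | h
        · exact Or.inl h
        · exact Or.inr (Or.inl h)
        · exact Or.inr (Or.inr (Or.inr (h.trans hw')))
        · exact Or.inr (Or.inr (Or.inl (h.trans hzw.symm)))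
    have hZel : ∀ u ∈ Z, u = 1 ∨ u = z := by
      intro u hu
      rcases hel u (hZle hu) with h | h | h | h
      · exact Or.inl h
      · exfalso; apply hz11; apply hZZ1 z1 _ hz1Z1; rw [← h]; exact hu
      · exact Or.inr h
      · exfalso; apply hz11; apply hZZ1 z1 _ hz1Z1
        have h5 : z1 = u * z⁻¹ := by rw [h]; group
        rw [h5]; exact Z.mul_mem hu (Z.inv_mem hzZ)
    have hxz : x * z * x⁻¹ = z := mul_inv_eq_iff_eq_mul.mpr (hxZ z hzZ)
    have hx1 : x * z1 * x⁻¹ = z1 * z := by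
      rcases hel _ (hconj x hxN z1 (hZ1le hz1Z1)) with h | h | h | h
      · exact absurd (conj_eq_one_iff.mp h) hz11
      · exfalso; apply hxL; exact hU z1 hz1Z1 hz11 x (mul_inv_eq_iff_eq_mul.mp h)
      · exfalso; apply hzz1
        have h2 : x * z1 * x⁻¹ = x * z * x⁻¹ := by rw [h, hxz]
        exact (mul_left_cancel (mul_right_cancel h2)).symm
      · exact h
    have hT : ∀ t ∈ T, ∀ u ∈ Z0, t * u = u * t := by
      intro t ht
      have htz : t * z = z * t := hTZ t ht z hzZ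
      have htz' : t * z * t⁻¹ = z := mul_inv_eq_iff_eq_mul.mpr htz
      have htz1 : t * z1 = z1 * t := by
        rcases hel _ (hconj t (hTN ht) z1 (hZ1le hz1Z1)) with h | h | h | h
        · exact absurd (conj_eq_one_iff.mp h) hz11
        · exact mul_inv_eq_iff_eq_mul.mp h
        · exfalso; apply hzz1
          have h2 : t * z1 * t⁻¹ = t * z * t⁻¹ := by rw [h, htz']
          exact (mul_left_cancel (mul_right_cancel h2)).symm
        · exfalso; apply hxL
          have h3 : x⁻¹ * t ∈ L := by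
            apply hU z1 hz1Z1 hz11
            have h4 : x⁻¹ * t * z1 = x⁻¹ * (t * z1 * t⁻¹) * t := by group
            rw [h4, h, ← hx1]; group
          have h5 : x = t * (x⁻¹ * t)⁻¹ := by group
          rw [h5]; exact L.mul_mem (hTL ht) (L.inv_mem h3)
      intro u hu
      rcases hel u hu with h | h | h | h
      · rw [h, mul_one, one_mul]
      · rw [h]; exact htz1
      · rw [h]; exact htz
      · rw [h]
        calc t * (z1 * z) = (t * z1) * z := by group
          _ = (z1 * t) * z := by rw [htz1]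
          _ = z1 * (t * z) := by group
          _ = z1 * (z * t) := by rw [htz]
          _ = z1 * z * t := by group
    have hcard4 : Nat.card Z0 = 4 := by
      have hZ1card : Nat.card Z1 = 2 := card_two_of_elts hz1Z1 hz11 hZ1el
      have hdvd : Nat.card Z1 ∣ Nat.card Z0 := Subgroup.card_dvd_of_le hZ1le
      have hne2 : Nat.card Z0 ≠ 2 := by
        intro h2
        rcases two_elts h2 (hZ1le hz1Z1) hz11 z hzZ0 with h | h
        · exact hz1 h
        · exact hzz1 h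
      have hle : Nat.card Z0 ≤ 4 := by
        have hsub : (Z0 : Set G) ⊆ (({1, z1, z, z1 * z} : Finset G) : Set G) := by
          intro u hu
          have h := hel u hu
          simp only [Finset.coe_insert, Finset.coe_singleton, Set.mem_insert_iff,
            Set.mem_singleton_iff]
          exact h
        have h1 : Nat.card Z0 = (Z0 : Set G).ncard := Nat.card_coe_set_eq (Z0 : Set G)
        rw [h1]
        calc (Z0 : Set G).ncard ≤ ((({1, z1, z, z1 * z} : Finset G) : Set G)).ncard :=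
              Set.ncard_le_ncard hsub (Finset.finite_toSet _)
          _ = ({1, z1, z, z1 * z} : Finset G).card := Set.ncard_coe_finset _
          _ ≤ 4 := Finset.card_le_four
      have hpos : Nat.card Z0 ≠ 0 := Nat.card_pos.ne'
      rw [hZ1card] at hdvd
      obtain ⟨k, hk⟩ := hdvd
      omega
    have hrel : (L ⊓ Subgroup.centralizer (Z0 : Set G)).relIndex
        (Subgroup.normalizer (Z0 : Set G)) = 2 := by
      rw [Subgroup.relIndex_eq_two_iff_exists_notMem_and]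
      refine ⟨x, hxN, fun h => hxL h.1, ?_⟩
      intro b hb
      have hcent : ∀ g : G, g * z = z * g → g * z1 = z1 * g →
          g ∈ L ⊓ Subgroup.centralizer (Z0 : Set G) := by
        intro g h1 h2
        refine Subgroup.mem_inf.mpr ⟨hU z1 hz1Z1 hz11 g h2, ?_⟩
        rw [Subgroup.mem_centralizer_iff]
        intro u hu
        rcases hel u hu with h | h | h | h
        · rw [h, mul_one, one_mul]
        · rw [h]; exact h2.symm
        · rw [h]; exact h1.symm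
        · rw [h]
          calc z1 * z * g = z1 * (z * g) := by group
            _ = z1 * (g * z) := by rw [h1]
            _ = (z1 * g) * z := by group
            _ = (g * z1) * z := by rw [h2]
            _ = g * (z1 * z) := by group
      have hbz : b * z * b⁻¹ = z := by
        rcases hel _ (hconj b hb z hzZ0) with h | h | h | h
        · exact absurd (conj_eq_one_iff.mp h) hz1
        · exfalso
          apply hNoFuse z hzZ hz1 hZel z1 hz1Z1 hz11 b⁻¹
          rw [← h]; group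
        · exact h
        · exfalso
          apply hNoFuse z hzZ hz1 hZel z1 hz1Z1 hz11 (x * b)⁻¹
          have h5 : x * b * z * (x * b)⁻¹ = z1 := by
            calc x * b * z * (x * b)⁻¹ = x * (b * z * b⁻¹) * x⁻¹ := by group
              _ = x * (z1 * z) * x⁻¹ := by rw [h]
              _ = (x * z1 * x⁻¹) * (x * z * x⁻¹) := by group
              _ = z1 * z * z := by rw [hx1, hxz]
              _ = z1 := by rw [mul_assoc, hzsq, mul_one]
          rw [← h5]; group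
      have hbz' : b * z = z * b := mul_inv_eq_iff_eq_mul.mp hbz
      rcases hel _ (hconj b hb z1 (hZ1le hz1Z1)) with h | h | h | h
      · exact absurd (conj_eq_one_iff.mp h) hz11
      · right
        exact hcent b hbz' (mul_inv_eq_iff_eq_mul.mp h)
      · exfalso; apply hzz1
        have h2 : b * z1 * b⁻¹ = b * z * b⁻¹ := by rw [h, hbz]
        exact (mul_left_cancel (mul_right_cancel h2)).symm
      · left
        apply hcent (b * x)
        · calc b * x * z = b * (x * z) := by group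
            _ = b * (z * x) := by rw [hxZ z hzZ]
            _ = (b * z) * x := by group
            _ = z * b * x := by rw [hbz']
            _ = z * (b * x) := by group
        · calc b * x * z1 = (b * (x * z1 * x⁻¹) * b⁻¹) * (b * x) := by group
            _ = (b * (z1 * z) * b⁻¹) * (b * x) := by rw [hx1]
            _ = ((b * z1 * b⁻¹) * (b * z * b⁻¹)) * (b * x) := by group
            _ = (z1 * z * z) * (b * x) := by rw [h, hbz]
            _ = z1 * (b * x) := by rw [mul_assoc z1 z z, hzsq, mul_one]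
    exact ⟨hT, hcard4, hrel⟩
  · left
    push_neg at hex
    have hZ0W : Z0 = W0 := by
      apply le_antisymm _ hW0le
      intro u hu
      obtain ⟨a, ha, b, hb, hab⟩ := hdec u hu
      rw [hab, hex a ha, one_mul]; exact hb
    have hc2 : Nat.card Z0 = 2 := by rw [hZ0W]; exact hW2
    refine ⟨le_antisymm hZle ?_, hc2⟩
    intro u hu
    rcases two_elts hc2 hzZ0 hz1 u hu with h | h
    · rw [h]; exact Z.one_mem
    · rw [h]; exact hzZ

end gen

section grp
variable {G : Type u} [Group G] [Finite G]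

theorem isTwoLocal_conj {N : Subgroup G} (h : IsTwoLocal N) (g : G) :
    IsTwoLocal (N.map (MulAut.conj g).toMonoidHom) := by
  have : Fact (Nat.Prime 2) := ⟨Nat.prime_two⟩
  obtain ⟨P, hP, hP1, rfl⟩ := h
  refine ⟨P.map (MulAut.conj g).toMonoidHom, hP.map _, ?_,
    (Cfsg.Agent.H40.normalizer_map_conj P g).symm⟩
  intro hbot
  apply hP1
  rw [Subgroup.eq_bot_iff_forall]
  intro p hp
  have h1 : (MulAut.conj g).toMonoidHom p ∈ P.map (MulAut.conj g).toMonoidHom := ⟨p, hp, rfl⟩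
  rw [hbot, Subgroup.mem_bot] at h1
  have h2 : g * p * g⁻¹ = 1 := by simpa [MulAut.conj_apply] using h1
  exact conj_eq_one_iff.mp h2

theorem isMaximalTwoLocal_conj {L : Subgroup G} (h : IsMaximalTwoLocal L) (g : G) :
    IsMaximalTwoLocal (L.map (MulAut.conj g).toMonoidHom) := by
  refine ⟨isTwoLocal_conj h.1 g, ?_⟩
  intro N hN hLN
  have h1 : N.map (MulAut.conj g⁻¹).toMonoidHom = L := by
    apply h.2 _ (isTwoLocal_conj hN g⁻¹)
    intro l hl
    rw [Cfsg.Agent.H40.mem_map_conj_iff]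
    have h2 : g * l * g⁻¹ ∈ L.map (MulAut.conj g).toMonoidHom :=
      ⟨l, hl, by simp [MulAut.conj_apply]⟩
    simpa using hLN h2
  rw [← h1, Cfsg.Agent.H40.map_conj_map_conj, mul_inv_cancel, Cfsg.Agent.H40.map_conj_one]

theorem normalizer_le_of_max {L : Subgroup G} (hLmax : IsMaximalTwoLocal L)
    (hO2 : pCoreOf 2 L ≠ ⊥) {g : G} (hg : ∀ l ∈ L, g * l * g⁻¹ ∈ L)
    (hg' : ∀ l ∈ L, g⁻¹ * l * g ∈ L) : g ∈ L := by
  have hloc : IsTwoLocal (Subgroup.normalizer (pCoreOf 2 L : Set G)) :=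
    ⟨pCoreOf 2 L, Cfsg.Agent.Helper55.Uq.pCoreOf_isPGroup L, hO2, rfl⟩
  have hNL : Subgroup.normalizer (pCoreOf 2 L : Set G) = L :=
    hLmax.2 _ hloc (Cfsg.Agent.Helper55.Uq.le_normalizer_pCoreOf' L)
  rw [← hNL, Subgroup.mem_normalizer_iff]
  intro q
  constructor
  · intro hq
    exact Cfsg.Agent.H32.Sq.pCoreOf_conj_of_norm L hg hg' hq
  · intro hq
    have h1 := Cfsg.Agent.H32.Sq.pCoreOf_conj_of_norm L (g := g⁻¹) (by simpa using hg')
      (by simpa using hg) hq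
    have h2 : g⁻¹ * (g * q * g⁻¹) * g⁻¹⁻¹ = q := by group
    rw [h2] at h1
    exact h1

theorem cent_le_of_unique {L KJ : Subgroup G}
    (huniq : ∀ L' : Subgroup G, IsMaximalTwoLocal L' → KJ ≤ L' → L' = L)
    {y : G} (hy1 : y ≠ 1) (hy2 : y * y = 1) (hyc : ∀ g ∈ KJ, g * y = y * g) {g : G}
    (hg : g * y = y * g) : g ∈ L := by
  have : Fact (Nat.Prime 2) := ⟨Nat.prime_two⟩
  have hP : IsPGroup 2 ↥(Subgroup.zpowers y) := by
    apply IsPGroup.of_card (n := 1)
    rw [Nat.card_zpowers, pow_one]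
    exact orderOf_eq_prime (by rw [pow_two]; exact hy2) hy1
  have hne : Subgroup.zpowers y ≠ ⊥ := by
    intro h; exact hy1 (Subgroup.zpowers_eq_bot.mp h)
  have hloc : IsTwoLocal (Subgroup.normalizer ((Subgroup.zpowers y : Subgroup G) : Set G)) :=
    ⟨_, hP, hne, rfl⟩
  obtain ⟨L', hL'max, hle⟩ := Cfsg.Agent.Helper55.Uq.exists_maximalTwoLocal hloc
  have hcn : ∀ g : G, g * y = y * g →
      g ∈ Subgroup.normalizer ((Subgroup.zpowers y : Subgroup G) : Set G) := by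
    intro g hg
    apply Subgroup.centralizer_le_normalizer
    rw [Subgroup.mem_centralizer_iff]
    intro h hh
    obtain ⟨k, rfl⟩ := Subgroup.mem_zpowers_iff.mp hh
    exact ((show Commute g y from hg).zpow_right k).eq.symm
  have hL' : L' = L := huniq L' hL'max (fun g hg => hle (hcn g (hyc g hg)))
  rw [← hL']
  exact hle (hcn g hg)

theorem le_of_sylowIn {T L P : Subgroup G} (h : IsSylowTwoIn T L) (hTP : T ≤ P) (hPL : P ≤ L)
    (hP : IsPGroup 2 ↥P) : P ≤ T := by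
  have : Fact (Nat.Prime 2) := ⟨Nat.prime_two⟩
  obtain ⟨-, -, hodd⟩ := h
  rw [← Subgroup.relIndex_eq_one]
  have h1 : T.relIndex P ∣ T.relIndex L := Dvd.intro _ (Subgroup.relIndex_mul_relIndex T P L hTP hPL)
  have hodd' : Odd (T.relIndex P) := hodd.of_dvd_nat h1
  obtain ⟨n, hn⟩ := IsPGroup.iff_card.mp hP
  have h2 : T.relIndex P ∣ 2 ^ n := hn ▸ Subgroup.relIndex_dvd_card T P
  obtain ⟨m, -, hm⟩ := (Nat.dvd_prime_pow Nat.prime_two).mp h2
  rw [hm] at hodd' ⊢
  rcases Nat.eq_zero_or_pos m with h0 | hpos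
  · rw [h0, pow_zero]
  · exfalso
    have hev : Even (2 ^ m) := (Nat.even_pow.mpr ⟨even_two, hpos.ne'⟩)
    exact (Nat.not_even_iff_odd.mpr hodd') hev

theorem omegaCenterOf_ne_bot {P : Subgroup G} (hP : IsPGroup 2 ↥P) (hP1 : P ≠ ⊥) :
    omegaCenterOf P ≠ ⊥ := by
  have : Fact (Nat.Prime 2) := ⟨Nat.prime_two⟩
  have hnt : Nontrivial ↥P := (Subgroup.nontrivial_iff_ne_bot P).mpr hP1
  have hcnt : Nontrivial ↥(Subgroup.center ↥P) := hP.center_nontrivial
  have hc2 : IsPGroup 2 ↥(Subgroup.center ↥P) := hP.to_subgroup _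
  obtain ⟨n, hn⟩ := IsPGroup.iff_card.mp hc2
  have h1 : 1 < Nat.card ↥(Subgroup.center ↥P) := Finite.one_lt_card
  have hn0 : n ≠ 0 := by
    rintro rfl
    rw [hn] at h1
    simp at h1
  have hdvd : 2 ∣ Nat.card ↥(Subgroup.center ↥P) := by rw [hn]; exact dvd_pow_self 2 hn0
  obtain ⟨c, hc⟩ := exists_prime_orderOf_dvd_card' (G := ↥(Subgroup.center ↥P)) 2 hdvd
  intro hbot
  have hmem : ((c : ↥P) : G) ∈ omegaCenterOf P := by
    unfold omegaCenterOf omegaOne
    apply Subgroup.subset_closure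
    refine ⟨Subgroup.mem_inf.mpr ⟨(c : ↥P).2, ?_⟩, ?_⟩
    · rw [Subgroup.mem_centralizer_iff]
      intro h hh
      have h5 := Subgroup.mem_center_iff.mp c.2 ⟨h, hh⟩
      exact congrArg Subtype.val h5
    · have h2 : c ^ 2 = 1 := by rw [← hc]; exact pow_orderOf_eq_one c
      have h6 := congrArg (fun t : ↥(Subgroup.center ↥P) => ((t : ↥P) : G)) h2
      simpa using h6
  rw [hbot, Subgroup.mem_bot] at hmem
  have hc1 : c = 1 := Subtype.ext (Subtype.ext hmem)
  rw [hc1, orderOf_one] at hc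
  omega

theorem omegaCenterOf_le_J (T : Subgroup G) :
    omegaCenterOf T ≤ omegaCenterOf (thompsonSubgroupOf 2 T) := by
  obtain ⟨A, hA⟩ := Cfsg.Agent.Helper55.ThJ.gens_nonempty T
  have hJT := Cfsg.Agent.Helper55.ThJ.J_le T
  unfold omegaCenterOf omegaOne
  apply Subgroup.closure_mono
  rintro x ⟨⟨hxT, hxC⟩, hx2⟩
  refine ⟨⟨?_, Subgroup.centralizer_le (SetLike.coe_subset_coe.mpr hJT) hxC⟩, hx2⟩
  exact Cfsg.Agent.Helper55.ThJ.gen_le_J hA (Cfsg.Agent.H26.Jz.mem_gen_of_commute hA hxT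
    (fun a ha => Subgroup.mem_centralizer_iff.mp hxC a (hA.1 ha)) hx2)

theorem omegaCenterOf_J_le (T : Subgroup G)
    (hc : ∀ t ∈ T, ∀ u ∈ omegaCenterOf (thompsonSubgroupOf 2 T), t * u = u * t) :
    omegaCenterOf (thompsonSubgroupOf 2 T) ≤ omegaCenterOf T := by
  have hJT := Cfsg.Agent.Helper55.ThJ.J_le T
  have key : ∀ x ∈ thompsonSubgroupOf 2 T ⊓
      Subgroup.centralizer (thompsonSubgroupOf 2 T : Set G), x ^ 2 = 1 →
      x ∈ omegaCenterOf (thompsonSubgroupOf 2 T) := by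
    intro x hx hx2
    unfold omegaCenterOf omegaOne
    exact Subgroup.subset_closure ⟨hx, hx2⟩
  have h2 : ∀ x ∈ thompsonSubgroupOf 2 T ⊓
      Subgroup.centralizer (thompsonSubgroupOf 2 T : Set G), x ^ 2 = 1 →
      x ∈ omegaCenterOf T := by
    intro x hx hx2
    unfold omegaCenterOf omegaOne
    refine Subgroup.subset_closure ⟨Subgroup.mem_inf.mpr ⟨hJT hx.1, ?_⟩, hx2⟩
    rw [Subgroup.mem_centralizer_iff]
    intro t ht
    exact hc t ht x (key x hx hx2)
  have h3 : omegaOne 2 (thompsonSubgroupOf 2 T ⊓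
      Subgroup.centralizer (thompsonSubgroupOf 2 T : Set G)) ≤ omegaCenterOf T := by
    unfold omegaOne
    rw [Subgroup.closure_le]
    rintro x ⟨hx, hx2⟩
    exact h2 x hx hx2
  exact h3

theorem omegaCenterOf_le_of_le {S T : Subgroup G} (hTS : T ≤ S) (hZT : omegaCenterOf S ≤ T) :
    omegaCenterOf S ≤ omegaCenterOf T := by
  have key : ∀ x ∈ S ⊓ Subgroup.centralizer (S : Set G), x ^ 2 = 1 → x ∈ omegaCenterOf S := by
    intro x hx hx2
    unfold omegaCenterOf omegaOne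
    exact Subgroup.subset_closure ⟨hx, hx2⟩
  have h2 : ∀ x ∈ S ⊓ Subgroup.centralizer (S : Set G), x ^ 2 = 1 → x ∈ omegaCenterOf T := by
    intro x hx hx2
    unfold omegaCenterOf omegaOne
    exact Subgroup.subset_closure ⟨⟨hZT (key x hx hx2),
      Subgroup.centralizer_le (SetLike.coe_subset_coe.mpr hTS) hx.2⟩, hx2⟩
  have h3 : omegaOne 2 (S ⊓ Subgroup.centralizer (S : Set G)) ≤ omegaCenterOf T := by
    unfold omegaOne
    rw [Subgroup.closure_le]
    rintro x ⟨hx, hx2⟩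
    exact h2 x hx hx2
  exact h3

theorem normalizer_le_normalizer_omegaCenterOf (X : Subgroup G) :
    Subgroup.normalizer (X : Set G) ≤ Subgroup.normalizer (omegaCenterOf X : Set G) := by
  intro g hg
  have h1 : ∀ x ∈ X, g * x * g⁻¹ ∈ X := fun x hx => (Subgroup.mem_normalizer_iff.mp hg x).mp hx
  have h2 : ∀ x ∈ X, g⁻¹ * x * g ∈ X := by
    intro x hx
    apply (Subgroup.mem_normalizer_iff.mp hg (g⁻¹ * x * g)).mpr
    have h3 : g * (g⁻¹ * x * g) * g⁻¹ = x := by group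
    rw [h3]; exact hx
  rw [Subgroup.mem_normalizer_iff]
  intro u
  constructor
  · exact fun hu => Cfsg.Agent.H32.Sq.omegaCenterOf_conj X h1 h2 hu
  · intro hu
    have h4 := Cfsg.Agent.H32.Sq.omegaCenterOf_conj X (g := g⁻¹) (by simpa using h2)
      (by simpa using h1) hu
    have h5 : g⁻¹ * (g * u * g⁻¹) * g⁻¹⁻¹ = u := by group
    rw [h5] at h4
    exact h4

theorem Ystep {L KJ : Subgroup G} (hLmax : IsMaximalTwoLocal L) (hO2 : pCoreOf 2 L ≠ ⊥)
    (huniq : ∀ L' : Subgroup G, IsMaximalTwoLocal L' → KJ ≤ L' → L' = L)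
    {x y : G} (hy : ∀ g : G, g * y = y * g → g ∈ L)
    (hy2 : ∀ g ∈ KJ, g * (x * y * x⁻¹) = (x * y * x⁻¹) * g) : x ∈ L := by
  have h1 : IsMaximalTwoLocal (L.map (MulAut.conj x).toMonoidHom) := isMaximalTwoLocal_conj hLmax x
  have h2 : KJ ≤ L.map (MulAut.conj x).toMonoidHom := by
    intro g hg
    rw [Cfsg.Agent.H40.mem_map_conj_iff]
    apply hy
    have h5 := hy2 g hg
    calc x⁻¹ * g * x * y = x⁻¹ * (g * (x * y * x⁻¹)) * x := by group
      _ = x⁻¹ * ((x * y * x⁻¹) * g) * x := by rw [h5]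
      _ = y * (x⁻¹ * g * x) := by group
  have h3 := huniq _ h1 h2
  have hn1 : ∀ l ∈ L, x * l * x⁻¹ ∈ L := by
    intro l hl
    have h6 : x * l * x⁻¹ ∈ L.map (MulAut.conj x).toMonoidHom :=
      ⟨l, hl, by simp [MulAut.conj_apply]⟩
    rw [h3] at h6
    exact h6
  have hn2 : ∀ l ∈ L, x⁻¹ * l * x ∈ L := by
    intro l hl
    have h7 : l ∈ L.map (MulAut.conj x).toMonoidHom := by rw [h3]; exact hl
    exact (Cfsg.Agent.H40.mem_map_conj_iff L x l).mp h7
  exact normalizer_le_of_max hLmax hO2 hn1 hn2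

/-- An element of the centralizer of the union `↑K ∪ ↑J` commutes with the join `K ⊔ J`
(the frozen S2946 statement coerces `K ⊔ J(T)` leaf-wise to sets). -/
theorem cent_union {K J : Subgroup G} {y : G}
    (hy : y ∈ Subgroup.centralizer ((K ⊔ J) : Set G)) : ∀ g ∈ K ⊔ J, g * y = y * g := by
  have hK : K ≤ Subgroup.centralizer ({y} : Set G) := by
    intro k hk
    rw [Subgroup.mem_centralizer_iff]
    intro h hh
    rw [Set.mem_singleton_iff] at hh
    rw [hh]
    exact (Subgroup.mem_centralizer_iff.mp hy k (Or.inl hk)).symm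
  have hJ : J ≤ Subgroup.centralizer ({y} : Set G) := by
    intro j hj
    rw [Subgroup.mem_centralizer_iff]
    intro h hh
    rw [Set.mem_singleton_iff] at hh
    rw [hh]
    exact (Subgroup.mem_centralizer_iff.mp hy j (Or.inr hj)).symm
  intro g hg
  exact (Subgroup.mem_centralizer_iff.mp (sup_le hK hJ hg) y rfl).symm

theorem noFuse (hZ : ∀ S : Sylow 2 G, Subgroup.centralizer (omegaCenterOf (S : Subgroup G) : Set G) ≤
      Subgroup.normalizer ((S : Subgroup G) : Set G))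
    (S : Sylow 2 G) (K J : Subgroup G) (hKJ : ⁅K, J⁆ = K) (h3 : (pCoreOf 2 K).relIndex K = 3)
    (hJ2 : IsPGroup 2 ↥J) {z z1 y : G}
    (hZel : ∀ u ∈ omegaCenterOf (S : Subgroup G), u = 1 ∨ u = z)
    (hK : ∀ k ∈ K, k * z1 = z1 * k) (hJ : ∀ j ∈ J, j * z1 = z1 * j)
    (hy : y * z1 * y⁻¹ = z) : False := by
  have : Fact (Nat.Prime 2) := ⟨Nat.prime_two⟩
  have hN : ∀ g : G, g * z1 = z1 * g →
      y * g * y⁻¹ ∈ Subgroup.normalizer ((S : Subgroup G) : Set G) := by
    intro g hg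
    apply hZ S
    rw [Subgroup.mem_centralizer_iff]
    intro u hu
    rcases hZel u hu with h | h
    · rw [h, one_mul, mul_one]
    · rw [h, ← hy]
      calc y * z1 * y⁻¹ * (y * g * y⁻¹) = y * (z1 * g) * y⁻¹ := by group
        _ = y * (g * z1) * y⁻¹ := by rw [hg]
        _ = y * g * y⁻¹ * (y * z1 * y⁻¹) := by group
  have hJS : ∀ j ∈ J, y * j * y⁻¹ ∈ (S : Subgroup G) := by
    intro j hj
    have hJy : IsPGroup 2 ↥(J.map (MulAut.conj y).toMonoidHom) := hJ2.map _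
    have hle : J.map (MulAut.conj y).toMonoidHom ≤
        Subgroup.normalizer ((S : Subgroup G) : Set G) := by
      rintro _ ⟨j', hj', rfl⟩
      have h5 := hN j' (hJ j' hj')
      simpa [MulAut.conj_apply] using h5
    have hsup : IsPGroup 2 ↥(J.map (MulAut.conj y).toMonoidHom ⊔ (S : Subgroup G)) :=
      IsPGroup.to_sup_of_normal_right' hJy S.isPGroup' hle
    have heq := S.is_maximal' hsup le_sup_right
    have h6 : y * j * y⁻¹ ∈ J.map (MulAut.conj y).toMonoidHom ⊔ (S : Subgroup G) :=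
      (le_sup_left : J.map (MulAut.conj y).toMonoidHom ≤ _) ⟨j, hj, by simp [MulAut.conj_apply]⟩
    rw [heq] at h6
    exact h6
  have hKle : ⁅K, J⁆ ≤ (S : Subgroup G).comap (MulAut.conj y).toMonoidHom := by
    rw [Subgroup.commutator_le]
    intro k hk j hj
    rw [Subgroup.mem_comap]
    have hn := hN k (hK k hk)
    have hs := hJS j hj
    have h7 : (MulAut.conj y).toMonoidHom ⁅k, j⁆ =
        ((y * k * y⁻¹) * (y * j * y⁻¹) * (y * k * y⁻¹)⁻¹) * (y * j * y⁻¹)⁻¹ := by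
      simp only [MulEquiv.coe_toMonoidHom, MulAut.conj_apply, commutatorElement_def]
      group
    rw [h7]
    exact (S : Subgroup G).mul_mem ((Subgroup.mem_normalizer_iff.mp hn _).mp hs)
      ((S : Subgroup G).inv_mem hs)
  rw [hKJ] at hKle
  have hK2 : IsPGroup 2 ↥K :=
    (S.isPGroup'.comap_of_injective (MulAut.conj y).toMonoidHom (MulAut.conj y).injective).to_le hKle
  obtain ⟨n, hn⟩ := IsPGroup.iff_card.mp hK2
  have hdvd : (pCoreOf 2 K).relIndex K ∣ Nat.card K := Subgroup.relIndex_dvd_card _ _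
  rw [h3, hn] at hdvd
  have h8 := Nat.Prime.dvd_of_dvd_pow Nat.prime_three hdvd
  exact absurd h8 (by decide)

end grp

/-- The statement S2946, as a hypothesis (the module `Cfsg.Agent.S2946` cannot be imported next
to the S2950 closure). -/
def St46 : Prop := ∀ {G : Type u} [Group G] [Finite G] (_hL : IsCharacteristicTwoType G)
    (_hN : ∀ N : Subgroup G, IsTwoLocal N → Group.IsSolvable ↥N)
    (_hZ : ∀ S : Sylow 2 G, Subgroup.centralizer (omegaCenterOf (S : Subgroup G) : Set G) ≤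
      Subgroup.normalizer ((S : Subgroup G) : Set G)) (T : Subgroup G) (_hT : IsPGroup 2 ↥T)
    (_hT1 : T ≠ ⊥) (K : Subgroup G) (_hK : IsJComponent T K)
    (Z₀ : Subgroup G) (_hZ₀ : Z₀ = omegaCenterOf (thompsonSubgroupOf 2 T)),
    Nat.card ↥(Z₀ ⊓ wOf K) = 2 ∧
      (Z₀ ⊓ ((K ⊔ thompsonSubgroupOf 2 T) ⊓
        Subgroup.centralizer ((K ⊔ thompsonSubgroupOf 2 T) : Set G))) ⊔
        (Z₀ ⊓ wOf K) = Z₀

/-- JZ-LT: the case `T < S` of S2951 (clause 1 or clause 3), from S2946 (as a hypothesis) and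
S2950. -/
theorem lt_of (h46 : St46.{u}) : Cfsg.Agent.H64.Jz.StLt.{u} := by
  intro G _ _ S M T K L hB hTS
  obtain ⟨⟨hL, hN, hZ⟩, hO, hM, hMJ, hT, hTleS, hK, hLmax, hKL⟩ := hB
  have : Fact (Nat.Prime 2) := ⟨Nat.prime_two⟩
  have hT2 : IsPGroup 2 ↥T := hT.1.1
  have hT1 : T ≠ ⊥ := hT.1.2.1
  have hKJ : IsJComponent T K := hK.1.1
  have hS2 : IsPGroup 2 ↥(S : Subgroup G) := S.isPGroup'
  have hJT : thompsonSubgroupOf 2 T ≤ T := Cfsg.Agent.Helper55.ThJ.J_le T
  obtain ⟨hW2, hsplit⟩ := h46 hL hN hZ T hT2 hT1 K hKJ _ rfl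
  obtain ⟨L0, hL0max, hKL0, huniq, -, -⟩ :=
    Cfsg.Agent.S2950.result hL hN hZ hO S M hM hMJ T hT K hK
  have hLL0 : L = L0 := huniq L hLmax hKL
  obtain ⟨L1, hL1max, hKT1, -, hov1, -⟩ :=
    Cfsg.Agent.Helper55.Uq.exists_max hL hN hZ S M hMJ T hT K hK
  have hL1 : L1 = L := by
    rw [hLL0]
    exact huniq L1 hL1max (sup_le (le_sup_left.trans hKT1) (hJT.trans (le_sup_right.trans hKT1)))
  rw [hL1] at hov1
  obtain ⟨hSyl, -, hCO⟩ := hov1
  have huniqL : ∀ L' : Subgroup G, IsMaximalTwoLocal L' →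
      K ⊔ thompsonSubgroupOf 2 T ≤ L' → L' = L := by
    intro L' h1 h2; rw [hLL0]; exact huniq L' h1 h2
  -- O₂(L) ≠ 1
  have hO2 : pCoreOf 2 L ≠ ⊥ := by
    intro h
    apply hT1
    rw [Subgroup.eq_bot_iff_forall]
    intro t _
    have h1 : t ∈ pCoreOf 2 L := hCO (by rw [h]; simp [Subgroup.mem_centralizer_iff])
    rw [h] at h1
    exact Subgroup.mem_bot.mp h1
  -- Z₀ facts
  have hZ0J := Cfsg.Agent.H51.Jc.omegaCenterOf_le_inf (thompsonSubgroupOf 2 T)
  have hsq := Cfsg.Agent.H16.W4.omegaCenterOf_sq (thompsonSubgroupOf 2 T)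
  have hcomm : ∀ u ∈ omegaCenterOf (thompsonSubgroupOf 2 T),
      ∀ v ∈ omegaCenterOf (thompsonSubgroupOf 2 T), u * v = v * u := by
    intro u hu v hv
    exact Subgroup.mem_centralizer_iff.mp (hZ0J hv).2 u (hZ0J hu).1
  have hdec : ∀ u ∈ omegaCenterOf (thompsonSubgroupOf 2 T),
      ∃ a ∈ omegaCenterOf (thompsonSubgroupOf 2 T) ⊓ ((K ⊔ thompsonSubgroupOf 2 T) ⊓
        Subgroup.centralizer ((K ⊔ thompsonSubgroupOf 2 T) : Set G)),
      ∃ b ∈ omegaCenterOf (thompsonSubgroupOf 2 T) ⊓ wOf K, u = a * b := by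
    intro u hu
    rw [← hsplit] at hu
    exact mem_sup_of_commute (fun a ha b hb => hcomm a (Subgroup.mem_inf.mp ha).1 b (Subgroup.mem_inf.mp hb).1) hu
  -- Z facts
  have hZS := Cfsg.Agent.H51.Jc.omegaCenterOf_le_inf (S : Subgroup G)
  have hSZ : ∀ s ∈ (S : Subgroup G), ∀ u ∈ omegaCenterOf (S : Subgroup G), s * u = u * s := by
    intro s hs u hu
    exact Subgroup.mem_centralizer_iff.mp (hZS hu).2 s hs
  have hOT : pCoreOf 2 L ≤ T := Cfsg.Agent.Helper55.J48.pCoreOf_le_of_sylowIn hSyl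
  have hZT : omegaCenterOf (S : Subgroup G) ≤ T := by
    intro u hu
    apply hOT
    apply hCO
    rw [Subgroup.mem_centralizer_iff]
    intro q hq
    exact hSZ q (hTleS (hOT hq)) u hu
  have hZle : omegaCenterOf (S : Subgroup G) ≤ omegaCenterOf (thompsonSubgroupOf 2 T) :=
    (omegaCenterOf_le_of_le hTleS hZT).trans (omegaCenterOf_le_J T)
  have hS1 : (S : Subgroup G) ≠ ⊥ := by
    intro h
    apply hT1
    rw [h] at hTleS
    exact le_bot_iff.mp hTleS
  have hZne : omegaCenterOf (S : Subgroup G) ≠ ⊥ := omegaCenterOf_ne_bot hS2 hS1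
  -- (U)
  have hU : ∀ y ∈ omegaCenterOf (thompsonSubgroupOf 2 T) ⊓ ((K ⊔ thompsonSubgroupOf 2 T) ⊓
        Subgroup.centralizer ((K ⊔ thompsonSubgroupOf 2 T) : Set G)),
      y ≠ 1 → ∀ g : G, g * y = y * g → g ∈ L := by
    intro y hy hy1 g hg
    exact cent_le_of_unique huniqL hy1 (hsq y hy.1) (cent_union hy.2.2) hg
  -- x
  obtain ⟨x, hxS, hxNT, hxT⟩ := Cfsg.Agent.H39.Jz.exists_normalizer_not_mem hS2 hTleS hTS
  have hxL : x ∉ L := by
    intro hxL
    apply hxT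
    have hP : T ⊔ Subgroup.zpowers x ≤ (S : Subgroup G) :=
      sup_le hTleS ((Subgroup.zpowers_le).mpr hxS)
    have hPL : T ⊔ Subgroup.zpowers x ≤ L := sup_le hSyl.1 ((Subgroup.zpowers_le).mpr hxL)
    have h1 := le_of_sylowIn hSyl le_sup_left hPL (hS2.to_le hP)
    exact h1 ((le_sup_right : Subgroup.zpowers x ≤ _) (Subgroup.mem_zpowers x))
  have hNJ : Subgroup.normalizer (T : Set G) ≤
      Subgroup.normalizer (omegaCenterOf (thompsonSubgroupOf 2 T) : Set G) :=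
    (Cfsg.Agent.Helper55.ThJ.normalizer_le T).trans (normalizer_le_normalizer_omegaCenterOf _)
  have hxN : x ∈ Subgroup.normalizer (omegaCenterOf (thompsonSubgroupOf 2 T) : Set G) :=
    hNJ hxNT
  have hY : ∀ y ∈ omegaCenterOf (thompsonSubgroupOf 2 T) ⊓ ((K ⊔ thompsonSubgroupOf 2 T) ⊓
        Subgroup.centralizer ((K ⊔ thompsonSubgroupOf 2 T) : Set G)),
      y ≠ 1 → x * y * x⁻¹ ∈ omegaCenterOf (thompsonSubgroupOf 2 T) ⊓
        ((K ⊔ thompsonSubgroupOf 2 T) ⊓
        Subgroup.centralizer ((K ⊔ thompsonSubgroupOf 2 T) : Set G)) → x ∈ L := by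
    intro y hy hy1 hy2
    exact Ystep hLmax hO2 huniqL (hU y hy hy1) (cent_union hy2.2.2)
  have hZZ1 : ∀ y ∈ omegaCenterOf (S : Subgroup G),
      y ∈ omegaCenterOf (thompsonSubgroupOf 2 T) ⊓ ((K ⊔ thompsonSubgroupOf 2 T) ⊓
        Subgroup.centralizer ((K ⊔ thompsonSubgroupOf 2 T) : Set G)) → y = 1 := by
    intro y hyZ hy
    by_contra hy1
    apply hTS
    have hSL : (S : Subgroup G) ≤ L := fun s hs => hU y hy hy1 s (hSZ s hs y hyZ)
    exact le_antisymm hTleS (le_of_sylowIn hSyl hTleS hSL hS2)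
  have hNF : ∀ z ∈ omegaCenterOf (S : Subgroup G), z ≠ 1 →
      (∀ u ∈ omegaCenterOf (S : Subgroup G), u = 1 ∨ u = z) →
      ∀ z1 ∈ omegaCenterOf (thompsonSubgroupOf 2 T) ⊓ ((K ⊔ thompsonSubgroupOf 2 T) ⊓
        Subgroup.centralizer ((K ⊔ thompsonSubgroupOf 2 T) : Set G)), z1 ≠ 1 →
      ∀ y : G, y * z1 * y⁻¹ = z → False := by
    intro z _ _ hZel z1 hz1 _ y hy
    have hc : ∀ g ∈ K ⊔ thompsonSubgroupOf 2 T, g * z1 = z1 * g := cent_union hz1.2.2
    exact noFuse hZ S K (thompsonSubgroupOf 2 T) hKJ.2.1 hKJ.2.2.1 (hT2.to_le hJT) hZel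
      (fun k hk => hc k ((le_sup_left : K ≤ _) hk))
      (fun j hj => hc j ((le_sup_right : thompsonSubgroupOf 2 T ≤ _) hj)) hy
  have hcore := core L (omegaCenterOf (S : Subgroup G)) (omegaCenterOf (thompsonSubgroupOf 2 T))
    (omegaCenterOf (thompsonSubgroupOf 2 T) ⊓ ((K ⊔ thompsonSubgroupOf 2 T) ⊓
        Subgroup.centralizer ((K ⊔ thompsonSubgroupOf 2 T) : Set G)))
    (omegaCenterOf (thompsonSubgroupOf 2 T) ⊓ wOf K) T x hZle hZne inf_le_left inf_le_left
    hdec hW2 hsq hU hY hxL hxN (fun u hu => hSZ x hxS u hu) hZZ1 hSyl.1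
    (Subgroup.le_normalizer.trans hNJ) (fun t ht u hu => hSZ t (hTleS ht) u hu) hNF
  unfold Cfsg.Agent.H64.Jz.Concl
  rcases hcore with h | ⟨h1, h2, h3⟩
  · exact Or.inl h
  · exact Or.inr (Or.inr ⟨le_antisymm (omegaCenterOf_le_J T) (omegaCenterOf_J_le T h1), h2, h3⟩)

end Cfsg.Agent.H17.Jz

#print axioms Cfsg.Agent.H17.Jz.lt_of

universe v

example (h46 : Cfsg.Agent.H17.Jz.St46.{v}) : Cfsg.Agent.H64.Jz.StLt.{v} :=
  Cfsg.Agent.H17.Jz.lt_of h46
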