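import Cfsg.Agent.H17.MnDefs
import Cfsg.Agent.H95.SpDecomp

set_option autoImplicit false

namespace Cfsg.Agent.H17.Mn

open Cfsg Cfsg.Geo Cfsg.Agent.H17.Mn
open scoped MatrixGroups Matrix

variable {ι : Type} [Fintype ι] [DecidableEq ι] {F : Type*} [Field F]
variable {t m : ℕ} (D : Fin t → Submodule F (ι → F))

theorem blockTv_mem (hD : IsMDecomposition m D) (i : Fin t) (x : ι → F) (hx : x ∈ D i)
    (χ : (ι → F) →ₗ[F] F) (hχ : SuppOn D i χ) (h : χ x = 0) :
    H95.tvGL x χ h ∈ decompositionStabilizer D ⊓ specialLinear ι F := by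
  refine ⟨?_, H95.tvGL_mem_specialLinear x χ h⟩
  apply H95.mem_decompositionStabilizer_of_forall hD
  intro l
  refine ⟨l, fun v hv => ?_⟩
  rw [H95.tvGL_mulVec]
  by_cases hl : l = i
  · subst hl
    exact (D l).add_mem hv ((D l).smul_mem _ hx)
  · rw [hχ l hl v hv, zero_smul, add_zero]
    exact hv

/-- A functional supported on `D j` taking the value one at a given non-zero vector of `D j`. -/
lemma exists_suppOn_eq_one (hI : DirectSum.IsInternal D) (j : Fin t) (v : ι → F) (hv : v ∈ D j)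
    (hv0 : v ≠ 0) : ∃ χ : (ι → F) →ₗ[F] F, SuppOn D j χ ∧ χ v = 1 := by
  have hv' : v ∉ (⊥ : Submodule F (ι → F)) := by simpa using hv0
  obtain ⟨f, hf, -⟩ := Submodule.exists_le_ker_of_notMem hv'
  refine ⟨((f v)⁻¹ • f) ∘ₗ H95.comp hI j, ?_, ?_⟩
  · intro l hl w hw
    rw [LinearMap.comp_apply, H95.comp_of_mem_ne hI hw hl, map_zero]
  · rw [LinearMap.comp_apply, H95.comp_of_mem hI hv]
    simp [hf]

theorem exists_sl_not_mem_stab (hD : IsMDecomposition m D) :
    ∃ g ∈ specialLinear ι F, g ∉ decompositionStabilizer D := by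
  classical
  have hI : DirectSum.IsInternal D :=
    DirectSum.isInternal_submodule_of_iSupIndep_of_iSup_eq_top hD.indep hD.iSup_eq_top
  have ht := hD.two_le
  set i0 : Fin t := ⟨0, by omega⟩ with hi0
  set i1 : Fin t := ⟨1, by omega⟩ with hi1
  have h01 : i0 ≠ i1 := by simp [hi0, hi1, Fin.ext_iff]
  have hne : ∀ i, ∃ x ∈ D i, x ≠ 0 := by
    intro i
    have hbot : D i ≠ ⊥ := by
      intro hb
      have := hD.finrank_eq i
      rw [hb, finrank_bot] at this
      have := hD.pos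
      omega
    exact (Submodule.ne_bot_iff _).1 hbot
  obtain ⟨x, hx, hx0⟩ := hne i0
  obtain ⟨v, hv, hv0⟩ := hne i1
  obtain ⟨χ, hχ, hχv⟩ := exists_suppOn_eq_one D hI i1 v hv hv0
  have h : χ x = 0 := hχ i0 h01 x hx
  refine ⟨H95.tvGL x χ h, H95.tvGL_mem_specialLinear x χ h, ?_⟩
  rintro ⟨σ, hσ⟩
  have hmem : ((H95.tvGL x χ h : GL ι F) : Matrix ι ι F) *ᵥ v ∈ D (σ i1) := by
    rw [← hσ i1]
    exact ⟨v, hv, by simp [Matrix.toLin'_apply]⟩
  rw [H95.tvGL_mulVec, hχv, one_smul] at hmem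
  -- components
  have c0 : H95.comp hI i0 (v + x) = x := by
    rw [map_add, H95.comp_of_mem_ne hI hv (Ne.symm h01), H95.comp_of_mem hI hx, zero_add]
  have c1 : H95.comp hI i1 (v + x) = v := by
    rw [map_add, H95.comp_of_mem hI hv, H95.comp_of_mem_ne hI hx h01, add_zero]
  by_cases hs : σ i1 = i0
  · have hne1 : σ i1 ≠ i1 := by
      rw [hs]; exact h01
    have := H95.comp_of_mem_ne hI hmem hne1
    rw [c1] at this
    exact hv0 this
  · have := H95.comp_of_mem_ne hI hmem hs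
    rw [c0] at this
    exact hx0 this

end Cfsg.Agent.H17.Mn
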