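import Cfsg.Agent.H17.MnTY
import Cfsg.Agent.H17.MnBTV

set_option autoImplicit false

namespace Cfsg.Agent.H17.Mn

open Cfsg Cfsg.Geo Cfsg.Agent.H17.Mn
open scoped MatrixGroups Matrix

variable {ι : Type} [Fintype ι] [DecidableEq ι] {F : Type*} [Field F]
variable {t m : ℕ} (D : Fin t → Submodule F (ι → F))

/-- The dilatation `x ↦ x + φ x • u` (with `1 + φ u ≠ 0`) as an element of `GL`. -/
noncomputable def dilGL (u : ι → F) (φ : (ι → F) →ₗ[F] F) (h : 1 + φ u ≠ 0) : GL ι F :=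
  H95.glOf (LinearEquiv.dilatransvection (f := φ) (v := u) (IsUnit.mk0 _ h))

lemma dilGL_mulVec (u : ι → F) (φ : (ι → F) →ₗ[F] F) (h : 1 + φ u ≠ 0) (x : ι → F) :
    ((dilGL u φ h : GL ι F) : Matrix ι ι F) *ᵥ x = x + φ x • u := by
  rw [dilGL, H95.glOf_mulVec, LinearEquiv.dilatransvection.apply]

lemma det_dilGL (u : ι → F) (φ : (ι → F) →ₗ[F] F) (h : 1 + φ u ≠ 0) :
    ((dilGL u φ h : GL ι F) : Matrix ι ι F).det = 1 + φ u := by
  rw [dilGL, H95.det_glOf_val, LinearEquiv.dilatransvection.coe_toLinearMap,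
    LinearMap.transvection.det]

lemma dilGL_mem_stab (hD : IsMDecomposition m D) (i : Fin t) (z : ι → F) (hz : z ∈ D i)
    (φ : (ι → F) →ₗ[F] F) (hφ : SuppOn D i φ) (h : 1 + φ z ≠ 0) :
    dilGL z φ h ∈ decompositionStabilizer D := by
  apply H95.mem_decompositionStabilizer_of_forall hD
  intro l
  refine ⟨l, fun v hv => ?_⟩
  rw [dilGL_mulVec]
  by_cases hl : l = i
  · subst hl
    exact (D l).add_mem hv ((D l).smul_mem _ hz)
  · rw [hφ l hl v hv, zero_smul, add_zero]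
    exact hv

omit [Fintype ι] [DecidableEq ι] in
lemma exists_ne_zero_one [Fintype F] (hq : 3 ≤ Fintype.card F) : ∃ s : F, s ≠ 0 ∧ s ≠ 1 := by
  classical
  by_contra hcon
  push Not at hcon
  have hsub : (Finset.univ : Finset F) ⊆ {0, 1} := by
    intro x _
    by_cases hx : x = 0
    · simp [hx]
    · simp [hcon x hx]
  have h1 := Finset.card_le_card hsub
  rw [Finset.card_univ] at h1
  have h2 : ({0, 1} : Finset F).card ≤ 2 := Finset.card_le_two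
  omega

/-- The key conjugation by a product of two homologies. -/
lemma tb2_key (hD : IsMDecomposition m D) (hI : DirectSum.IsInternal D)
    (M : Subgroup (GL ι F)) (hM : decompositionStabilizer D ⊓ specialLinear ι F ≤ M)
    (y : ι → F) (ψ : (ι → F) →ₗ[F] F) (h : ψ y = 0) (hmem : H95.tvGL y ψ h ∈ M)
    (i1 j : Fin t) (hij : i1 ≠ j) (z1 z2 : ι → F) (hz1 : z1 ∈ D i1) (hz2 : z2 ∈ D j)
    (hψz1 : ψ z1 = 1) (hψy1 : ψ (H95.comp hI i1 y) = 0)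
    (χ2 : (ι → F) →ₗ[F] F) (hχ2 : SuppOn D j χ2) (hχ2z : χ2 z2 = 1) (hχ2y : χ2 y = 0)
    (s : F) (hs : s ≠ 0)
    (h' : ((s⁻¹ - 1) • (ψ ∘ₗ H95.comp hI i1) + ((s - 1) * ψ z2) • χ2) y = 0) :
    H95.tvGL y ((s⁻¹ - 1) • (ψ ∘ₗ H95.comp hI i1) + ((s - 1) * ψ z2) • χ2) h' ∈ M := by
  set ψ1 := ψ ∘ₗ H95.comp hI i1 with hψ1
  have hψ1s : SuppOn D i1 ψ1 := by
    intro l hl w hw
    rw [hψ1, LinearMap.comp_apply, H95.comp_of_mem_ne hI hw hl, map_zero]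
  have hψ1z1 : ψ1 z1 = 1 := by
    rw [hψ1, LinearMap.comp_apply, H95.comp_of_mem hI hz1, hψz1]
  have hψ1z2 : ψ1 z2 = 0 := hψ1s j (Ne.symm hij) z2 hz2
  have hχ2z1 : χ2 z1 = 0 := hχ2 i1 hij z1 hz1
  have hψ1y : ψ1 y = 0 := hψy1
  have h1 : 1 + ((s - 1) • ψ1) z1 ≠ 0 := by
    rw [LinearMap.smul_apply, hψ1z1, smul_eq_mul, mul_one]
    simpa using hs
  have h2 : 1 + ((s⁻¹ - 1) • χ2) z2 ≠ 0 := by
    rw [LinearMap.smul_apply, hχ2z, smul_eq_mul, mul_one]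
    simpa using hs
  obtain ⟨b, hb⟩ : ∃ b : GL ι F,
      b = dilGL z1 ((s - 1) • ψ1) h1 * dilGL z2 ((s⁻¹ - 1) • χ2) h2 := ⟨_, rfl⟩
  have hbmem : b ∈ M := by
    apply hM
    rw [hb]
    refine ⟨Subgroup.mul_mem _ (dilGL_mem_stab D hD i1 z1 hz1 _ ?_ h1)
      (dilGL_mem_stab D hD j z2 hz2 _ ?_ h2), ?_⟩
    · intro l hl w hw
      rw [LinearMap.smul_apply, hψ1s l hl w hw, smul_zero]
    · intro l hl w hw
      rw [LinearMap.smul_apply, hχ2 l hl w hw, smul_zero]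
    · show _ ∈ specialLinear ι F
      rw [H95.mem_specialLinear_iff, Units.val_mul, Matrix.det_mul, det_dilGL, det_dilGL,
        LinearMap.smul_apply, LinearMap.smul_apply, hψ1z1, hχ2z]
      simp only [smul_eq_mul, mul_one]
      field_simp
      ring
  have hbv : ∀ v : ι → F, (b : Matrix ι ι F) *ᵥ v =
      v + ((s⁻¹ - 1) * χ2 v) • z2 + ((s - 1) * ψ1 v) • z1 := by
    intro v
    rw [hb, mulVec_mul, dilGL_mulVec, dilGL_mulVec]
    simp only [LinearMap.smul_apply, smul_eq_mul, map_add, map_smul, hψ1z2, mul_zero, add_zero]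
  have hby : (b : Matrix ι ι F) *ᵥ y = y := by
    rw [hbv, hχ2y, hψ1y]
    simp
  have h'' : (((s⁻¹ - 1) • ψ1 + ((s - 1) * ψ z2) • χ2) + ψ) y = 0 := by
    rw [LinearMap.add_apply, h', h, add_zero]
  have hconj : b * H95.tvGL y ψ h =
      H95.tvGL y (((s⁻¹ - 1) • ψ1 + ((s - 1) * ψ z2) • χ2) + ψ) h'' * b := by
    apply H95.gl_ext
    intro v
    rw [mulVec_mul, mulVec_mul, H95.tvGL_mulVec, H95.tvGL_mulVec, Matrix.mulVec_add,
      Matrix.mulVec_smul, hby]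
    congr 1
    congr 1
    rw [hbv]
    simp only [LinearMap.add_apply, LinearMap.smul_apply, smul_eq_mul, map_add, map_smul,
      hψ1z2, hψ1z1, hχ2z, hχ2z1, hψz1, mul_zero, add_zero, mul_one]
    field_simp
    ring
  have hmem2 : H95.tvGL y (((s⁻¹ - 1) • ψ1 + ((s - 1) * ψ z2) • χ2) + ψ) h'' ∈ M := by
    have : H95.tvGL y (((s⁻¹ - 1) • ψ1 + ((s - 1) * ψ z2) • χ2) + ψ) h'' =
        b * H95.tvGL y ψ h * b⁻¹ := by
      rw [hconj, mul_inv_cancel_right]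
    rw [this]
    exact M.mul_mem (M.mul_mem hbmem hmem) (M.inv_mem hbmem)
  have hprod := tvGL_mul_form y ((s⁻¹ - 1) • ψ1 + ((s - 1) * ψ z2) • χ2) ψ h' h h''
  have : H95.tvGL y ((s⁻¹ - 1) • ψ1 + ((s - 1) * ψ z2) • χ2) h' =
      H95.tvGL y (((s⁻¹ - 1) • ψ1 + ((s - 1) * ψ z2) • χ2) + ψ) h'' * (H95.tvGL y ψ h)⁻¹ := by
    rw [← hprod, mul_inv_cancel_right]
  rw [this]
  exact M.mul_mem hmem2 (M.inv_mem hmem)

theorem tv_block_two [Fintype F] (hD : IsMDecomposition 2 D) (hI : DirectSum.IsInternal D)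
    (hq : 3 ≤ Fintype.card F) (ht : 3 ≤ t)
    (M : Subgroup (GL ι F)) (hM : decompositionStabilizer D ⊓ specialLinear ι F ≤ M)
    (hmix' : ∀ i (ψ : (ι → F) →ₗ[F] F), SuppOn D i ψ → ψ ≠ 0 → ∀ (y : ι → F) (h : ψ y = 0),
      H95.tvGL y ψ h ∈ M → y ∈ D i)
    (htype : ∀ (y : ι → F) (ψ : (ι → F) →ₗ[F] F) (h : ψ y = 0), H95.tvGL y ψ h ∈ M → y ≠ 0 →
      ψ ≠ 0 → ∀ i, (H95.comp hI i y = 0 ∧ ∀ v ∈ D i, ψ v = 0) ∨ (y ∈ D i ∧ SuppOn D i ψ) ∨
        (H95.comp hI i y ≠ 0 ∧ (∃ v ∈ D i, ψ v ≠ 0) ∧ ψ (H95.comp hI i y) = 0))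
    (y : ι → F) (ψ : (ι → F) →ₗ[F] F) (h : ψ y = 0) (hmem : H95.tvGL y ψ h ∈ M) (hy : y ≠ 0)
    (hψ : ψ ≠ 0) : ∃ i, y ∈ D i := by
  classical
  by_contra hcon
  push Not at hcon
  obtain ⟨s, hs0, hs1⟩ := exists_ne_zero_one hq
  have hsinv : s⁻¹ - 1 ≠ 0 := by
    intro h0
    have h1 : s⁻¹ = 1 := sub_eq_zero.1 h0
    exact hs1 (by rw [← inv_inv s, h1, inv_one])
  obtain ⟨i1, hi1⟩ : ∃ i1, H95.comp hI i1 y ≠ 0 := by
    by_contra hall
    push Not at hall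
    apply hy
    rw [← H95.sum_comp hI y]
    exact Finset.sum_eq_zero (fun i _ => hall i)
  have hC : ∀ i, H95.comp hI i y ≠ 0 → (∃ v ∈ D i, ψ v ≠ 0) ∧ ψ (H95.comp hI i y) = 0 := by
    intro i hi
    rcases htype y ψ h hmem hy hψ i with hA | hB | hC
    · exact absurd hA.1 hi
    · exact absurd hB.1 (hcon i)
    · exact hC.2
  obtain ⟨⟨v1, hv1, hψv1⟩, hψy1⟩ := hC i1 hi1
  set z1 := (ψ v1)⁻¹ • v1 with hz1def
  have hz1 : z1 ∈ D i1 := (D i1).smul_mem _ hv1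
  have hψz1 : ψ z1 = 1 := by rw [hz1def, map_smul, smul_eq_mul, inv_mul_cancel₀ hψv1]
  by_cases hex : ∃ j, H95.comp hI j y = 0
  · obtain ⟨j, hj⟩ := hex
    have hij : i1 ≠ j := by
      rintro rfl
      exact hi1 hj
    have hψj : ∀ v ∈ D j, ψ v = 0 := by
      rcases htype y ψ h hmem hy hψ j with hA | hB | hC'
      · exact hA.2
      · exact absurd hB.1 (hcon j)
      · exact absurd hj hC'.1
    obtain ⟨z2, hz2, hz20⟩ : ∃ z2 ∈ D j, z2 ≠ 0 := by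
      have hbot : D j ≠ ⊥ := by
        intro hb
        have := hD.finrank_eq j
        rw [hb, finrank_bot] at this
        omega
      exact (Submodule.ne_bot_iff _).1 hbot
    obtain ⟨χ2, hχ2, hχ2z⟩ := exists_suppOn_eq_one D hI j z2 hz2 hz20
    have hχ2y : χ2 y = 0 := by rw [suppOn_apply_comp D hI j χ2 hχ2 y, hj, map_zero]
    have h' : ((s⁻¹ - 1) • (ψ ∘ₗ H95.comp hI i1) + ((s - 1) * ψ z2) • χ2) y = 0 := by
      simp [hψy1, hχ2y]
    have hk := tb2_key D hD hI M hM y ψ h hmem i1 j hij z1 z2 hz1 hz2 hψz1 hψy1 χ2 hχ2 hχ2z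
      hχ2y s hs0 h'
    have hsupp : SuppOn D i1 ((s⁻¹ - 1) • (ψ ∘ₗ H95.comp hI i1) + ((s - 1) * ψ z2) • χ2) := by
      intro l hl w hw
      simp [H95.comp_of_mem_ne hI hw hl, hψj z2 hz2]
    have hne : ((s⁻¹ - 1) • (ψ ∘ₗ H95.comp hI i1) + ((s - 1) * ψ z2) • χ2) ≠ 0 := by
      intro h0
      have h1 := congrArg (fun f : (ι → F) →ₗ[F] F => f z1) h0
      simp [H95.comp_of_mem hI hz1, hψz1, hψj z2 hz2] at h1
      exact hsinv h1
    exact hcon i1 (hmix' i1 _ hsupp hne y h' hk)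
  · push Not at hex
    obtain ⟨i2, i3, h12, h13, h23⟩ : ∃ i2 i3 : Fin t, i1 ≠ i2 ∧ i1 ≠ i3 ∧ i2 ≠ i3 := by
      have hcard : 3 ≤ Fintype.card (Fin t) := by simpa using ht
      have h1 : 1 < Fintype.card (Fin t) := by omega
      obtain ⟨i2, hi2⟩ := Fintype.exists_ne_of_one_lt_card h1 i1
      have h2 : ({i1, i2} : Finset (Fin t)).card < (Finset.univ : Finset (Fin t)).card := by
        rw [Finset.card_univ]
        exact lt_of_le_of_lt Finset.card_le_two (by omega)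
      obtain ⟨i3, -, hi3⟩ := Finset.exists_mem_notMem_of_card_lt_card h2
      rw [Finset.mem_insert, Finset.mem_singleton, not_or] at hi3
      exact ⟨i2, i3, Ne.symm hi2, Ne.symm hi3.1, Ne.symm hi3.2⟩
    obtain ⟨⟨v2, hv2, hψv2⟩, hψy2⟩ := hC i2 (hex i2)
    set z2 := (ψ v2)⁻¹ • v2 with hz2def
    have hz2 : z2 ∈ D i2 := (D i2).smul_mem _ hv2
    have hψz2 : ψ z2 = 1 := by rw [hz2def, map_smul, smul_eq_mul, inv_mul_cancel₀ hψv2]
    have hχ2 : SuppOn D i2 (ψ ∘ₗ H95.comp hI i2) := by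
      intro l hl w hw
      rw [LinearMap.comp_apply, H95.comp_of_mem_ne hI hw hl, map_zero]
    have hχ2z : (ψ ∘ₗ H95.comp hI i2) z2 = 1 := by
      rw [LinearMap.comp_apply, H95.comp_of_mem hI hz2, hψz2]
    have hχ2y : (ψ ∘ₗ H95.comp hI i2) y = 0 := hψy2
    have h' : ((s⁻¹ - 1) • (ψ ∘ₗ H95.comp hI i1) +
        ((s - 1) * ψ z2) • (ψ ∘ₗ H95.comp hI i2)) y = 0 := by
      simp [hψy1, hψy2]
    have hk := tb2_key D hD hI M hM y ψ h hmem i1 i2 h12 z1 z2 hz1 hz2 hψz1 hψy1 _ hχ2 hχ2z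
      hχ2y s hs0 h'
    have hne : ((s⁻¹ - 1) • (ψ ∘ₗ H95.comp hI i1) +
        ((s - 1) * ψ z2) • (ψ ∘ₗ H95.comp hI i2)) ≠ 0 := by
      intro h0
      have h1 := congrArg (fun f : (ι → F) →ₗ[F] F => f z1) h0
      simp [H95.comp_of_mem hI hz1, hψz1, H95.comp_of_mem_ne hI hz1 h12] at h1
      exact hsinv h1
    rcases htype y _ h' hk hy hne i3 with hA | hB | hC'
    · exact hex i3 hA.1
    · exact hcon i3 hB.1
    · obtain ⟨-, ⟨v, hv, hv0⟩, -⟩ := hC'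
      apply hv0
      simp [H95.comp_of_mem_ne hI hv (Ne.symm h13), H95.comp_of_mem_ne hI hv (Ne.symm h23)]

end Cfsg.Agent.H17.Mn
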