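import Cfsg.Agent.H17.MnTv

set_option autoImplicit false

namespace Cfsg.Agent.H17.Mn

open Cfsg Cfsg.Geo Cfsg.Agent.H17.Mn
open scoped MatrixGroups Matrix

variable {ι : Type} [Fintype ι] [DecidableEq ι] {F : Type*} [Field F]
variable {t m : ℕ} (D : Fin t → Submodule F (ι → F))

omit [Fintype ι] [DecidableEq ι] in
lemma suppOn_apply_comp (hI : DirectSum.IsInternal D) (i : Fin t) (φ : (ι → F) →ₗ[F] F)
    (hφ : SuppOn D i φ) (w : ι → F) : φ w = φ (H95.comp hI i w) := by
  conv_lhs => rw [← H95.sum_comp hI w]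
  rw [map_sum]
  apply Finset.sum_eq_single i
  · intro l _ hl
    exact hφ l hl _ (H95.comp_mem hI l w)
  · intro h; exact absurd (Finset.mem_univ i) h

omit [Fintype ι] [DecidableEq ι] in
lemma eq_zero_of_suppOn (hI : DirectSum.IsInternal D) (i : Fin t) (ψ : (ι → F) →ₗ[F] F)
    (h1 : SuppOn D i ψ) (h2 : ∀ v ∈ D i, ψ v = 0) : ψ = 0 := by
  refine LinearMap.ext fun w => ?_
  rw [suppOn_apply_comp D hI i ψ h1 w, h2 _ (H95.comp_mem hI i w)]
  rfl

omit [Fintype ι] [DecidableEq ι] in
/-- A form supported on `D i`, non-zero at `u ∈ D i`, vanishing on `W ∩ D i`. -/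
lemma exists_form (hI : DirectSum.IsInternal D) (i : Fin t) (W : Submodule F (ι → F))
    (u : ι → F) (hu : u ∈ D i) (huW : u ∉ W) :
    ∃ φ : (ι → F) →ₗ[F] F, SuppOn D i φ ∧ φ u ≠ 0 ∧ ∀ w ∈ W, w ∈ D i → φ w = 0 := by
  obtain ⟨f, hf, hW⟩ := Submodule.exists_le_ker_of_notMem huW
  refine ⟨f ∘ₗ H95.comp hI i, ?_, ?_, ?_⟩
  · intro l hl w hw
    rw [LinearMap.comp_apply, H95.comp_of_mem_ne hI hw hl, map_zero]
  · rw [LinearMap.comp_apply, H95.comp_of_mem hI hu]
    exact hf
  · intro w hw hwD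
    rw [LinearMap.comp_apply, H95.comp_of_mem hI hwD]
    exact hW hw

omit [DecidableEq ι] in
/-- A vector of `D i` outside a subspace of smaller dimension. -/
lemma exists_not_mem (hD : IsMDecomposition m D) (i : Fin t) (W : Submodule F (ι → F))
    (hW : Module.finrank F W < m) : ∃ w ∈ D i, w ∉ W := by
  by_contra hcon
  push Not at hcon
  have hle : D i ≤ W := hcon
  have := Submodule.finrank_mono hle
  rw [hD.finrank_eq i] at this
  omega

omit [Fintype ι] [DecidableEq ι] in
lemma finrank_span_pair_le (a b : ι → F) :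
    Module.finrank F (Submodule.span F ({a, b} : Set (ι → F))) ≤ 2 := by
  classical
  have h := finrank_span_finset_le_card (R := F) ({a, b} : Finset (ι → F))
  have h2 : (({a, b} : Finset (ι → F)) : Set (ι → F)) = {a, b} := by simp
  rw [h2] at h
  exact h.trans Finset.card_le_two

omit [Fintype ι] [DecidableEq ι] in
lemma finrank_span_singleton_le (a : ι → F) :
    Module.finrank F (Submodule.span F ({a} : Set (ι → F))) ≤ 1 := by
  classical
  have h := finrank_span_finset_le_card (R := F) ({a} : Finset (ι → F))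
  have h2 : (({a} : Finset (ι → F)) : Set (ι → F)) = {a} := by simp
  rw [h2] at h
  exact h.trans (by simp)

theorem tv_type (hD : IsMDecomposition m D) (hI : DirectSum.IsInternal D) (hm : 2 ≤ m)
    (M : Subgroup (GL ι F)) (hM : decompositionStabilizer D ⊓ specialLinear ι F ≤ M)
    (hmix : ∀ i (x : ι → F), x ∈ D i → x ≠ 0 → ∀ (ψ : (ι → F) →ₗ[F] F) (h : ψ x = 0),
      H95.tvGL x ψ h ∈ M → SuppOn D i ψ)
    (hmix' : ∀ i (ψ : (ι → F) →ₗ[F] F), SuppOn D i ψ → ψ ≠ 0 → ∀ (y : ι → F) (h : ψ y = 0),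
      H95.tvGL y ψ h ∈ M → y ∈ D i)
    (y : ι → F) (ψ : (ι → F) →ₗ[F] F) (h : ψ y = 0) (hmem : H95.tvGL y ψ h ∈ M) (hy : y ≠ 0)
    (hψ : ψ ≠ 0) (i : Fin t) :
    (H95.comp hI i y = 0 ∧ ∀ v ∈ D i, ψ v = 0) ∨ (y ∈ D i ∧ SuppOn D i ψ) ∨
      (m = 2 ∧ H95.comp hI i y ≠ 0 ∧ (∃ v ∈ D i, ψ v ≠ 0) ∧ ψ (H95.comp hI i y) = 0) := by
  classical
  set yi := H95.comp hI i y with hyi
  have hyiD : yi ∈ D i := H95.comp_mem hI i y
  -- RULE 1
  have rule1 : ∀ (x : ι → F) (φ : (ι → F) →ₗ[F] F), x ∈ D i → x ≠ 0 → ψ x = 0 →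
      SuppOn D i φ → φ x = 0 → φ yi ≠ 0 → SuppOn D i ψ := by
    intro x φ hx hx0 hψx hφs hφx hφy
    have hφy' : φ y ≠ 0 := by rw [suppOn_apply_comp D hI i φ hφs y]; exact hφy
    have hA : H95.tvGL x φ hφx ∈ M := hM (blockTv_mem D hD i x hx φ hφs hφx)
    have h' : ψ (φ y • x) = 0 := by rw [map_smul, hψx, smul_zero]
    have hc := comm_tvGL x y φ ψ hφx h hψx h'
    have hmem' : H95.tvGL (φ y • x) ψ h' ∈ M := by
      rw [← hc]
      exact M.mul_mem (M.mul_mem (M.mul_mem hA hmem) (M.inv_mem hA)) (M.inv_mem hmem)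
    exact hmix i (φ y • x) ((D i).smul_mem _ hx) (smul_ne_zero hφy' hx0) ψ h' hmem'
  -- RULE 2
  have rule2 : ∀ (x : ι → F) (φ : (ι → F) →ₗ[F] F), x ∈ D i → SuppOn D i φ → φ ≠ 0 →
      φ yi = 0 → φ x = 0 → ψ x ≠ 0 → y ∈ D i := by
    intro x φ hx hφs hφ0 hφy hφx hψx
    have hφy' : φ y = 0 := by rw [suppOn_apply_comp D hI i φ hφs y]; exact hφy
    have hA : H95.tvGL x φ hφx ∈ M := hM (blockTv_mem D hD i x hx φ hφs hφx)
    have h' : φ (ψ x • y) = 0 := by rw [map_smul, hφy', smul_zero]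
    have hc := comm_tvGL' x y φ ψ hφx h hφy' h'
    have hmem' : H95.tvGL (ψ x • y) φ h' ∈ M := by
      rw [← hc]
      exact M.mul_mem (M.mul_mem (M.mul_mem hmem hA) (M.inv_mem hmem)) (M.inv_mem hA)
    have := hmix' i φ hφs hφ0 (ψ x • y) h' hmem'
    exact ((D i).smul_mem_iff hψx).1 this
  have hspan1 : ∀ a : ι → F, Module.finrank F (Submodule.span F ({a} : Set (ι → F))) < m :=
    fun a => lt_of_le_of_lt (finrank_span_singleton_le a) (by omega)
  by_cases hy0 : yi = 0
  · by_cases hψD : ∀ v ∈ D i, ψ v = 0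
    · exact Or.inl ⟨hy0, hψD⟩
    · exfalso
      push Not at hψD
      obtain ⟨v, hv, hψv⟩ := hψD
      obtain ⟨w, hw, hwn⟩ := exists_not_mem D hD i (Submodule.span F {v}) (hspan1 v)
      obtain ⟨φ, hφs, hφw, hφW⟩ := exists_form D hI i (Submodule.span F {v}) w hw hwn
      have hφ0 : φ ≠ 0 := fun h0 => hφw (by rw [h0]; rfl)
      have hφv : φ v = 0 := hφW v (Submodule.mem_span_singleton_self v) hv
      have hyD := rule2 v φ hv hφs hφ0 (by rw [hy0, map_zero]) hφv hψv
      apply hy
      have : yi = y := H95.comp_of_mem hI hyD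
      rw [← this, hy0]
  · -- yi ≠ 0
    have hyi_span : ∀ x : ι → F, x ∉ Submodule.span F {yi} → yi ∉ Submodule.span F {x} := by
      intro x hx hyx
      rw [Submodule.mem_span_singleton] at hyx
      obtain ⟨c, hc⟩ := hyx
      have hc0 : c ≠ 0 := by
        rintro rfl
        rw [zero_smul] at hc
        exact hy0 hc.symm
      apply hx
      rw [Submodule.mem_span_singleton]
      exact ⟨c⁻¹, by rw [← hc, smul_smul, inv_mul_cancel₀ hc0, one_smul]⟩
    by_cases hψD : ∀ v ∈ D i, ψ v = 0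
    · exfalso
      obtain ⟨x, hx, hxn⟩ := exists_not_mem D hD i (Submodule.span F {yi}) (hspan1 yi)
      have hx0 : x ≠ 0 := by
        rintro rfl
        exact hxn (Submodule.zero_mem _)
      obtain ⟨φ, hφs, hφy, hφW⟩ :=
        exists_form D hI i (Submodule.span F {x}) yi hyiD (hyi_span x hxn)
      have hφx : φ x = 0 := hφW x (Submodule.mem_span_singleton_self x) hx
      have hs := rule1 x φ hx hx0 (hψD x hx) hφs hφx hφy
      exact hψ (eq_zero_of_suppOn D hI i ψ hs hψD)
    · push Not at hψD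
      obtain ⟨v, hv, hψv⟩ := hψD
      by_cases hcase : ψ yi ≠ 0 ∨ 3 ≤ m
      · right; left
        -- a vector x ∈ D i, ψ x = 0, x ∉ span {yi}
        have hx : ∃ x ∈ D i, ψ x = 0 ∧ x ∉ Submodule.span F {yi} := by
          obtain ⟨w1, hw1, hw1n⟩ := exists_not_mem D hD i (Submodule.span F {yi}) (hspan1 yi)
          by_cases hψy : ψ yi ≠ 0
          · refine ⟨w1 - (ψ w1 / ψ yi) • yi, (D i).sub_mem hw1 ((D i).smul_mem _ hyiD), ?_, ?_⟩
            · rw [map_sub, map_smul, smul_eq_mul, div_mul_cancel₀ _ hψy, sub_self]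
            · intro hmem1
              apply hw1n
              have := Submodule.add_mem _ hmem1
                (Submodule.smul_mem _ (ψ w1 / ψ yi) (Submodule.mem_span_singleton_self yi))
              simpa using this
          · push Not at hψy
            have hm3 : 3 ≤ m := by
              rcases hcase with h1 | h1
              · exact absurd hψy h1
              · exact h1
            by_cases hψw1 : ψ w1 = 0
            · exact ⟨w1, hw1, hψw1, hw1n⟩
            · obtain ⟨w2, hw2, hw2n⟩ := exists_not_mem D hD i (Submodule.span F {yi, w1})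
                (lt_of_le_of_lt (finrank_span_pair_le yi w1) (by omega))
              refine ⟨w2 - (ψ w2 / ψ w1) • w1, (D i).sub_mem hw2 ((D i).smul_mem _ hw1), ?_, ?_⟩
              · rw [map_sub, map_smul, smul_eq_mul, div_mul_cancel₀ _ hψw1, sub_self]
              · intro hmem1
                apply hw2n
                have h1 : w2 - (ψ w2 / ψ w1) • w1 ∈ Submodule.span F ({yi, w1} : Set (ι → F)) :=
                  Submodule.span_mono (by simp) hmem1
                have h2 : (ψ w2 / ψ w1) • w1 ∈ Submodule.span F ({yi, w1} : Set (ι → F)) :=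
                  Submodule.smul_mem _ _ (Submodule.subset_span (by simp))
                have := Submodule.add_mem _ h1 h2
                simpa using this
        obtain ⟨x, hxD, hψx, hxn⟩ := hx
        have hx0 : x ≠ 0 := by
          rintro rfl
          exact hxn (Submodule.zero_mem _)
        obtain ⟨φ, hφs, hφy, hφW⟩ :=
          exists_form D hI i (Submodule.span F {x}) yi hyiD (hyi_span x hxn)
        have hφx : φ x = 0 := hφW x (Submodule.mem_span_singleton_self x) hxD
        have hsupp := rule1 x φ hxD hx0 hψx hφs hφx hφy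
        refine ⟨?_, hsupp⟩
        -- y ∈ D i by RULE 2
        by_cases hψy : ψ yi ≠ 0
        · obtain ⟨w, hw, hwn⟩ := exists_not_mem D hD i (Submodule.span F {yi}) (hspan1 yi)
          obtain ⟨φ', hφ's, hφ'w, hφ'W⟩ := exists_form D hI i (Submodule.span F {yi}) w hw hwn
          have hφ'0 : φ' ≠ 0 := fun h0 => hφ'w (by rw [h0]; rfl)
          have hφ'y : φ' yi = 0 := hφ'W yi (Submodule.mem_span_singleton_self yi) hyiD
          exact rule2 yi φ' hyiD hφ's hφ'0 hφ'y hφ'y hψy
        · push Not at hψy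
          have hm3 : 3 ≤ m := by
            rcases hcase with h1 | h1
            · exact absurd hψy h1
            · exact h1
          obtain ⟨w, hw, hwn⟩ := exists_not_mem D hD i (Submodule.span F {yi, v})
            (lt_of_le_of_lt (finrank_span_pair_le yi v) (by omega))
          obtain ⟨φ', hφ's, hφ'w, hφ'W⟩ :=
            exists_form D hI i (Submodule.span F {yi, v}) w hw hwn
          have hφ'0 : φ' ≠ 0 := fun h0 => hφ'w (by rw [h0]; rfl)
          have hφ'y : φ' yi = 0 := hφ'W yi (Submodule.subset_span (by simp)) hyiD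
          have hφ'v : φ' v = 0 := hφ'W v (Submodule.subset_span (by simp)) hv
          exact rule2 v φ' hv hφ's hφ'0 hφ'y hφ'v hψv
      · right; right
        push Not at hcase
        exact ⟨by omega, hy0, ⟨v, hv, hψv⟩, hcase.1⟩

end Cfsg.Agent.H17.Mn
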