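import Cfsg.Agent.H17.MnDefs
import Cfsg.Agent.H17.MnBTV
import Cfsg.Agent.H17.MnTY
import Cfsg.Agent.H17.MnTB2
import Cfsg.Agent.H10.MnETV
import Cfsg.Agent.H14.MnD2
import Cfsg.Agent.H14.MnFW
import Cfsg.Agent.H15.MnMX
import Cfsg.Agent.H15.MnSTB
import Cfsg.Agent.H15.MnTF
import Cfsg.Agent.H15.MnTRP
import Cfsg.Agent.H27.MnRED
import Cfsg.Agent.H27.MnRT3
import Cfsg.Agent.H48.MnCOL
import Cfsg.Agent.H48.MnNZ
import Cfsg.Agent.H51.MnMOV
import Cfsg.Agent.H51.MnSECC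
import Cfsg.Agent.H51.MnSECG
import Cfsg.Agent.H51.MnRT1
import Cfsg.Agent.H77.MnBas2
import Cfsg.Agent.H77.MnFE
import Cfsg.Agent.H77.MnSECB
import Cfsg.Agent.H77.MnRT2
import Cfsg.Agent.Lib.Helper96.MnGL

set_option autoImplicit false

namespace Cfsg.Agent.H17.Mn

open Cfsg Cfsg.Geo Cfsg.Agent.H17.Mn
open scoped MatrixGroups Matrix

variable {ι : Type} [Fintype ι] [DecidableEq ι] {F : Type*} [Field F]

/-- Every element of `M` with a coordinate column is monomial. -/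
def StarC (M : Subgroup (GL ι F)) : Prop :=
  ∀ m ∈ M, (∃ i j, ∀ i', i' ≠ i → (m : Matrix ι ι F) i' j = 0) → m ∈ mono ι F

/-- Every element of `M` with a coordinate row is monomial. -/
def StarR (M : Subgroup (GL ι F)) : Prop :=
  ∀ m ∈ M, (∃ i j, ∀ j', j' ≠ j → (m : Matrix ι ι F) i j' = 0) → m ∈ mono ι F

lemma starR_of_transpose (M Mt : Subgroup (GL ι F))
    (hMt : ∀ g : GL ι F, g ∈ Mt ↔ ∃ h ∈ M, (h : Matrix ι ι F) = (g : Matrix ι ι F)ᵀ)
    (h : StarC Mt) : StarR M := by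
  intro m hm ⟨i, j, hij⟩
  obtain ⟨mt, hmt⟩ := Cfsg.Agent.H15.Mn.exists_gl_transpose m
  have hmtM : mt ∈ Mt := (hMt mt).2 ⟨m, hm, by rw [hmt, Matrix.transpose_transpose]⟩
  have h1 : mt ∈ mono ι F := by
    apply h mt hmtM
    refine ⟨j, i, fun j' hj' => ?_⟩
    rw [hmt, Matrix.transpose_apply]
    exact hij j' hj'
  exact (Cfsg.Agent.H15.Mn.mem_mono_transpose m mt hmt).1 h1

lemma monoS_le_transpose (M Mt : Subgroup (GL ι F)) (hM : monoS ι F ≤ M)
    (hMt : ∀ g : GL ι F, g ∈ Mt ↔ ∃ h ∈ M, (h : Matrix ι ι F) = (g : Matrix ι ι F)ᵀ) :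
    monoS ι F ≤ Mt := by
  intro g hg
  obtain ⟨h, hh⟩ := Cfsg.Agent.H15.Mn.exists_gl_transpose g
  rw [hMt]
  refine ⟨h, hM ⟨(Cfsg.Agent.H15.Mn.mem_mono_transpose g h hh).2 hg.1, (Cfsg.Agent.H15.Mn.mem_sl_transpose g h hh).2 hg.2⟩, hh⟩

lemma mono_le_transpose (M Mt : Subgroup (GL ι F)) (hM : mono ι F ≤ M)
    (hMt : ∀ g : GL ι F, g ∈ Mt ↔ ∃ h ∈ M, (h : Matrix ι ι F) = (g : Matrix ι ι F)ᵀ) :
    mono ι F ≤ Mt := by
  intro g hg
  obtain ⟨h, hh⟩ := Cfsg.Agent.H15.Mn.exists_gl_transpose g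
  rw [hMt]
  exact ⟨h, hM ((Cfsg.Agent.H15.Mn.mem_mono_transpose g h hh).2 hg), hh⟩

lemma tame_transpose (M Mt : Subgroup (GL ι F)) (htame : ∀ g ∈ M, ¬ IsElemTv g)
    (hMt : ∀ g : GL ι F, g ∈ Mt ↔ ∃ h ∈ M, (h : Matrix ι ι F) = (g : Matrix ι ι F)ᵀ) :
    ∀ g ∈ Mt, ¬ IsElemTv g := by
  intro g hg hgt
  obtain ⟨h, hhM, hh⟩ := (hMt g).1 hg
  exact htame h hhM ((Cfsg.Agent.H15.Mn.isElemTv_transpose g h hh).2 hgt)

/-- `StarC` from the dichotomy for the section groups. -/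
theorem starC_of_sections [Fintype F] {k : ℕ} (hk : 2 ≤ k) (hq : 5 ≤ Fintype.card F)
    (M : Subgroup (GL (Fin (k + 1)) F)) (hM : monoS (Fin (k + 1)) F ≤ M)
    (htame : ∀ g ∈ M, ¬ IsElemTv g)
    (hsec : ∀ M' : Subgroup (GL (Fin k) F), mono (Fin k) F ≤ M' →
      M' ≤ mono (Fin k) F ∨ ∃ g ∈ M', IsElemTv g) : StarC M := by
  intro m hm ⟨i, j, h⟩
  obtain ⟨m', hm', h0, hiff⟩ := Cfsg.Agent.H51.Mn.move_col M hM m hm i j h
  rw [← hiff]
  obtain ⟨M', hM', hL⟩ := Cfsg.Agent.H51.Mn.exists_secGrp M hM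
  obtain ⟨s, hs⟩ := Cfsg.Agent.H51.Mn.exists_section m' h0
  have hsM' : s ∈ M' := (hL s).2 ⟨m', hm', h0, fun i j => (hs i j).symm⟩
  rcases hsec M' hM' with hmono | ⟨g, hg, hgt⟩
  · exact Cfsg.Agent.H77.Mn.mono_of_section_mono hk hq M hM htame m' hm' h0 s hs (hmono hsM')
  · obtain ⟨g', hg', hgt'⟩ := Cfsg.Agent.H51.Mn.elemTv_of_section hk hq M hM g hgt ((hL g).1 hg)
    exact absurd hgt' (htame g' hg')

lemma card_le_five_of_pow_four [Fintype F] (h : ∀ u : F, u ≠ 0 → u ^ 4 = 1) :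
    Fintype.card F ≤ 5 := by
  classical
  obtain ⟨g, hg⟩ := IsCyclic.exists_generator (α := Fˣ)
  have h1 : g ^ 4 = 1 := by
    apply Units.ext
    rw [Units.val_pow_eq_pow_val, Units.val_one]
    exact h _ g.ne_zero
  have h2 : orderOf g ∣ 4 := orderOf_dvd_of_pow_eq_one h1
  have h3 : orderOf g = Fintype.card Fˣ := by
    rw [← Nat.card_eq_fintype_card]
    exact orderOf_eq_card_of_forall_mem_zpowers hg
  have h4 : Fintype.card Fˣ ≤ 4 := by
    rw [← h3]; exact Nat.le_of_dvd (by norm_num) h2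
  rw [Fintype.card_units] at h4
  omega

/-- `StarC` in dimension three. -/
theorem starC_three [Fintype F] (hq : 5 ≤ Fintype.card F)
    (M : Subgroup (GL (Fin 3) F)) (hM : mono (Fin 3) F ≤ M)
    (htame : ∀ g ∈ M, ¬ IsElemTv g) : StarC M := by
  have hMS : monoS (Fin 3) F ≤ M := fun g hg => hM hg.1
  intro m hm ⟨i, j, h⟩
  obtain ⟨m', hm', h0, hiff⟩ := Cfsg.Agent.H51.Mn.move_col (k := 2) M hMS m hm i j h
  rw [← hiff]
  obtain ⟨M', hM', hL⟩ := Cfsg.Agent.H51.Mn.exists_secGrp (k := 2) M hMS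
  obtain ⟨s, hs⟩ := Cfsg.Agent.H51.Mn.exists_section (k := 2) m' h0
  have hsM' : s ∈ M' := (hL s).2 ⟨m', hm', h0, fun i j => (hs i j).symm⟩
  have hno : ∀ g ∈ M', ¬ IsElemTv g := by
    intro g hg hgt
    obtain ⟨g', hg', hgt'⟩ := Cfsg.Agent.H51.Mn.elemTv_of_section (k := 2) le_rfl hq M hMS g hgt ((hL g).1 hg)
    exact htame g' hg' hgt'
  rcases Cfsg.Agent.H14.Mn.d2 M' hM' hno s hsM' with hmono | ⟨hnz, hdet, hu4⟩
  · exact Cfsg.Agent.H77.Mn.mono_of_section_mono (k := 2) le_rfl hq M hMS htame m' hm' h0 s hs hmono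
  · exfalso
    have hq5 : Fintype.card F = 5 := le_antisymm (card_le_five_of_pow_four hu4) hq
    have hnz' : ∀ i j : Fin 2, (m' : Matrix (Fin 3) (Fin 3) F) i.succ j.succ ≠ 0 := by
      intro i j
      rw [← hs i j]
      exact hnz i j
    have hdet' : (m' : Matrix (Fin 3) (Fin 3) F) 1 1 * (m' : Matrix (Fin 3) (Fin 3) F) 2 2 +
        (m' : Matrix (Fin 3) (Fin 3) F) 1 2 * (m' : Matrix (Fin 3) (Fin 3) F) 2 1 = 0 := by
      have e00 := hs 0 0
      have e11 := hs 1 1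
      have e01 := hs 0 1
      have e10 := hs 1 0
      have s0 : (0 : Fin 2).succ = (1 : Fin 3) := rfl
      have s1 : (1 : Fin 2).succ = (2 : Fin 3) := rfl
      rw [s0] at e00 e01 e10
      rw [s1] at e11 e01 e10
      rw [← e00, ← e11, ← e01, ← e10]
      exact hdet
    obtain ⟨η, hηM, hηv⟩ := Cfsg.Agent.H77.Mn.five_eta hq5 M hM htame m' hm' h0 hnz' hdet'
    obtain ⟨g, hg, hgt⟩ := Cfsg.Agent.H14.Mn.five_word hq5 M hM η hηM hηv
    exact htame g hg hgt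

/-- The statement for the full monomial group in dimension `k`. -/
def PP (F : Type*) [Field F] (k : ℕ) : Prop :=
  ∀ M : Subgroup (GL (Fin k) F), mono (Fin k) F ≤ M →
    M ≤ mono (Fin k) F ∨ specialLinear (Fin k) F ≤ M

lemma pp_of_starC [Fintype F] {k : ℕ} (hk : 3 ≤ k) (hq : 5 ≤ Fintype.card F)
    (hstar : ∀ M : Subgroup (GL (Fin k) F), mono (Fin k) F ≤ M → (∀ g ∈ M, ¬ IsElemTv g) →
      StarC M) : PP F k := by
  intro M hM
  have hcard : 3 ≤ Fintype.card (Fin k) := by simpa using hk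
  by_cases htame : ∀ g ∈ M, ¬ IsElemTv g
  · left
    obtain ⟨Mt, hMt⟩ := Cfsg.Agent.H15.Mn.exists_transpose M
    have hC : StarC M := hstar M hM htame
    have hR : StarR M := starR_of_transpose M Mt hMt
      (hstar Mt (mono_le_transpose M Mt hM hMt) (tame_transpose M Mt htame hMt))
    have hnz := Cfsg.Agent.Lib.Helper96.Mn.gl_no_zero (by omega) (by omega) M hM hC hR
    exact Cfsg.Agent.Lib.Helper96.Mn.gl_fin hcard hq M hM hnz
  · right
    push Not at htame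
    obtain ⟨g, hg, hgt⟩ := htame
    exact Cfsg.Agent.H10.Mn.sl_le_of_elemTv hcard M (fun g hg => hM hg.1) g hg hgt

lemma exists_elemTv_of_sl_le {k : ℕ} (hk : 2 ≤ k) (M' : Subgroup (GL (Fin k) F))
    (h : specialLinear (Fin k) F ≤ M') : ∃ g ∈ M', IsElemTv g := by
  obtain ⟨g, hg, hgS⟩ := Cfsg.Agent.H77.Mn.exists_etv (F := F) (⟨0, by omega⟩ : Fin k) ⟨1, by omega⟩
    (by simp [Fin.ext_iff]) 1
  exact ⟨g, h hgS, ⟨_, _, by simp [Fin.ext_iff], 1, one_ne_zero, hg⟩⟩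

theorem pp [Fintype F] (hq : 5 ≤ Fintype.card F) : ∀ k, 3 ≤ k → PP F k := by
  intro k hk
  induction k, hk using Nat.le_induction with
  | base =>
    apply pp_of_starC le_rfl hq
    intro M hM htame
    exact starC_three hq M hM htame
  | succ k hk ih =>
    apply pp_of_starC (by omega) hq
    intro M hM htame
    apply starC_of_sections (by omega) hq M (fun g hg => hM hg.1) htame
    intro M' hM'
    rcases ih M' hM' with h | h
    · exact Or.inl h
    · exact Or.inr (exists_elemTv_of_sl_le (by omega) M' h)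

theorem mono_max_aux [Fintype F] (n : ℕ) (hn : 13 ≤ n) (hq : 5 ≤ Fintype.card F)
    (M : Subgroup (GL (Fin n) F)) (hM : monoS (Fin n) F ≤ M) :
    M ≤ mono (Fin n) F ∨ specialLinear (Fin n) F ≤ M := by
  obtain ⟨k, rfl⟩ : ∃ k, n = k + 1 := ⟨n - 1, by omega⟩
  have hcard : Fintype.card (Fin (k + 1)) = k + 1 := by simp
  by_cases htame : ∀ g ∈ M, ¬ IsElemTv g
  · left
    have hsec : ∀ M' : Subgroup (GL (Fin k) F), mono (Fin k) F ≤ M' →
        M' ≤ mono (Fin k) F ∨ ∃ g ∈ M', IsElemTv g := by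
      intro M' hM'
      rcases pp hq k (by omega) M' hM' with h | h
      · exact Or.inl h
      · exact Or.inr (exists_elemTv_of_sl_le (by omega) M' h)
    obtain ⟨Mt, hMt⟩ := Cfsg.Agent.H15.Mn.exists_transpose M
    have hMtS := monoS_le_transpose M Mt hM hMt
    have hC : StarC M := starC_of_sections (by omega) hq M hM htame hsec
    have hCt : StarC Mt :=
      starC_of_sections (by omega) hq Mt hMtS (tame_transpose M Mt htame hMt) hsec
    have hcol := Cfsg.Agent.H48.Mn.col_zero_le_one (by omega) hq M hM hC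
    have hrow : ∀ γ ∈ M, γ ∉ mono (Fin (k + 1)) F → ∀ i l l', l ≠ l' →
        (γ : Matrix (Fin (k + 1)) (Fin (k + 1)) F) i l = 0 →
        (γ : Matrix (Fin (k + 1)) (Fin (k + 1)) F) i l' = 0 → False := by
      intro γ hγM hγ i l l' hll h1 h2
      obtain ⟨γt, hγt⟩ := Cfsg.Agent.H15.Mn.exists_gl_transpose γ
      have hγtM : γt ∈ Mt := (hMt γt).2 ⟨γ, hγM, by rw [hγt, Matrix.transpose_transpose]⟩
      have hγtn : γt ∉ mono (Fin (k + 1)) F := fun h => hγ ((Cfsg.Agent.H15.Mn.mem_mono_transpose γ γt hγt).1 h)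
      refine Cfsg.Agent.H48.Mn.col_zero_le_one (by omega) hq Mt hMtS hCt γt hγtM hγtn i l l' hll ?_ ?_
      · rw [hγt, Matrix.transpose_apply]; exact h1
      · rw [hγt, Matrix.transpose_apply]; exact h2
    have hnz := Cfsg.Agent.H48.Mn.no_zero (by omega) hq M hM hcol hrow
    exact Cfsg.Agent.H15.Mn.top_fin (by omega) M hM hnz
  · right
    push Not at htame
    obtain ⟨g, hg, hgt⟩ := htame
    exact Cfsg.Agent.H10.Mn.sl_le_of_elemTv (by omega) M hM g hg hgt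

theorem mono_max [Fintype F] (n : ℕ) (hn : 13 ≤ n) (hq : 5 ≤ Fintype.card F) :
    IsMaximalIn (specialLinear (Fin n) F) (monoS (Fin n) F) := by
  constructor
  · refine lt_of_le_of_ne inf_le_right ?_
    intro heq
    obtain ⟨g, hg, hgS⟩ := Cfsg.Agent.H77.Mn.exists_etv (F := F) (⟨0, by omega⟩ : Fin n) ⟨1, by omega⟩
      (by simp [Fin.ext_iff]) 1
    have hgm : g ∈ monoS (Fin n) F := by rw [heq]; exact hgS
    have hmon := hgm.1.1
    have h0 := hmon ⟨1, by omega⟩ ⟨0, by omega⟩ ⟨1, by omega⟩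
      (by rw [hg]; simp [Matrix.transvection, Matrix.single_apply, Fin.ext_iff])
      (by rw [hg]; simp [Matrix.transvection, Matrix.single_apply, Fin.ext_iff])
    simp [Fin.ext_iff] at h0
  · intro M hle hMS
    rcases mono_max_aux n hn hq M hle with h | h
    · left; exact le_antisymm (le_inf h hMS) hle
    · right; exact le_antisymm hMS h

end Cfsg.Agent.H17.Mn
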