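import Cfsg.Agent.H17.MnMain

set_option autoImplicit false

namespace Cfsg.Agent.H17.Mn

open Cfsg Cfsg.Geo Cfsg.Agent.H17.Mn
open scoped MatrixGroups Matrix

variable {ι : Type} [Fintype ι] [DecidableEq ι] {F : Type*} [Field F]

/-- The case of a decomposition into lines. -/
theorem max_one [Fintype F] (n : ℕ) (hn : 13 ≤ n) {t : ℕ} (D : Fin t → Submodule F (Fin n → F))
    (hD : IsMDecomposition 1 D) (hq : 5 ≤ Fintype.card F) :
    IsMaximalIn (specialLinear (Fin n) F)
      (decompositionStabilizer D ⊓ specialLinear (Fin n) F) := by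
  obtain ⟨P, hP⟩ := Cfsg.Agent.H27.Mn.red_one D hD
  have key := mono_max (F := F) n hn hq
  have hSL : ∀ g : GL (Fin n) F, g ∈ specialLinear (Fin n) F ↔
      P⁻¹ * g * P ∈ specialLinear (Fin n) F := by
    intro g
    rw [H95.mem_specialLinear_iff, H95.mem_specialLinear_iff]
    have : ((P⁻¹ * g * P : GL (Fin n) F) : Matrix (Fin n) (Fin n) F).det =
        (g : Matrix (Fin n) (Fin n) F).det := by
      rw [Units.val_mul, Units.val_mul, Matrix.det_mul, Matrix.det_mul]
      have h1 : ((P⁻¹ : GL (Fin n) F) : Matrix (Fin n) (Fin n) F).det *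
          (P : Matrix (Fin n) (Fin n) F).det = 1 := by
        rw [← Matrix.det_mul, ← Units.val_mul, inv_mul_cancel, Units.val_one, Matrix.det_one]
      calc ((P⁻¹ : GL (Fin n) F) : Matrix (Fin n) (Fin n) F).det *
            (g : Matrix (Fin n) (Fin n) F).det * (P : Matrix (Fin n) (Fin n) F).det
          = (((P⁻¹ : GL (Fin n) F) : Matrix (Fin n) (Fin n) F).det *
            (P : Matrix (Fin n) (Fin n) F).det) * (g : Matrix (Fin n) (Fin n) F).det := by ring
        _ = (g : Matrix (Fin n) (Fin n) F).det := by rw [h1, one_mul]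
    rw [this]
  -- the conjugation
  let c : GL (Fin n) F →* GL (Fin n) F := (MulAut.conj P⁻¹).toMonoidHom
  have hc : ∀ g, c g = P⁻¹ * g * P := by
    intro g
    simp [c, MulAut.conj_apply]
  have hcinj : Function.Injective c := (MulAut.conj P⁻¹).injective
  have hcsurj : ∀ g', ∃ g, c g = g' := (MulAut.conj P⁻¹).surjective
  constructor
  · refine lt_of_le_of_ne inf_le_right ?_
    intro heq
    apply key.1.ne
    apply le_antisymm inf_le_right
    intro g' hg'
    obtain ⟨g, rfl⟩ := hcsurj g'
    rw [hc] at hg' ⊢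
    have h1 : g ∈ specialLinear (Fin n) F := (hSL g).2 hg'
    rw [← heq] at h1
    exact ⟨(hP g).1 h1.1, hg'⟩
  · intro M hle hMS
    have hle' : monoS (Fin n) F ≤ M.map c := by
      intro g' hg'
      obtain ⟨g, rfl⟩ := hcsurj g'
      rw [hc] at hg'
      exact Subgroup.mem_map_of_mem c (hle ⟨(hP g).2 hg'.1, (hSL g).2 hg'.2⟩)
    have hMS' : M.map c ≤ specialLinear (Fin n) F := by
      rintro _ ⟨g, hg, rfl⟩
      rw [hc]
      exact (hSL g).1 (hMS hg)
    rcases key.2 (M.map c) hle' hMS' with h | h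
    · left
      apply le_antisymm _ hle
      intro g hg
      have h1 : c g ∈ monoS (Fin n) F := by rw [← h]; exact Subgroup.mem_map_of_mem c hg
      rw [hc] at h1
      exact ⟨(hP g).2 h1.1, (hSL g).2 h1.2⟩
    · right
      apply le_antisymm hMS
      intro g hg
      have h1 : c g ∈ M.map c := by rw [h, hc]; exact (hSL g).1 hg
      obtain ⟨g0, hg0, hg0e⟩ := h1
      rw [← hcinj hg0e]
      exact hg0

/-- The case of blocks of dimension at least two. -/
theorem max_two_le [Fintype F] {t m : ℕ} (D : Fin t → Submodule F (ι → F))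
    (hD : IsMDecomposition m D) (hm : 2 ≤ m)
    (h2 : m = 2 → 3 ≤ Fintype.card F ∧ 3 ≤ t) :
    IsMaximalIn (specialLinear ι F) (decompositionStabilizer D ⊓ specialLinear ι F) := by
  have hI : DirectSum.IsInternal D :=
    DirectSum.isInternal_submodule_of_iSupIndep_of_iSup_eq_top hD.indep hD.iSup_eq_top
  constructor
  · refine lt_of_le_of_ne inf_le_right ?_
    intro heq
    obtain ⟨g, hg, hgn⟩ := Cfsg.Agent.H17.Mn.exists_sl_not_mem_stab D hD
    rw [← heq] at hg
    exact hgn hg.1
  · intro M hle hMS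
    have hroot : ∀ (i j : Fin t) (hij : j ≠ i) (x : ι → F) (hx : x ∈ D i) (hx0 : x ≠ 0)
        (ψ : (ι → F) →ₗ[F] F) (h : ψ x = 0) (hmem : H95.tvGL x ψ h ∈ M) (v : ι → F)
        (hv : v ∈ D j) (hψv : ψ v ≠ 0), M = specialLinear ι F := by
      intro i j hij x hx hx0 ψ h hmem v hv hψv
      have hr := Cfsg.Agent.H51.Mn.hasRoot_of_mixed D hD hm M hle i j hij x hx hx0 ψ h hmem v hv hψv
      have hall := Cfsg.Agent.H77.Mn.hasRoot_all D hD M hle i j (Ne.symm hij) hr
      exact le_antisymm hMS (Cfsg.Agent.H27.Mn.sl_le_of_hasRoot D hD M hle hall)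
    by_cases hmix : ∀ i (x : ι → F), x ∈ D i → x ≠ 0 → ∀ (ψ : (ι → F) →ₗ[F] F) (h : ψ x = 0),
        H95.tvGL x ψ h ∈ M → SuppOn D i ψ
    · by_cases hmix' : ∀ i (ψ : (ι → F) →ₗ[F] F), SuppOn D i ψ → ψ ≠ 0 →
          ∀ (y : ι → F) (h : ψ y = 0), H95.tvGL y ψ h ∈ M → y ∈ D i
      · left
        apply le_antisymm _ hle
        have hblock : ∀ (y : ι → F) (ψ : (ι → F) →ₗ[F] F) (h : ψ y = 0),
            H95.tvGL y ψ h ∈ M → y ≠ 0 → ψ ≠ 0 → ∃ i, y ∈ D i := by
          intro y ψ h hmem hy hψ
          by_cases hm2 : m = 2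
          · subst hm2
            obtain ⟨hq3, ht3⟩ := h2 rfl
            refine Cfsg.Agent.H17.Mn.tv_block_two D hD hI hq3 ht3 M hle hmix' ?_ y ψ h hmem hy hψ
            intro y ψ h hmem hy hψ i
            rcases Cfsg.Agent.H17.Mn.tv_type D hD hI hm M hle hmix hmix' y ψ h hmem hy hψ i with h1 | h1 | h1
            · exact Or.inl h1
            · exact Or.inr (Or.inl h1)
            · exact Or.inr (Or.inr h1.2)
          · have hex : ∃ i, H95.comp hI i y ≠ 0 := by
              by_contra hcon
              push Not at hcon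
              apply hy
              rw [← H95.sum_comp hI y]
              exact Finset.sum_eq_zero (fun i _ => hcon i)
            obtain ⟨i, hi⟩ := hex
            rcases Cfsg.Agent.H17.Mn.tv_type D hD hI hm M hle hmix hmix' y ψ h hmem hy hψ i with h1 | h1 | h1
            · exact absurd h1.1 hi
            · exact ⟨i, h1.1⟩
            · exact absurd h1.1 hm2
        intro g hg
        exact ⟨Cfsg.Agent.H15.Mn.mem_stab_of_tv_block D hD hm M hle hblock g hg, hMS hg⟩
      · right
        push Not at hmix'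
        obtain ⟨i, ψ, hψ, hψ0, y, h, hmem, hy⟩ := hmix'
        obtain ⟨j, x, h', hji, hx, hx0, hmem'⟩ :=
          Cfsg.Agent.H15.Mn.mixed_of_mixed' D hD hm M hle i ψ hψ hψ0 y h hmem hy
        have hex : ∃ v ∈ D i, ψ v ≠ 0 := by
          by_contra hcon
          push Not at hcon
          apply hψ0
          refine LinearMap.ext fun w => ?_
          rw [← H95.sum_comp hI w, map_sum]
          simp only [LinearMap.zero_apply]
          apply Finset.sum_eq_zero
          intro l _
          by_cases hl : l = i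
          · subst hl
            exact hcon _ (H95.comp_mem hI l w)
          · exact hψ l hl _ (H95.comp_mem hI l w)
        obtain ⟨v, hv, hψv⟩ := hex
        exact hroot j i (Ne.symm hji) x hx hx0 ψ h' hmem' v hv hψv
    · right
      push Not at hmix
      obtain ⟨i, x, hx, hx0, ψ, h, hmem, hns⟩ := hmix
      unfold SuppOn at hns
      push Not at hns
      obtain ⟨l, hl, v, hv, hψv⟩ := hns
      exact hroot i l hl x hx hx0 ψ h hmem v hv hψv

end Cfsg.Agent.H17.Mn

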