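import Mathlib
import Cfsg.Prelude.Def_Classical
import Cfsg.Prelude.Def_ClassicalGeometry
import Cfsg.Agent.H17.O5Sp4

set_option autoImplicit false

/-! Helper lemmas (helper17): the action of symplectic similitudes of `F^4` on the 5-dimensional
orthogonal space, in every characteristic. -/

namespace Cfsg.Agent.H17

open Matrix

variable {F : Type*} [Field F]

/-- `g` is a symplectic similitude with multiplier `μ`. -/
def IsSim (g : Matrix I4 I4 F) (μ : F) : Prop :=
  g * Matrix.J (Fin 2) F * gᵀ = μ • Matrix.J (Fin 2) F ∧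
    gᵀ * Matrix.J (Fin 2) F * g = μ • Matrix.J (Fin 2) F

theorem IsSim.mul {g g' : Matrix I4 I4 F} {μ μ' : F} (h : IsSim g μ) (h' : IsSim g' μ') :
    IsSim (g * g') (μ * μ') := by
  constructor
  · rw [Matrix.transpose_mul]
    calc g * g' * Matrix.J (Fin 2) F * (g'ᵀ * gᵀ)
        = g * (g' * Matrix.J (Fin 2) F * g'ᵀ) * gᵀ := by simp only [Matrix.mul_assoc]
      _ = μ' • (g * Matrix.J (Fin 2) F * gᵀ) := by
          rw [h'.1, Matrix.mul_smul, Matrix.smul_mul]
      _ = (μ * μ') • Matrix.J (Fin 2) F := by rw [h.1, smul_smul, mul_comm]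
  · rw [Matrix.transpose_mul]
    calc g'ᵀ * gᵀ * Matrix.J (Fin 2) F * (g * g')
        = g'ᵀ * (gᵀ * Matrix.J (Fin 2) F * g) * g' := by simp only [Matrix.mul_assoc]
      _ = μ • (g'ᵀ * Matrix.J (Fin 2) F * g') := by
          rw [h.2, Matrix.mul_smul, Matrix.smul_mul]
      _ = (μ * μ') • Matrix.J (Fin 2) F := by rw [h'.2, smul_smul]

theorem IsSim.smul {g : Matrix I4 I4 F} {μ : F} (c : F) (h : IsSim g μ) :
    IsSim (c • g) (c * c * μ) := by
  constructor
  · rw [Matrix.transpose_smul, Matrix.smul_mul, Matrix.smul_mul, Matrix.mul_smul, h.1, smul_smul,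
      smul_smul]
  · rw [Matrix.transpose_smul, Matrix.smul_mul, Matrix.smul_mul, Matrix.mul_smul, h.2, smul_smul,
      smul_smul]

theorem isSim_of_mem {g : Matrix I4 I4 F} (h : g ∈ Matrix.symplecticGroup (Fin 2) F) :
    IsSim g 1 := by
  constructor
  · rw [one_smul]
    exact SymplecticGroup.mem_iff.mp h
  · rw [one_smul]
    exact SymplecticGroup.mem_iff'.mp h

theorem mem_of_isSim {g : Matrix I4 I4 F} (h : IsSim g 1) :
    g ∈ Matrix.symplecticGroup (Fin 2) F := by
  rw [SymplecticGroup.mem_iff]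
  have := h.1
  rw [one_smul] at this
  exact this

theorem isSim_one : IsSim (1 : Matrix I4 I4 F) 1 := isSim_of_mem (one_mem _)

/-- The similitude attached to a vector of the orthogonal space. -/
theorem isSim_emb (v : I5 → F) :
    IsSim (o5emb v * Matrix.J (Fin 2) F) (Cfsg.quadFormOdd 2 F v) := by
  constructor
  · ext (i | i) (j | j) <;> fin_cases i <;> fin_cases j <;>
      simp [o5emb, Matrix.J, Matrix.mul_apply, Fintype.sum_sum_type, Fin.sum_univ_two,
        Cfsg.quadFormOdd] <;> ring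
  · ext (i | i) (j | j) <;> fin_cases i <;> fin_cases j <;>
      simp [o5emb, Matrix.J, Matrix.mul_apply, Fintype.sum_sum_type, Fin.sum_univ_two,
        Cfsg.quadFormOdd] <;> ring

/-- Characteristic-free recognition of the image of `o5emb`. -/
theorem o5emb_proj' (A : Matrix I4 I4 F) (hA : Aᵀ = -A) (hd : ∀ a, A a a = 0)
    (htr : A (.inl 0) (.inr 0) + A (.inl 1) (.inr 1) = 0) : o5emb (o5proj A) = A := by
  have key : ∀ a b, A a b = -A b a := by
    intro a b
    have := congrFun (congrFun hA b) a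
    simpa using this
  ext (i | i) (j | j) <;> fin_cases i <;> fin_cases j <;> simp [o5emb, o5proj]
  all_goals first
    | exact (hd _).symm
    | exact (key _ _).symm
    | linear_combination (-1 : F) * htr
    | linear_combination htr - key (Sum.inr 1) (Sum.inl 1)

theorem conj_emb_diag (g : Matrix I4 I4 F) (v : I5 → F) (a : I4) :
    (g * o5emb v * gᵀ) a a = 0 := by
  rcases a with i | i <;> fin_cases i <;>
    simp [o5emb, Matrix.mul_apply, Fintype.sum_sum_type, Fin.sum_univ_two] <;> ring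

theorem conj_emb_transpose (g : Matrix I4 I4 F) (v : I5 → F) :
    (g * o5emb v * gᵀ)ᵀ = -(g * o5emb v * gᵀ) := by
  rw [Matrix.transpose_mul, Matrix.transpose_mul, Matrix.transpose_transpose, o5emb_transpose]
  simp [Matrix.mul_assoc]

theorem conj_emb_tr (g : Matrix I4 I4 F) (μ : F)
    (h : gᵀ * Matrix.J (Fin 2) F * g = μ • Matrix.J (Fin 2) F) (v : I5 → F) :
    (g * o5emb v * gᵀ) (.inl 0) (.inr 0) + (g * o5emb v * gᵀ) (.inl 1) (.inr 1) = 0 := by
  have e01 := congrFun (congrFun h (.inl 0)) (.inl 1)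
  have e02 := congrFun (congrFun h (.inl 0)) (.inr 0)
  have e03 := congrFun (congrFun h (.inl 0)) (.inr 1)
  have e12 := congrFun (congrFun h (.inl 1)) (.inr 0)
  have e13 := congrFun (congrFun h (.inl 1)) (.inr 1)
  have e23 := congrFun (congrFun h (.inr 0)) (.inr 1)
  simp [Matrix.J, Matrix.mul_apply, Fintype.sum_sum_type, Fin.sum_univ_two] at e01 e02 e03 e12 e13 e23
  simp [o5emb, Matrix.mul_apply, Fintype.sum_sum_type, Fin.sum_univ_two]
  linear_combination (-v (.inr (.inl 0))) * e01 - v (.inl ()) * e02 - v (.inr (.inl 1)) * e03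
    - v (.inr (.inr 1)) * e12 + v (.inl ()) * e13 - v (.inr (.inr 0)) * e23

/-- The twisted action of a matrix on the orthogonal space. -/
def simAct (c : F) (g : Matrix I4 I4 F) (v : I5 → F) : I5 → F :=
  o5proj (c • (g * o5emb v * gᵀ))

theorem simAct_one (g : Matrix I4 I4 F) (v : I5 → F) : simAct 1 g v = o5act g v := by
  unfold simAct o5act
  rw [one_smul]

theorem o5emb_simAct {g : Matrix I4 I4 F} {μ : F} (h : IsSim g μ) (c : F) (v : I5 → F) :
    o5emb (simAct c g v) = c • (g * o5emb v * gᵀ) := by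
  apply o5emb_proj'
  · rw [Matrix.transpose_smul, conj_emb_transpose, smul_neg]
  · intro a
    rw [Matrix.smul_apply, conj_emb_diag, smul_zero]
  · rw [Matrix.smul_apply, Matrix.smul_apply, ← smul_add, conj_emb_tr g μ h.2 v, smul_zero]

theorem simAct_simAct {g g' : Matrix I4 I4 F} {μ' : F} (h' : IsSim g' μ') (c c' : F)
    (v : I5 → F) : simAct c g (simAct c' g' v) = simAct (c * c') (g * g') v := by
  unfold simAct
  rw [show o5proj (c' • (g' * o5emb v * g'ᵀ)) = simAct c' g' v from rfl, o5emb_simAct h',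
    Matrix.transpose_mul, Matrix.mul_smul, Matrix.smul_mul, smul_smul]
  simp only [Matrix.mul_assoc]

theorem simAct_quad {g : Matrix I4 I4 F} {μ : F} (h : IsSim g μ) (c : F) (v : I5 → F) :
    Cfsg.quadFormOdd 2 F (simAct c g v) = (c * μ) ^ 2 * Cfsg.quadFormOdd 2 F v := by
  have e1 := o5emb_J (simAct c g v)
  rw [o5emb_simAct h] at e1
  have e2 : c • (g * o5emb v * gᵀ) * Matrix.J (Fin 2) F * c • (g * o5emb v * gᵀ) =
      (c * c * μ * μ * -(Cfsg.quadFormOdd 2 F v)) • Matrix.J (Fin 2) F := by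
    calc c • (g * o5emb v * gᵀ) * Matrix.J (Fin 2) F * c • (g * o5emb v * gᵀ)
        = (c * c) • (g * o5emb v * (gᵀ * Matrix.J (Fin 2) F * g) * o5emb v * gᵀ) := by
          simp only [Matrix.smul_mul, Matrix.mul_smul, smul_smul, Matrix.mul_assoc]
      _ = (c * c * μ) • (g * (o5emb v * Matrix.J (Fin 2) F * o5emb v) * gᵀ) := by
          rw [h.2]
          simp only [Matrix.smul_mul, Matrix.mul_smul, smul_smul, Matrix.mul_assoc]
      _ = (c * c * μ * -(Cfsg.quadFormOdd 2 F v)) • (g * Matrix.J (Fin 2) F * gᵀ) := by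
          rw [o5emb_J]
          simp only [Matrix.smul_mul, Matrix.mul_smul, smul_smul, Matrix.mul_assoc]
      _ = _ := by
          rw [h.1, smul_smul]
          congr 1
          ring
  rw [e2] at e1
  have e3 := congrFun (congrFun e1 (.inl 0)) (.inr 0)
  simp [Matrix.J] at e3
  linear_combination -e3

theorem simAct_smul_sq (c d : F) (g : Matrix I4 I4 F) (v : I5 → F) :
    simAct (d * d * c) g v = simAct c (d • g) v := by
  unfold simAct
  rw [Matrix.transpose_smul, Matrix.smul_mul, Matrix.smul_mul, Matrix.mul_smul, smul_smul,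
    smul_smul]
  congr 2
  ring

theorem simAct_one_one (v : I5 → F) : simAct 1 (1 : Matrix I4 I4 F) v = v := by
  rw [simAct_one, o5act_one]

/-- The key identity: conjugation by the similitude of `v` is, up to scalar, the reflection
in `v`. -/
theorem emb_conj_emb (v x : I5 → F) :
    (o5emb v * Matrix.J (Fin 2) F) * o5emb x * (o5emb v * Matrix.J (Fin 2) F)ᵀ =
      QuadraticMap.polar (Cfsg.quadFormOdd 2 F) v x • o5emb v -
        Cfsg.quadFormOdd 2 F v • o5emb x := by
  ext (i | i) (j | j) <;> fin_cases i <;> fin_cases j <;>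
    simp [o5emb, Matrix.J, Matrix.mul_apply, Fintype.sum_sum_type, Fin.sum_univ_two,
      Cfsg.quadFormOdd, QuadraticMap.polar] <;> ring

/-- `x - (Q v)⁻¹ f(v, x) v` as a twisted action. -/
theorem refl_eq_simAct (v x : I5 → F) (hv : Cfsg.quadFormOdd 2 F v ≠ 0) :
    x - ((Cfsg.quadFormOdd 2 F v)⁻¹ * QuadraticMap.polar (Cfsg.quadFormOdd 2 F) v x) • v =
      simAct (-(Cfsg.quadFormOdd 2 F v)⁻¹) (o5emb v * Matrix.J (Fin 2) F) x := by
  unfold simAct
  rw [emb_conj_emb]
  have h1 : -(Cfsg.quadFormOdd 2 F v)⁻¹ • (QuadraticMap.polar (Cfsg.quadFormOdd 2 F) v x • o5emb v -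
        Cfsg.quadFormOdd 2 F v • o5emb x) =
      o5emb (x - ((Cfsg.quadFormOdd 2 F v)⁻¹ * QuadraticMap.polar (Cfsg.quadFormOdd 2 F) v x) • v) := by
    have hl : ∀ (a : F) (y z : I5 → F), o5emb (y - a • z) = o5emb y - a • o5emb z := by
      intro a y z
      have := (o5embL (F := F)).map_sub y (a • z)
      rw [(o5embL (F := F)).map_smul] at this
      exact this
    rw [hl, smul_sub, smul_smul, smul_smul]
    have e : -(Cfsg.quadFormOdd 2 F v)⁻¹ * Cfsg.quadFormOdd 2 F v = -1 := by
      rw [neg_mul, inv_mul_cancel₀ hv]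
    rw [e, neg_one_smul, neg_mul, neg_smul]
    abel
  rw [h1, o5proj_emb]

end Cfsg.Agent.H17
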