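import Mathlib
import Cfsg.Prelude.Def_Classical
import Cfsg.Prelude.Def_ClassicalGeometry
import Cfsg.Agent.H17.O5Sim
import Cfsg.Agent.H49.CD
import Cfsg.Agent.H49.SimpleForms

set_option autoImplicit false

/-! Helper lemmas (helper17): the homomorphism `Sp_4(F) → O_5(F)` in every characteristic, and
the commutator subgroup of `O_5(F)`. -/

namespace Cfsg.Agent.H17

open Matrix

open scoped commutatorElement

/-- If a group is generated by a set `S` closed under inverses which normalises `N` and whose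
elements commute modulo `N`, then the commutator subgroup lies in `N`. -/
theorem commutator_le_of_gens {G : Type*} [Group G] (S : Set G) (N : Subgroup G)
    (hS : Subgroup.closure S = ⊤) (hinv : ∀ s ∈ S, s⁻¹ ∈ S)
    (ha : ∀ s ∈ S, ∀ n ∈ N, s * n * s⁻¹ ∈ N) (hb : ∀ s ∈ S, ∀ t ∈ S, ⁅s, t⁆ ∈ N) :
    commutator G ≤ N := by
  have hN : N.Normal := by
    rw [← Subgroup.normalizer_eq_top_iff, eq_top_iff, ← hS, Subgroup.closure_le]
    intro s hs
    rw [SetLike.mem_coe, Subgroup.mem_normalizer_iff]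
    intro n
    constructor
    · exact ha s hs n
    · intro h
      have h1 := ha s⁻¹ (hinv s hs) _ h
      have h2 : s⁻¹ * (s * n * s⁻¹) * s⁻¹⁻¹ = n := by group
      rw [h2] at h1
      exact h1
  have hT : ∀ s ∈ S, ∀ t ∈ S, (s : G ⧸ N) * (t : G ⧸ N) = (t : G ⧸ N) * (s : G ⧸ N) := by
    intro s hs t ht
    have h1 : ((⁅s, t⁆ : G) : G ⧸ N) = 1 := (QuotientGroup.eq_one_iff _).mpr (hb s hs t ht)
    rw [commutatorElement_def] at h1
    simp only [QuotientGroup.mk_mul, QuotientGroup.mk_inv] at h1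
    rw [mul_inv_eq_one, mul_inv_eq_iff_eq_mul] at h1
    exact h1
  have h1 : ∀ s ∈ S, ∀ b : G, (s : G ⧸ N) * (b : G ⧸ N) = (b : G ⧸ N) * (s : G ⧸ N) := by
    intro s hs b
    have hb' : b ∈ Subgroup.closure S := by rw [hS]; trivial
    induction hb' using Subgroup.closure_induction with
    | mem t ht => exact hT s hs t ht
    | one => simp
    | mul x y _ _ hx hy =>
      rw [QuotientGroup.mk_mul, ← mul_assoc, hx, mul_assoc, hy, mul_assoc]
    | inv x _ hx =>
      rw [QuotientGroup.mk_inv, eq_inv_mul_iff_mul_eq, ← mul_assoc, ← hx, mul_assoc,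
        mul_inv_cancel, mul_one]
  have h2 : ∀ a b : G, (a : G ⧸ N) * (b : G ⧸ N) = (b : G ⧸ N) * (a : G ⧸ N) := by
    intro a b
    have ha' : a ∈ Subgroup.closure S := by rw [hS]; trivial
    induction ha' using Subgroup.closure_induction with
    | mem s hs => exact h1 s hs b
    | one => simp
    | mul x y _ _ hx hy =>
      rw [QuotientGroup.mk_mul, mul_assoc, hy, ← mul_assoc, hx, mul_assoc]
    | inv x _ hx =>
      rw [QuotientGroup.mk_inv, inv_mul_eq_iff_eq_mul, ← mul_assoc, hx, mul_assoc,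
        mul_inv_cancel, mul_one]
  rw [commutator_def, Subgroup.commutator_le]
  intro a _ b _
  rw [← QuotientGroup.eq_one_iff, commutatorElement_def]
  simp only [QuotientGroup.mk_mul, QuotientGroup.mk_inv]
  rw [h2 a b]
  group

variable {F : Type*} [Field F]

theorem o5mat_mul' (g h : Matrix I4 I4 F) (hh : h ∈ Matrix.symplecticGroup (Fin 2) F) :
    o5mat (g * h) = o5mat g * o5mat h := by
  have : o5actL (g * h) = o5actL g ∘ₗ o5actL h := by
    apply LinearMap.ext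
    intro v
    rw [LinearMap.comp_apply, o5actL_apply, o5actL_apply, o5actL_apply, ← simAct_one,
      ← simAct_one, ← simAct_one, simAct_simAct (isSim_of_mem hh), one_mul]
  rw [o5mat, this, LinearMap.toMatrix'_comp]
  rfl

/-- The homomorphism `Sp_4(F) → Mat_5(F)`, in every characteristic. -/
noncomputable def o5homc0 : Matrix.symplecticGroup (Fin 2) F →* Matrix I5 I5 F where
  toFun g := o5mat (g : Matrix I4 I4 F)
  map_one' := o5mat_one
  map_mul' _ h := o5mat_mul' _ _ h.2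

theorem o5act_quad' (g : Matrix I4 I4 F) (hg : g ∈ Matrix.symplecticGroup (Fin 2) F)
    (v : I5 → F) : Cfsg.quadFormOdd 2 F (o5act g v) = Cfsg.quadFormOdd 2 F v := by
  rw [← simAct_one, simAct_quad (isSim_of_mem hg)]
  simp

/-- The homomorphism `Sp_4(F) → O_5(F)`, in every characteristic. -/
noncomputable def o5homc :
    Matrix.symplecticGroup (Fin 2) F →* ↥(Cfsg.isometryGroup F (Cfsg.quadFormOdd 2 F)) :=
  (o5homc0).toHomUnits.codRestrict _ (fun g => by
    intro u v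
    show Cfsg.quadFormOdd 2 F (o5mat (g : Matrix I4 I4 F) *ᵥ u) = Cfsg.quadFormOdd 2 F u
    rw [o5mat_mulVec, o5act_quad' _ g.2])

theorem o5homc_mulVec (g : Matrix.symplecticGroup (Fin 2) F) (v : I5 → F) :
    (((o5homc g : ↥(Cfsg.isometryGroup F (Cfsg.quadFormOdd 2 F))) :
      Matrix.GeneralLinearGroup I5 F) : Matrix I5 I5 F) *ᵥ v = o5act (g : Matrix I4 I4 F) v :=
  o5mat_mulVec _ v

/-- `-1` acts trivially. -/
theorem o5homc_neg_one :
    o5homc (F := F) ⟨-1, SymplecticGroup.neg_mem (one_mem _)⟩ = 1 := by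
  apply Subtype.ext
  apply Units.ext
  show o5mat (-1 : Matrix I4 I4 F) = 1
  have : o5actL (-1 : Matrix I4 I4 F) = LinearMap.id := by
    apply LinearMap.ext
    intro v
    rw [o5actL_apply, LinearMap.id_apply]
    unfold o5act
    simp [o5proj_emb]
  rw [o5mat, this, LinearMap.toMatrix'_id]

/-- The homomorphism is nontrivial. -/
theorem o5homc_J_ne_one : o5homc (F := F) (SymplecticGroup.symJ (Fin 2) F) ≠ 1 := by
  intro h
  have h1 := o5homc_mulVec (SymplecticGroup.symJ (Fin 2) F)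
    (Pi.single (Sum.inr (Sum.inl 0)) (1 : F))
  rw [h] at h1
  have h3 := congrFun h1 (Sum.inr (Sum.inl 0))
  simp [o5act, o5proj, o5emb, Matrix.J, Matrix.mul_apply, Fintype.sum_sum_type,
    Fin.sum_univ_two] at h3

/-- The reflection in `v`, as an isometry of the standard 5-dimensional form. -/
noncomputable def rfl5 (v : I5 → F) : ↥(Cfsg.isometryGroup F (Cfsg.quadFormOdd 2 F)) :=
  Cfsg.Agent.H49.reflG (Cfsg.Agent.H49.QOdd 2 F) v

theorem rfl5_inv (v : I5 → F) : (rfl5 v)⁻¹ = rfl5 v :=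
  Cfsg.Agent.H49.reflG_inv (Cfsg.Agent.H49.QOdd 2 F) v

/-- The set of reflections. -/
def reflSet5 (F : Type*) [Field F] : Set ↥(Cfsg.isometryGroup F (Cfsg.quadFormOdd 2 F)) :=
  {r | ∃ v : I5 → F, Cfsg.quadFormOdd 2 F v ≠ 0 ∧ r = rfl5 v}

theorem reflSet5_eq : reflSet5 F = Cfsg.Agent.H49.reflSet (Cfsg.Agent.H49.QOdd 2 F) := rfl

theorem rfl5_mulVec' (v x : I5 → F) :
    (((rfl5 v : ↥(Cfsg.isometryGroup F (Cfsg.quadFormOdd 2 F))) :
      Matrix.GeneralLinearGroup I5 F) : Matrix I5 I5 F) *ᵥ x =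
      x - ((Cfsg.quadFormOdd 2 F v)⁻¹ * QuadraticMap.polar (Cfsg.quadFormOdd 2 F) v x) • v :=
  Cfsg.Agent.H49.reflectionMatrix_mulVec (Cfsg.Agent.H49.QOdd 2 F) v x

/-- The reflection in `v` as a twisted action. -/
theorem rfl5_mulVec (v x : I5 → F) (hv : Cfsg.quadFormOdd 2 F v ≠ 0) :
    (((rfl5 v : ↥(Cfsg.isometryGroup F (Cfsg.quadFormOdd 2 F))) :
      Matrix.GeneralLinearGroup I5 F) : Matrix I5 I5 F) *ᵥ x =
      simAct (-(Cfsg.quadFormOdd 2 F v)⁻¹) (o5emb v * Matrix.J (Fin 2) F) x := by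
  rw [rfl5_mulVec']
  exact refl_eq_simAct v x hv

/-- Reflections normalise the image of `Sp_4(F)`. -/
theorem refl_conj_mem (v : I5 → F) (hv : Cfsg.quadFormOdd 2 F v ≠ 0)
    (h : Matrix.symplecticGroup (Fin 2) F) :
    rfl5 v * o5homc h * (rfl5 v)⁻¹ ∈ (o5homc (F := F)).range := by
  rw [rfl5_inv]
  obtain ⟨c, hc⟩ : ∃ c : F, c = -(Cfsg.quadFormOdd 2 F v)⁻¹ := ⟨_, rfl⟩
  obtain ⟨g, hg⟩ : ∃ g : Matrix I4 I4 F, g = o5emb v * Matrix.J (Fin 2) F := ⟨_, rfl⟩
  have hgs : IsSim g (Cfsg.quadFormOdd 2 F v) := by rw [hg]; exact isSim_emb v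
  have hsim : IsSim (c • (g * (h : Matrix I4 I4 F) * g)) 1 := by
    have h1 := ((hgs.mul (isSim_of_mem h.2)).mul hgs).smul c
    have h2 : c * c * (Cfsg.quadFormOdd 2 F v * 1 * Cfsg.quadFormOdd 2 F v) = 1 := by
      rw [hc]
      field_simp
    rw [h2] at h1
    exact h1
  refine ⟨⟨c • (g * (h : Matrix I4 I4 F) * g), mem_of_isSim hsim⟩, ?_⟩
  apply Cfsg.Agent.H49.isometry_ext
  intro x
  rw [o5homc_mulVec, Subgroup.coe_mul, Subgroup.coe_mul, Units.val_mul, Units.val_mul,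
    ← Matrix.mulVec_mulVec, ← Matrix.mulVec_mulVec, rfl5_mulVec v x hv, o5homc_mulVec,
    rfl5_mulVec v _ hv, ← hc, ← hg, ← simAct_one, ← simAct_one,
    simAct_simAct hgs, simAct_simAct ((isSim_of_mem h.2).mul hgs)]
  show simAct 1 (c • (g * (h : Matrix I4 I4 F) * g)) x = _
  rw [← simAct_smul_sq]
  congr 1
  · ring
  · rw [Matrix.mul_assoc]

/-- Reflections commute modulo the image of `Sp_4(F)`. -/
theorem refl_comm_mem (v w : I5 → F) (hv : Cfsg.quadFormOdd 2 F v ≠ 0)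
    (hw : Cfsg.quadFormOdd 2 F w ≠ 0) :
    ⁅rfl5 v, rfl5 w⁆ ∈ (o5homc (F := F)).range := by
  rw [commutatorElement_def, rfl5_inv, rfl5_inv]
  obtain ⟨c, hc⟩ : ∃ c : F, c = -(Cfsg.quadFormOdd 2 F v)⁻¹ := ⟨_, rfl⟩
  obtain ⟨d, hd⟩ : ∃ d : F, d = -(Cfsg.quadFormOdd 2 F w)⁻¹ := ⟨_, rfl⟩
  obtain ⟨g, hg⟩ : ∃ g : Matrix I4 I4 F, g = o5emb v * Matrix.J (Fin 2) F := ⟨_, rfl⟩
  obtain ⟨k, hk⟩ : ∃ k : Matrix I4 I4 F, k = o5emb w * Matrix.J (Fin 2) F := ⟨_, rfl⟩
  have hgs : IsSim g (Cfsg.quadFormOdd 2 F v) := by rw [hg]; exact isSim_emb v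
  have hks : IsSim k (Cfsg.quadFormOdd 2 F w) := by rw [hk]; exact isSim_emb w
  have hsim : IsSim ((c * d) • (g * k * (g * k))) 1 := by
    have h1 := ((hgs.mul hks).mul (hgs.mul hks)).smul (c * d)
    have h2 : c * d * (c * d) * (Cfsg.quadFormOdd 2 F v * Cfsg.quadFormOdd 2 F w *
        (Cfsg.quadFormOdd 2 F v * Cfsg.quadFormOdd 2 F w)) = 1 := by
      rw [hc, hd]
      field_simp
    rw [h2] at h1
    exact h1
  refine ⟨⟨(c * d) • (g * k * (g * k)), mem_of_isSim hsim⟩, ?_⟩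
  apply Cfsg.Agent.H49.isometry_ext
  intro x
  rw [o5homc_mulVec, Subgroup.coe_mul, Subgroup.coe_mul, Subgroup.coe_mul, Units.val_mul,
    Units.val_mul, Units.val_mul, ← Matrix.mulVec_mulVec, ← Matrix.mulVec_mulVec,
    ← Matrix.mulVec_mulVec, rfl5_mulVec w x hw, rfl5_mulVec v _ hv, rfl5_mulVec w _ hw,
    rfl5_mulVec v _ hv, ← hc, ← hd, ← hg, ← hk, ← simAct_one,
    simAct_simAct hks, simAct_simAct hks, simAct_simAct (hgs.mul hks)]
  show simAct 1 ((c * d) • (g * k * (g * k))) x = _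
  rw [← simAct_smul_sq]
  congr 1
  ring

/-- Given that reflections generate `O_5(F)`, its commutator subgroup lies in the image of
`Sp_4(F)`. -/
theorem commutator_le_o5homc_range (hCD : Subgroup.closure (reflSet5 F) = ⊤) :
    commutator ↥(Cfsg.isometryGroup F (Cfsg.quadFormOdd 2 F)) ≤ (o5homc (F := F)).range := by
  apply commutator_le_of_gens (reflSet5 F) _ hCD
  · rintro s ⟨v, hv, rfl⟩
    rw [rfl5_inv]
    exact ⟨v, hv, rfl⟩
  · rintro s ⟨v, hv, rfl⟩ n ⟨h, rfl⟩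
    exact refl_conj_mem v hv h
  · rintro s ⟨v, hv, rfl⟩ t ⟨w, hw, rfl⟩
    exact refl_comm_mem v w hv hw

end Cfsg.Agent.H17
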