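import Mathlib
import Cfsg.Prelude.Def_Classical
import Cfsg.Prelude.Def_ClassicalGeometry
import Cfsg.Agent.H17.O5Hom

set_option autoImplicit false

/-! Helper lemmas (helper17): in characteristic two the isometry group of the 5-dimensional form
`x₀² + x₁y₁ + x₂y₂` is generated by reflections (orthogonal transvections). -/

namespace Cfsg.Agent.H17

open Matrix

variable {F : Type*} [Field F]

/-- A vector of the 5-dimensional space from its coordinates. -/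
def vec5 (x₀ a₁ a₂ b₁ b₂ : F) : I5 → F := Sum.elim (fun _ => x₀) (Sum.elim ![a₁, a₂] ![b₁, b₂])

theorem vec5_eta (w : I5 → F) :
    w = vec5 (w (.inl ())) (w (.inr (.inl 0))) (w (.inr (.inl 1))) (w (.inr (.inr 0)))
      (w (.inr (.inr 1))) := by
  ext (i | (i | i))
  · rfl
  · fin_cases i <;> rfl
  · fin_cases i <;> rfl

theorem vec5_add (x₀ a₁ a₂ b₁ b₂ y₀ c₁ c₂ d₁ d₂ : F) :
    vec5 x₀ a₁ a₂ b₁ b₂ + vec5 y₀ c₁ c₂ d₁ d₂ =
      vec5 (x₀ + y₀) (a₁ + c₁) (a₂ + c₂) (b₁ + d₁) (b₂ + d₂) := by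
  ext (i | (i | i))
  · rfl
  · fin_cases i <;> rfl
  · fin_cases i <;> rfl

theorem vec5_smul (c x₀ a₁ a₂ b₁ b₂ : F) :
    c • vec5 x₀ a₁ a₂ b₁ b₂ = vec5 (c * x₀) (c * a₁) (c * a₂) (c * b₁) (c * b₂) := by
  ext (i | (i | i))
  · rfl
  · fin_cases i <;> rfl
  · fin_cases i <;> rfl

theorem vec5_zero : (0 : I5 → F) = vec5 0 0 0 0 0 := by
  ext (i | (i | i))
  · rfl
  · fin_cases i <;> rfl
  · fin_cases i <;> rfl

theorem quad_vec5 (x₀ a₁ a₂ b₁ b₂ : F) :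
    Cfsg.quadFormOdd 2 F (vec5 x₀ a₁ a₂ b₁ b₂) = x₀ ^ 2 + a₁ * b₁ + a₂ * b₂ := by
  simp [Cfsg.quadFormOdd, vec5, Fin.sum_univ_two]
  ring

theorem polar_vec5 (x₀ a₁ a₂ b₁ b₂ y₀ c₁ c₂ d₁ d₂ : F) :
    QuadraticMap.polar (Cfsg.quadFormOdd 2 F) (vec5 x₀ a₁ a₂ b₁ b₂) (vec5 y₀ c₁ c₂ d₁ d₂) =
      2 * x₀ * y₀ + a₁ * d₁ + c₁ * b₁ + a₂ * d₂ + c₂ * b₂ := by
  rw [QuadraticMap.polar, vec5_add, quad_vec5, quad_vec5, quad_vec5]
  ring

/-- The action of an isometry on a vector. -/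
def mv (g : ↥(Cfsg.isometryGroup F (Cfsg.quadFormOdd 2 F))) (x : I5 → F) : I5 → F :=
  ((g : Matrix.GeneralLinearGroup I5 F) : Matrix I5 I5 F) *ᵥ x

theorem mv_mul (g h : ↥(Cfsg.isometryGroup F (Cfsg.quadFormOdd 2 F))) (x : I5 → F) :
    mv (g * h) x = mv g (mv h x) := by
  unfold mv
  rw [Subgroup.coe_mul, Units.val_mul, Matrix.mulVec_mulVec]

theorem mv_one (x : I5 → F) : mv (1 : ↥(Cfsg.isometryGroup F (Cfsg.quadFormOdd 2 F))) x = x := by
  unfold mv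
  simp

theorem mv_quad (g : ↥(Cfsg.isometryGroup F (Cfsg.quadFormOdd 2 F))) (x : I5 → F) :
    Cfsg.quadFormOdd 2 F (mv g x) = Cfsg.quadFormOdd 2 F x :=
  Cfsg.Agent.H49.isometry_apply g x

theorem mv_polar (g : ↥(Cfsg.isometryGroup F (Cfsg.quadFormOdd 2 F))) (x y : I5 → F) :
    QuadraticMap.polar (Cfsg.quadFormOdd 2 F) (mv g x) (mv g y) =
      QuadraticMap.polar (Cfsg.quadFormOdd 2 F) x y :=
  Cfsg.Agent.H49.isometry_polar (Cfsg.Agent.H49.QOdd 2 F) g x y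

theorem mv_add (g : ↥(Cfsg.isometryGroup F (Cfsg.quadFormOdd 2 F))) (x y : I5 → F) :
    mv g (x + y) = mv g x + mv g y := Matrix.mulVec_add _ _ _

theorem mv_smul (g : ↥(Cfsg.isometryGroup F (Cfsg.quadFormOdd 2 F))) (c : F) (x : I5 → F) :
    mv g (c • x) = c • mv g x := Matrix.mulVec_smul _ _ _

theorem q5_sub (x y : I5 → F) :
    Cfsg.quadFormOdd 2 F (x - y) = Cfsg.quadFormOdd 2 F x + Cfsg.quadFormOdd 2 F y -
      QuadraticMap.polar (Cfsg.quadFormOdd 2 F) x y := by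
  have h1 := QuadraticMap.map_add (Cfsg.quadFormOdd 2 F) x (-y)
  have h2 : Cfsg.quadFormOdd 2 F (-y) = Cfsg.quadFormOdd 2 F y :=
    QuadraticMap.map_neg (Cfsg.Agent.H49.QOdd 2 F) y
  have h3 : QuadraticMap.polar (Cfsg.quadFormOdd 2 F) x (-y) =
      -QuadraticMap.polar (Cfsg.quadFormOdd 2 F) x y :=
    QuadraticMap.polar_neg_right (Cfsg.Agent.H49.QOdd 2 F) x y
  rw [sub_eq_add_neg, h1, h2, h3]
  ring

theorem b5_sub_left (x y z : I5 → F) :
    QuadraticMap.polar (Cfsg.quadFormOdd 2 F) (x - y) z =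
      QuadraticMap.polar (Cfsg.quadFormOdd 2 F) x z -
        QuadraticMap.polar (Cfsg.quadFormOdd 2 F) y z :=
  QuadraticMap.polar_sub_left (Cfsg.Agent.H49.QOdd 2 F) x y z

theorem b5_smul_left (c : F) (x z : I5 → F) :
    QuadraticMap.polar (Cfsg.quadFormOdd 2 F) (c • x) z =
      c * QuadraticMap.polar (Cfsg.quadFormOdd 2 F) x z :=
  QuadraticMap.polar_smul_left (Cfsg.Agent.H49.QOdd 2 F) c x z

theorem b5_self (x : I5 → F) :
    QuadraticMap.polar (Cfsg.quadFormOdd 2 F) x x = 2 * Cfsg.quadFormOdd 2 F x := by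
  have := QuadraticMap.polar_self (Cfsg.Agent.H49.QOdd 2 F) x
  rw [two_smul] at this
  rw [two_mul]
  exact this

/-- `x` can be moved to `y` by a product of reflections fixing the vectors of `Z`. -/
def Mv (Z : Set (I5 → F)) (x y : I5 → F) : Prop :=
  ∃ ρ ∈ Subgroup.closure (reflSet5 F), mv ρ x = y ∧ ∀ z ∈ Z, mv ρ z = z

theorem Mv.refl' (Z : Set (I5 → F)) (x : I5 → F) : Mv Z x x :=
  ⟨1, Subgroup.one_mem _, mv_one x, fun z _ => mv_one z⟩

theorem Mv.trans' {Z : Set (I5 → F)} {x y w : I5 → F} (h1 : Mv Z x y) (h2 : Mv Z y w) :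
    Mv Z x w := by
  obtain ⟨ρ, hρ, e1, e2⟩ := h1
  obtain ⟨σ, hσ, e3, e4⟩ := h2
  exact ⟨σ * ρ, Subgroup.mul_mem _ hσ hρ, by rw [mv_mul, e1, e3],
    fun z hz => by rw [mv_mul, e2 z hz, e4 z hz]⟩

theorem Mv.of_refl (Z : Set (I5 → F)) (x u : I5 → F) (hu : Cfsg.quadFormOdd 2 F u ≠ 0)
    (hZ : ∀ z ∈ Z, QuadraticMap.polar (Cfsg.quadFormOdd 2 F) u z = 0) :
    Mv Z x (x - ((Cfsg.quadFormOdd 2 F u)⁻¹ *
      QuadraticMap.polar (Cfsg.quadFormOdd 2 F) u x) • u) :=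
  ⟨rfl5 u, Subgroup.subset_closure ⟨u, hu, rfl⟩, rfl5_mulVec' u x, fun z hz => by
    show (((rfl5 u : ↥(Cfsg.isometryGroup F (Cfsg.quadFormOdd 2 F))) :
      Matrix.GeneralLinearGroup I5 F) : Matrix I5 I5 F) *ᵥ z = z
    rw [rfl5_mulVec', hZ z hz, mul_zero, zero_smul, sub_zero]⟩

theorem Mv.of_polar (h2 : (2 : F) = 0) (Z : Set (I5 → F)) (x y : I5 → F)
    (hQ : Cfsg.quadFormOdd 2 F x = Cfsg.quadFormOdd 2 F y)
    (hp : QuadraticMap.polar (Cfsg.quadFormOdd 2 F) x y ≠ 0)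
    (hZ : ∀ z ∈ Z, QuadraticMap.polar (Cfsg.quadFormOdd 2 F) x z =
      QuadraticMap.polar (Cfsg.quadFormOdd 2 F) y z) : Mv Z x y := by
  have hQu : Cfsg.quadFormOdd 2 F (x - y) = -QuadraticMap.polar (Cfsg.quadFormOdd 2 F) x y := by
    rw [q5_sub, ← hQ]
    linear_combination Cfsg.quadFormOdd 2 F x * h2
  have hBu : QuadraticMap.polar (Cfsg.quadFormOdd 2 F) (x - y) x =
      -QuadraticMap.polar (Cfsg.quadFormOdd 2 F) x y := by
    rw [b5_sub_left, b5_self, QuadraticMap.polar_comm _ y x]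
    linear_combination Cfsg.quadFormOdd 2 F x * h2
  have hu : Cfsg.quadFormOdd 2 F (x - y) ≠ 0 := by
    rw [hQu]
    exact neg_ne_zero.mpr hp
  have h1 := Mv.of_refl Z x (x - y) hu (fun z hz => by rw [b5_sub_left, hZ z hz, sub_self])
  have h3 : x - ((Cfsg.quadFormOdd 2 F (x - y))⁻¹ *
      QuadraticMap.polar (Cfsg.quadFormOdd 2 F) (x - y) x) • (x - y) = y := by
    rw [hBu, ← hQu, inv_mul_cancel₀ hu, one_smul]
    abel
  rw [h3] at h1
  exact h1

theorem Mv.two (h2 : (2 : F) = 0) (Z : Set (I5 → F)) (x y u : I5 → F)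
    (hQ : Cfsg.quadFormOdd 2 F x = Cfsg.quadFormOdd 2 F y)
    (hu : Cfsg.quadFormOdd 2 F u ≠ 0)
    (hux : QuadraticMap.polar (Cfsg.quadFormOdd 2 F) u x ≠ 0)
    (huy : QuadraticMap.polar (Cfsg.quadFormOdd 2 F) u y ≠ 0)
    (hxy : QuadraticMap.polar (Cfsg.quadFormOdd 2 F) x y = 0)
    (hZu : ∀ z ∈ Z, QuadraticMap.polar (Cfsg.quadFormOdd 2 F) u z = 0)
    (hZ : ∀ z ∈ Z, QuadraticMap.polar (Cfsg.quadFormOdd 2 F) x z =
      QuadraticMap.polar (Cfsg.quadFormOdd 2 F) y z) : Mv Z x y := by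
  have h1 := Mv.of_refl Z x u hu hZu
  obtain ⟨c, hc⟩ : ∃ c : F, c = (Cfsg.quadFormOdd 2 F u)⁻¹ *
      QuadraticMap.polar (Cfsg.quadFormOdd 2 F) u x := ⟨_, rfl⟩
  have hc0 : c ≠ 0 := by
    rw [hc]
    exact mul_ne_zero (inv_ne_zero hu) hux
  rw [← hc] at h1
  have hQ' : Cfsg.quadFormOdd 2 F (x - c • u) = Cfsg.quadFormOdd 2 F x := by
    have := Cfsg.Agent.H49.reflection_isometry (Cfsg.Agent.H49.QOdd 2 F) u x
    rw [Cfsg.Agent.H49.reflectionMatrix_mulVec] at this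
    rw [hc]
    exact this
  apply h1.trans'
  apply Mv.of_polar h2
  · rw [hQ', hQ]
  · rw [b5_sub_left, b5_smul_left, hxy, zero_sub]
    exact neg_ne_zero.mpr (mul_ne_zero hc0 huy)
  · intro z hz
    rw [b5_sub_left, b5_smul_left, hZu z hz, mul_zero, sub_zero, hZ z hz]

/-- First step: a non-zero singular vector can be moved to `e₁`. -/
theorem cd5_step1 (h2 : (2 : F) = 0) (x : I5 → F) (hx : x ≠ 0)
    (hQ : Cfsg.quadFormOdd 2 F x = 0) : Mv ∅ x (vec5 0 1 0 0 0) := by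
  obtain ⟨x₀, a₁, a₂, b₁, b₂, rfl⟩ : ∃ x₀ a₁ a₂ b₁ b₂ : F, x = vec5 x₀ a₁ a₂ b₁ b₂ :=
    ⟨_, _, _, _, _, vec5_eta x⟩
  rw [quad_vec5] at hQ
  by_cases hb1 : b₁ = 0
  · subst hb1
    by_cases ha1 : a₁ = 0
    · subst ha1
      by_cases ha2 : a₂ = 0
      · subst ha2
        by_cases hb2 : b₂ = 0
        · subst hb2
          exfalso
          apply hx
          have hx0 : x₀ = 0 := by
            have : x₀ ^ 2 = 0 := by linear_combination hQ
            exact pow_eq_zero_iff (n := 2) (by norm_num) |>.mp this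
          rw [hx0, vec5_zero]
        · apply Mv.two h2 ∅ _ _ (vec5 1 0 1 1 0)
          · rw [quad_vec5, quad_vec5]
            linear_combination hQ
          · rw [quad_vec5]
            norm_num
          · rw [polar_vec5]
            intro h
            apply hb2
            linear_combination h - x₀ * h2
          · rw [polar_vec5]
            norm_num
          · rw [polar_vec5]
            ring
          · intro z hz
            exact absurd hz (Set.notMem_empty z)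
          · intro z hz
            exact absurd hz (Set.notMem_empty z)
      · apply Mv.two h2 ∅ _ _ (vec5 1 0 0 1 1)
        · rw [quad_vec5, quad_vec5]
          linear_combination hQ
        · rw [quad_vec5]
          norm_num
        · rw [polar_vec5]
          intro h
          apply ha2
          linear_combination h - x₀ * h2
        · rw [polar_vec5]
          norm_num
        · rw [polar_vec5]
          ring
        · intro z hz
          exact absurd hz (Set.notMem_empty z)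
        · intro z hz
          exact absurd hz (Set.notMem_empty z)
    · apply Mv.two h2 ∅ _ _ (vec5 1 0 0 1 0)
      · rw [quad_vec5, quad_vec5]
        linear_combination hQ
      · rw [quad_vec5]
        norm_num
      · rw [polar_vec5]
        intro h
        apply ha1
        linear_combination h - x₀ * h2
      · rw [polar_vec5]
        norm_num
      · rw [polar_vec5]
        ring
      · intro z hz
        exact absurd hz (Set.notMem_empty z)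
      · intro z hz
        exact absurd hz (Set.notMem_empty z)
  · apply Mv.of_polar h2
    · rw [quad_vec5, quad_vec5]
      linear_combination hQ
    · rw [polar_vec5]
      intro h
      apply hb1
      linear_combination h
    · intro z hz
      exact absurd hz (Set.notMem_empty z)

/-- Second step. -/
theorem cd5_step2 (h2 : (2 : F) = 0) (x : I5 → F) (hQ : Cfsg.quadFormOdd 2 F x = 0)
    (h1 : QuadraticMap.polar (Cfsg.quadFormOdd 2 F) x (vec5 0 1 0 0 0) = 1) :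
    Mv {vec5 0 1 0 0 0} x (vec5 0 0 0 1 0) := by
  obtain ⟨x₀, a₁, a₂, b₁, b₂, rfl⟩ : ∃ x₀ a₁ a₂ b₁ b₂ : F, x = vec5 x₀ a₁ a₂ b₁ b₂ :=
    ⟨_, _, _, _, _, vec5_eta x⟩
  rw [quad_vec5] at hQ
  rw [polar_vec5] at h1
  have hb1 : b₁ = 1 := by linear_combination h1
  subst hb1
  by_cases ha1 : a₁ = 0
  · subst ha1
    have e1 : Mv {vec5 0 1 0 0 0} (vec5 x₀ 0 a₂ 1 b₂) (vec5 (1 : F) 1 0 1 0) := by
      apply Mv.of_polar h2
      · rw [quad_vec5, quad_vec5]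
        linear_combination hQ - h2
      · rw [polar_vec5]
        intro h
        have : (1 : F) = 0 := by linear_combination h - x₀ * h2
        exact one_ne_zero this
      · intro z hz
        rw [Set.mem_singleton_iff] at hz
        rw [hz, polar_vec5, polar_vec5]
        ring
    have e2 : Mv {vec5 0 1 0 0 0} (vec5 (1 : F) 1 0 1 0) (vec5 0 0 0 1 0) := by
      apply Mv.of_polar h2
      · rw [quad_vec5, quad_vec5]
        linear_combination h2
      · rw [polar_vec5]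
        norm_num
      · intro z hz
        rw [Set.mem_singleton_iff] at hz
        rw [hz, polar_vec5, polar_vec5]
        ring
    exact e1.trans' e2
  · apply Mv.of_polar h2
    · rw [quad_vec5, quad_vec5]
      linear_combination hQ
    · rw [polar_vec5]
      intro h
      apply ha1
      linear_combination h
    · intro z hz
      rw [Set.mem_singleton_iff] at hz
      rw [hz, polar_vec5, polar_vec5]
      ring

/-- Third step. -/
theorem cd5_step3 (h2 : (2 : F) = 0) (x : I5 → F) (hx : x ≠ 0)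
    (hQ : Cfsg.quadFormOdd 2 F x = 0)
    (h1 : QuadraticMap.polar (Cfsg.quadFormOdd 2 F) x (vec5 0 1 0 0 0) = 0)
    (h1' : QuadraticMap.polar (Cfsg.quadFormOdd 2 F) x (vec5 0 0 0 1 0) = 0) :
    Mv {vec5 0 1 0 0 0, vec5 0 0 0 1 0} x (vec5 0 0 1 0 0) := by
  obtain ⟨x₀, a₁, a₂, b₁, b₂, rfl⟩ : ∃ x₀ a₁ a₂ b₁ b₂ : F, x = vec5 x₀ a₁ a₂ b₁ b₂ :=
    ⟨_, _, _, _, _, vec5_eta x⟩
  rw [quad_vec5] at hQ
  rw [polar_vec5] at h1 h1'
  have hb1 : b₁ = 0 := by linear_combination h1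
  have ha1 : a₁ = 0 := by linear_combination h1'
  subst hb1 ha1
  have hZ : ∀ (p q r s t : F), ∀ z ∈ ({vec5 0 1 0 0 0, vec5 0 0 0 1 0} : Set (I5 → F)),
      QuadraticMap.polar (Cfsg.quadFormOdd 2 F) (vec5 p 0 q 0 r) z =
        QuadraticMap.polar (Cfsg.quadFormOdd 2 F) (vec5 s 0 t 0 0) z := by
    intro p q r s t z hz
    rcases hz with hz | hz
    · rw [hz, polar_vec5, polar_vec5]
      ring
    · rw [Set.mem_singleton_iff] at hz
      rw [hz, polar_vec5, polar_vec5]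
      ring
  by_cases hb2 : b₂ = 0
  · subst hb2
    have hx0 : x₀ = 0 := by
      have : x₀ ^ 2 = 0 := by linear_combination hQ
      exact pow_eq_zero_iff (n := 2) (by norm_num) |>.mp this
    subst hx0
    have ha2 : a₂ ≠ 0 := by
      rintro rfl
      exact hx vec5_zero.symm
    apply Mv.two h2 _ _ _ (vec5 1 0 0 0 1)
    · rw [quad_vec5, quad_vec5]
      ring
    · rw [quad_vec5]
      norm_num
    · rw [polar_vec5]
      intro h
      apply ha2
      linear_combination h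
    · rw [polar_vec5]
      norm_num
    · rw [polar_vec5]
      ring
    · intro z hz
      rcases hz with hz | hz
      · rw [hz, polar_vec5]
        ring
      · rw [Set.mem_singleton_iff] at hz
        rw [hz, polar_vec5]
        ring
    · exact hZ _ _ _ _ _
  · apply Mv.of_polar h2
    · rw [quad_vec5, quad_vec5]
      linear_combination hQ
    · rw [polar_vec5]
      intro h
      apply hb2
      linear_combination h
    · exact hZ _ _ _ _ _

/-- Fourth step. -/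
theorem cd5_step4 (h2 : (2 : F) = 0) (x : I5 → F)
    (hQ : Cfsg.quadFormOdd 2 F x = 0)
    (h1 : QuadraticMap.polar (Cfsg.quadFormOdd 2 F) x (vec5 0 1 0 0 0) = 0)
    (h1' : QuadraticMap.polar (Cfsg.quadFormOdd 2 F) x (vec5 0 0 0 1 0) = 0)
    (h1'' : QuadraticMap.polar (Cfsg.quadFormOdd 2 F) x (vec5 0 0 1 0 0) = 1) :
    Mv {vec5 0 1 0 0 0, vec5 0 0 0 1 0, vec5 0 0 1 0 0} x (vec5 0 0 0 0 1) := by
  obtain ⟨x₀, a₁, a₂, b₁, b₂, rfl⟩ : ∃ x₀ a₁ a₂ b₁ b₂ : F, x = vec5 x₀ a₁ a₂ b₁ b₂ :=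
    ⟨_, _, _, _, _, vec5_eta x⟩
  rw [quad_vec5] at hQ
  rw [polar_vec5] at h1 h1' h1''
  have hb1 : b₁ = 0 := by linear_combination h1
  have ha1 : a₁ = 0 := by linear_combination h1'
  have hb2 : b₂ = 1 := by linear_combination h1''
  subst hb1 ha1 hb2
  by_cases ha2 : a₂ = 0
  · subst ha2
    have hx0 : x₀ = 0 := by
      have : x₀ ^ 2 = 0 := by linear_combination hQ
      exact pow_eq_zero_iff (n := 2) (by norm_num) |>.mp this
    subst hx0
    exact Mv.refl' _ _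
  · apply Mv.of_polar h2
    · rw [quad_vec5, quad_vec5]
      linear_combination hQ
    · rw [polar_vec5]
      intro h
      apply ha2
      linear_combination h
    · intro z hz
      rcases hz with hz | hz | hz
      · rw [hz, polar_vec5, polar_vec5]
        ring
      · rw [hz, polar_vec5, polar_vec5]
        ring
      · rw [Set.mem_singleton_iff] at hz
        rw [hz, polar_vec5, polar_vec5]
        ring

theorem mv_ne_zero (g : ↥(Cfsg.isometryGroup F (Cfsg.quadFormOdd 2 F))) (x y : I5 → F)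
    (h : QuadraticMap.polar (Cfsg.quadFormOdd 2 F) x y ≠ 0) : mv g x ≠ 0 := by
  intro h0
  apply h
  rw [← mv_polar g x y, h0, vec5_zero, vec5_eta (mv g y), polar_vec5]
  ring

/-- In characteristic two, an isometry fixing `e₁, f₁, e₂, f₂` is the identity. -/
theorem eq_one_of_fix (h2 : (2 : F) = 0) (g : ↥(Cfsg.isometryGroup F (Cfsg.quadFormOdd 2 F)))
    (he1 : mv g (vec5 0 1 0 0 0) = vec5 0 1 0 0 0) (hf1 : mv g (vec5 0 0 0 1 0) = vec5 0 0 0 1 0)
    (he2 : mv g (vec5 0 0 1 0 0) = vec5 0 0 1 0 0) (hf2 : mv g (vec5 0 0 0 0 1) = vec5 0 0 0 0 1) :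
    g = 1 := by
  have he0 : mv g (vec5 1 0 0 0 0) = vec5 1 0 0 0 0 := by
    obtain ⟨y₀, c₁, c₂, d₁, d₂, hy⟩ : ∃ y₀ c₁ c₂ d₁ d₂ : F,
        mv g (vec5 1 0 0 0 0) = vec5 y₀ c₁ c₂ d₁ d₂ := ⟨_, _, _, _, _, vec5_eta _⟩
    have p1 := mv_polar g (vec5 1 0 0 0 0) (vec5 0 1 0 0 0)
    have p2 := mv_polar g (vec5 1 0 0 0 0) (vec5 0 0 0 1 0)
    have p3 := mv_polar g (vec5 1 0 0 0 0) (vec5 0 0 1 0 0)
    have p4 := mv_polar g (vec5 1 0 0 0 0) (vec5 0 0 0 0 1)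
    have p5 := mv_quad g (vec5 1 0 0 0 0)
    rw [he1, hy, polar_vec5, polar_vec5] at p1
    rw [hf1, hy, polar_vec5, polar_vec5] at p2
    rw [he2, hy, polar_vec5, polar_vec5] at p3
    rw [hf2, hy, polar_vec5, polar_vec5] at p4
    rw [hy, quad_vec5, quad_vec5] at p5
    have hd1 : d₁ = 0 := by linear_combination p1
    have hc1 : c₁ = 0 := by linear_combination p2
    have hd2 : d₂ = 0 := by linear_combination p3
    have hc2 : c₂ = 0 := by linear_combination p4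
    subst hd1 hc1 hd2 hc2
    have hy0 : y₀ = 1 := by
      have h3 : (y₀ - 1) ^ 2 = 0 := by linear_combination p5 + (1 - y₀) * h2
      have h4 : y₀ - 1 = 0 := pow_eq_zero_iff (n := 2) (by norm_num) |>.mp h3
      linear_combination h4
    rw [hy, hy0]
  apply Cfsg.Agent.H49.isometry_ext
  intro x
  show mv g x = mv 1 x
  rw [mv_one]
  have hx : x = x (.inl ()) • vec5 1 0 0 0 0 + x (.inr (.inl 0)) • vec5 0 1 0 0 0 +
      x (.inr (.inl 1)) • vec5 0 0 1 0 0 + x (.inr (.inr 0)) • vec5 0 0 0 1 0 +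
      x (.inr (.inr 1)) • vec5 0 0 0 0 1 := by
    rw [vec5_smul, vec5_smul, vec5_smul, vec5_smul, vec5_smul, vec5_add, vec5_add, vec5_add,
      vec5_add]
    simp only [mul_one, mul_zero, add_zero, zero_add]
    exact vec5_eta x
  rw [hx, mv_add, mv_add, mv_add, mv_add, mv_smul, mv_smul, mv_smul, mv_smul, mv_smul, he0, he1,
    he2, hf1, hf2]

/-- Cartan–Dieudonné for the 5-dimensional form in characteristic two. -/
theorem cd5 (h2 : (2 : F) = 0) : Subgroup.closure (reflSet5 F) = ⊤ := by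
  rw [eq_top_iff]
  intro g _
  -- step 1
  have n1 : mv g (vec5 0 1 0 0 0) ≠ 0 := mv_ne_zero g _ (vec5 0 0 0 1 0) (by
    rw [polar_vec5]; norm_num)
  have q1 : Cfsg.quadFormOdd 2 F (mv g (vec5 0 1 0 0 0)) = 0 := by
    rw [mv_quad, quad_vec5]; ring
  obtain ⟨ρ₁, hρ₁, a1, -⟩ := cd5_step1 h2 _ n1 q1
  obtain ⟨g₁, hg₁⟩ : ∃ g₁, g₁ = ρ₁ * g := ⟨_, rfl⟩
  have e1 : mv g₁ (vec5 0 1 0 0 0) = vec5 0 1 0 0 0 := by rw [hg₁, mv_mul, a1]
  -- step 2
  have q2 : Cfsg.quadFormOdd 2 F (mv g₁ (vec5 0 0 0 1 0)) = 0 := by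
    rw [mv_quad, quad_vec5]; ring
  have p2 : QuadraticMap.polar (Cfsg.quadFormOdd 2 F) (mv g₁ (vec5 0 0 0 1 0))
      (vec5 0 1 0 0 0) = 1 := by
    rw [← e1, mv_polar, polar_vec5]; ring
  obtain ⟨ρ₂, hρ₂, a2, b2⟩ := cd5_step2 h2 _ q2 p2
  obtain ⟨g₂, hg₂⟩ : ∃ g₂, g₂ = ρ₂ * g₁ := ⟨_, rfl⟩
  have e2 : mv g₂ (vec5 0 1 0 0 0) = vec5 0 1 0 0 0 := by
    rw [hg₂, mv_mul, e1]
    exact b2 _ (Set.mem_singleton _)
  have f2 : mv g₂ (vec5 0 0 0 1 0) = vec5 0 0 0 1 0 := by rw [hg₂, mv_mul, a2]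
  -- step 3
  have n3 : mv g₂ (vec5 0 0 1 0 0) ≠ 0 := mv_ne_zero g₂ _ (vec5 0 0 0 0 1) (by
    rw [polar_vec5]; norm_num)
  have q3 : Cfsg.quadFormOdd 2 F (mv g₂ (vec5 0 0 1 0 0)) = 0 := by
    rw [mv_quad, quad_vec5]; ring
  have p3 : QuadraticMap.polar (Cfsg.quadFormOdd 2 F) (mv g₂ (vec5 0 0 1 0 0))
      (vec5 0 1 0 0 0) = 0 := by
    rw [← e2, mv_polar, polar_vec5]; ring
  have p3' : QuadraticMap.polar (Cfsg.quadFormOdd 2 F) (mv g₂ (vec5 0 0 1 0 0))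
      (vec5 0 0 0 1 0) = 0 := by
    rw [← f2, mv_polar, polar_vec5]; ring
  obtain ⟨ρ₃, hρ₃, a3, b3⟩ := cd5_step3 h2 _ n3 q3 p3 p3'
  obtain ⟨g₃, hg₃⟩ : ∃ g₃, g₃ = ρ₃ * g₂ := ⟨_, rfl⟩
  have e3 : mv g₃ (vec5 0 1 0 0 0) = vec5 0 1 0 0 0 := by
    rw [hg₃, mv_mul, e2]
    exact b3 _ (Set.mem_insert _ _)
  have f3 : mv g₃ (vec5 0 0 0 1 0) = vec5 0 0 0 1 0 := by
    rw [hg₃, mv_mul, f2]
    exact b3 _ (Set.mem_insert_of_mem _ (Set.mem_singleton _))
  have ee3 : mv g₃ (vec5 0 0 1 0 0) = vec5 0 0 1 0 0 := by rw [hg₃, mv_mul, a3]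
  -- step 4
  have q4 : Cfsg.quadFormOdd 2 F (mv g₃ (vec5 0 0 0 0 1)) = 0 := by
    rw [mv_quad, quad_vec5]; ring
  have p4 : QuadraticMap.polar (Cfsg.quadFormOdd 2 F) (mv g₃ (vec5 0 0 0 0 1))
      (vec5 0 1 0 0 0) = 0 := by
    rw [← e3, mv_polar, polar_vec5]; ring
  have p4' : QuadraticMap.polar (Cfsg.quadFormOdd 2 F) (mv g₃ (vec5 0 0 0 0 1))
      (vec5 0 0 0 1 0) = 0 := by
    rw [← f3, mv_polar, polar_vec5]; ring
  have p4'' : QuadraticMap.polar (Cfsg.quadFormOdd 2 F) (mv g₃ (vec5 0 0 0 0 1))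
      (vec5 0 0 1 0 0) = 1 := by
    rw [← ee3, mv_polar, polar_vec5]; ring
  obtain ⟨ρ₄, hρ₄, a4, b4⟩ := cd5_step4 h2 _ q4 p4 p4' p4''
  obtain ⟨g₄, hg₄⟩ : ∃ g₄, g₄ = ρ₄ * g₃ := ⟨_, rfl⟩
  have e4 : mv g₄ (vec5 0 1 0 0 0) = vec5 0 1 0 0 0 := by
    rw [hg₄, mv_mul, e3]
    exact b4 _ (Set.mem_insert _ _)
  have f4 : mv g₄ (vec5 0 0 0 1 0) = vec5 0 0 0 1 0 := by
    rw [hg₄, mv_mul, f3]
    exact b4 _ (Set.mem_insert_of_mem _ (Set.mem_insert _ _))
  have ee4 : mv g₄ (vec5 0 0 1 0 0) = vec5 0 0 1 0 0 := by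
    rw [hg₄, mv_mul, ee3]
    exact b4 _ (Set.mem_insert_of_mem _ (Set.mem_insert_of_mem _ (Set.mem_singleton _)))
  have ff4 : mv g₄ (vec5 0 0 0 0 1) = vec5 0 0 0 0 1 := by rw [hg₄, mv_mul, a4]
  have hone := eq_one_of_fix h2 g₄ e4 f4 ee4 ff4
  have hg : g = ρ₁⁻¹ * (ρ₂⁻¹ * (ρ₃⁻¹ * ρ₄⁻¹)) := by
    rw [hg₄, hg₃, hg₂, hg₁] at hone
    have : ρ₄ * (ρ₃ * (ρ₂ * (ρ₁ * g))) * g⁻¹ = g⁻¹ := by rw [hone, one_mul]
    have h3 : g⁻¹ = ρ₄ * (ρ₃ * (ρ₂ * ρ₁)) := by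
      rw [← this]
      group
    rw [← inv_inv g, h3]
    group
  rw [hg]
  exact Subgroup.mul_mem _ (Subgroup.inv_mem _ hρ₁) (Subgroup.mul_mem _ (Subgroup.inv_mem _ hρ₂)
    (Subgroup.mul_mem _ (Subgroup.inv_mem _ hρ₃) (Subgroup.inv_mem _ hρ₄)))

end Cfsg.Agent.H17
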