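import Mathlib
import Cfsg.Prelude.Def_Classical
import Cfsg.Prelude.Def_ClassicalGeometry
import Cfsg.Agent.H17.O5CD2
import Cfsg.Agent.H17.SpPerfect
import Cfsg.Agent.H17.PSpSimple
import Cfsg.Agent.H6.SpCenter
import Cfsg.Agent.H49.CD
import Cfsg.Agent.H49.SimpleForms

set_option autoImplicit false

/-! Helper lemmas (helper17): `PΩ_5(F) ≅ PSp_4(F)` over every field with more than two
elements. -/

namespace Cfsg.Agent.H17

open Matrix

variable {F : Type*} [Field F]

/-- `Sp_4(F)` is perfect over every field with more than two elements. -/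
theorem sp4_perfect (hF : ∃ a : F, a ≠ 0 ∧ a ≠ 1) :
    commutator (Matrix.symplecticGroup (Fin 2) F) = ⊤ := by
  classical
  obtain ⟨a, ha0, ha1⟩ := hF
  by_cases hex : ∃ b : F, b ≠ 0 ∧ b * b ≠ 1
  · obtain ⟨b, hb0, hbb⟩ := hex
    exact commutator_top_of_transv 2 (fun w hw c => comm_case1 2 b hb0 hbb w hw c)
  · push Not at hex
    have haa := hex a ha0
    have h2 : (2 : F) ≠ 0 := by
      intro h2
      apply ha1
      have h5 : (a - 1) * (a - 1) = 0 := by linear_combination haa + (1 - a) * h2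
      have h6 : a - 1 = 0 := mul_self_eq_zero.mp h5
      linear_combination h6
    have hf0 : fVec 2 F ⟨0, by omega⟩ ≠ 0 := by
      intro h0
      have := congrFun h0 (Sum.inr ⟨0, by omega⟩)
      simp [fVec] at this
    apply commutator_top_of_transv
    apply transv_conj_mem 2 _ hf0
    intro c
    exact comm_case2 2 h2 _ (fVec 2 F ⟨1, by omega⟩) (eVec 2 F ⟨1, by omega⟩)
      (sympForm_f_f 2 _ _)
      (by rw [sympForm_f_e]; simp) (by rw [sympForm_f_e]; simp) c

/-- Reflections generate `O_5(F)` in every characteristic. -/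
theorem closure_reflSet5 : Subgroup.closure (reflSet5 F) = ⊤ := by
  by_cases h2 : (2 : F) = 0
  · exact cd5 h2
  · exact Cfsg.Agent.H49.closure_reflSet_eq_top (Cfsg.Agent.H49.QOdd 2 F) h2
      (Cfsg.Agent.H49.QOdd_nondeg 2 h2)

/-- `PΩ_5(F) ≅ PSp_4(F)` over every field with more than two elements. -/
theorem pomega5_equiv_psp4 (hF : ∃ a : F, a ≠ 0 ∧ a ≠ 1) :
    Nonempty (Cfsg.POmega F (Cfsg.quadFormOdd 2 F) ≃*
      (Matrix.symplecticGroup (Fin 2) F ⧸ Subgroup.center (Matrix.symplecticGroup (Fin 2) F))) := by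
  classical
  have hperf := sp4_perfect hF
  have hsimple : IsSimpleGroup (Matrix.symplecticGroup (Fin 2) F ⧸
      Subgroup.center (Matrix.symplecticGroup (Fin 2) F)) := psp_simple 2 (by norm_num) hperf
  obtain ⟨φ, hφ⟩ : ∃ φ : Matrix.symplecticGroup (Fin 2) F →*
      ↥(Cfsg.isometryGroup F (Cfsg.quadFormOdd 2 F)), φ = o5homc := ⟨_, rfl⟩
  have hZK : Subgroup.center (Matrix.symplecticGroup (Fin 2) F) ≤ φ.ker := by
    intro g hg
    have hg' : g ∈ (Subgroup.center (Matrix.symplecticGroup (Fin 2) F) :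
        Set (Matrix.symplecticGroup (Fin 2) F)) := hg
    rw [Cfsg.Agent.H6.center_symplectic_eq] at hg'
    rcases hg' with rfl | h
    · exact Subgroup.one_mem _
    · rw [Set.mem_singleton_iff] at h
      rw [h, MonoidHom.mem_ker, hφ]
      exact o5homc_neg_one
  have hJ : φ (SymplecticGroup.symJ (Fin 2) F) ≠ 1 := by
    rw [hφ]
    exact o5homc_J_ne_one
  have hker : φ.ker = Subgroup.center (Matrix.symplecticGroup (Fin 2) F) :=
    ker_eq_center_of_simple φ hsimple hZK ⟨_, hJ⟩
  have hZne : Subgroup.center (Matrix.symplecticGroup (Fin 2) F) ≠ ⊤ := by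
    intro h
    have : SymplecticGroup.symJ (Fin 2) F ∈ φ.ker := by
      rw [hker, h]
      trivial
    exact hJ this
  have hRC : φ.range ≤ commutator ↥(Cfsg.isometryGroup F (Cfsg.quadFormOdd 2 F)) := by
    rw [MonoidHom.range_eq_map, ← hperf, commutator_def, Subgroup.map_commutator, commutator_def]
    exact Subgroup.commutator_mono le_top le_top
  have hC : commutator ↥(Cfsg.isometryGroup F (Cfsg.quadFormOdd 2 F)) = φ.range := by
    apply le_antisymm _ hRC
    rw [hφ]
    exact commutator_le_o5homc_range closure_reflSet5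
  have e1 : (Matrix.symplecticGroup (Fin 2) F ⧸
      Subgroup.center (Matrix.symplecticGroup (Fin 2) F)) ≃* ↥φ.range :=
    (QuotientGroup.quotientMulEquivOfEq hker.symm).trans (QuotientGroup.quotientKerEquivRange φ)
  have e2 : ↥φ.range ≃* ↥(Cfsg.Omega F (Cfsg.quadFormOdd 2 F)) := MulEquiv.subgroupCongr hC.symm
  have hcenter : Subgroup.center ↥(Cfsg.Omega F (Cfsg.quadFormOdd 2 F)) = ⊥ :=
    center_eq_bot_of_mulEquiv (e1.trans e2) (center_quot_eq_bot hsimple hperf hZne)
  exact ⟨((QuotientGroup.quotientMulEquivOfEq hcenter).trans QuotientGroup.quotientBot).trans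
    (e1.trans e2).symm⟩

end Cfsg.Agent.H17
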