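import Cfsg.Agent.H17.SubSU
import Cfsg.Agent.H99.USpBasic
import Cfsg.Agent.H99.OTv

set_option autoImplicit false

/-! Helper lemmas (helper17): Eichler elements `z ↦ z + h(z,b) a − h(z,a) b` of the unitary
group and their commutators (for the orthogonal subfield subgroups of `SU_n(q)`). -/

namespace Cfsg.Agent.H17

open Cfsg Cfsg.Geo Matrix
open scoped MatrixGroups

section OSubA

variable {F : Type*} [Field F] [Fintype F] {n q : ℕ}

/-- `M` contains the Eichler element `z ↦ z + h(z,b) a − h(z,a) b`. -/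
def EM (q : ℕ) (M : Subgroup (GL (Fin n) F)) (a b : Fin n → F) : Prop :=
  ∃ E ∈ M, ∀ z, H99.act E z = z + hermForm n F q z b • a - hermForm n F q z a • b

omit [Fintype F] in
lemma EM.mono {H M : Subgroup (GL (Fin n) F)} (hHM : H ≤ M) {a b : Fin n → F}
    (h : EM q H a b) : EM q M a b := by
  obtain ⟨E, hE, hEz⟩ := h
  exact ⟨E, hHM hE, hEz⟩

omit [Fintype F] in
lemma EM.congr {M : Subgroup (GL (Fin n) F)} {a b a' b' : Fin n → F} (h : EM q M a b)
    (e : ∀ z, hermForm n F q z b • a - hermForm n F q z a • b =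
      hermForm n F q z b' • a' - hermForm n F q z a' • b') : EM q M a' b' := by
  obtain ⟨E, hE, hEz⟩ := h
  exact ⟨E, hE, fun z => by rw [hEz, add_sub_assoc, e, ← add_sub_assoc]⟩

omit [Fintype F] in
lemma comm_act (X Y : GL (Fin n) F) (c : (Fin n → F) → (Fin n → F))
    (hc : ∀ z, c (H99.act Y (H99.act X z)) = H99.act X (H99.act Y z)) (z : Fin n → F) :
    H99.act (X * Y * X⁻¹ * Y⁻¹) z = c z := by
  obtain ⟨z', hz'⟩ : ∃ z', z = H99.act Y (H99.act X z') :=
    ⟨H99.act X⁻¹ (H99.act Y⁻¹ z), by rw [H99.act_act_inv, H99.act_act_inv]⟩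
  rw [hz', hc, H99.act_mul, H99.act_mul, H99.act_mul, H99.act_inv_act, H99.act_inv_act]

omit [Fintype F] in
lemma EM.conj {M : Subgroup (GL (Fin n) F)} {a b : Fin n → F} (h : EM q M a b)
    {g : GL (Fin n) F} (hg : g ∈ M) (hgU : g ∈ GU n F q) :
    EM q M (H99.act g a) (H99.act g b) := by
  obtain ⟨E, hE, hEz⟩ := h
  refine ⟨g * E * g⁻¹, M.mul_mem (M.mul_mem hg hE) (M.inv_mem hg), fun z => ?_⟩
  have e : ∀ v, hermForm n F q (H99.act g⁻¹ z) v = hermForm n F q z (H99.act g v) :=
    fun v => H95.GU_inv_form hgU z v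
  rw [H99.act_mul, H99.act_mul, hEz, H99.act_sub, H99.act_add, H99.act_smul, H99.act_smul,
    H99.act_act_inv, e, e]

/-- The commutator of two Eichler elements in special position. -/
lemma EM.comm (hF : Fintype.card F = q ^ 2) {M : Subgroup (GL (Fin n) F)}
    {u w a b : Fin n → F} (h1 : EM q M u w) (h2 : EM q M a b)
    (huu : hermForm n F q u u = 0) (huw : hermForm n F q u w = 0)
    (haa : hermForm n F q a a = 0) (hab : hermForm n F q a b = 0)
    (hau : hermForm n F q a u = 0) (haw : hermForm n F q a w = 0)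
    (hbu : hermForm n F q b u = 0) :
    EM q M a (hermForm n F q b w • u) := by
  have hq : q ≠ 0 := by
    have := two_le_of_card_sq hF
    omega
  obtain ⟨X, hX, hXz⟩ := h1
  obtain ⟨Y, hY, hYz⟩ := h2
  have hwu : hermForm n F q w u = 0 := by rw [H95.hermForm_herm hF u w, huw, zero_pow hq]
  have hba : hermForm n F q b a = 0 := by rw [H95.hermForm_herm hF a b, hab, zero_pow hq]
  have hua : hermForm n F q u a = 0 := by rw [H95.hermForm_herm hF a u, hau, zero_pow hq]
  have hwa : hermForm n F q w a = 0 := by rw [H95.hermForm_herm hF a w, haw, zero_pow hq]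
  have hub : hermForm n F q u b = 0 := by rw [H95.hermForm_herm hF b u, hbu, zero_pow hq]
  have hwb : hermForm n F q w b = hermForm n F q b w ^ q := H95.hermForm_herm hF b w
  refine ⟨X * Y * X⁻¹ * Y⁻¹,
    M.mul_mem (M.mul_mem (M.mul_mem hX hY) (M.inv_mem hX)) (M.inv_mem hY),
    comm_act X Y (fun z => z + hermForm n F q z (hermForm n F q b w • u) • a -
      hermForm n F q z a • (hermForm n F q b w • u)) ?_⟩
  intro z
  simp only [hXz, hYz]
  simp only [H95.hermForm_add_left, H99.herm_sub_left, H95.hermForm_smul_left,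
    H95.hermForm_smul_right, huu, hwu, haa, hba, hau, hua, haw, hwa, hbu, hub, hwb]
  module

/-- The commutator of two Eichler elements sharing a vector is a transvection. -/
lemma EM.transv (hF : Fintype.card F = q ^ 2) {M : Subgroup (GL (Fin n) F)}
    {x y y' : Fin n → F} {c d : F} (h1 : EM q M (c • x) y) (h2 : EM q M (d • x) y')
    (hxx : hermForm n F q x x = 0) (hxy : hermForm n F q x y = 0)
    (hxy' : hermForm n F q x y' = 0) (hy'y : hermForm n F q y' y = 1) :
    H95.unitTransv q x (c ^ q * d - d ^ q * c) hxx ∈ M := by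
  have hq : q ≠ 0 := by
    have := two_le_of_card_sq hF
    omega
  obtain ⟨X, hX, hXz⟩ := h1
  obtain ⟨Y, hY, hYz⟩ := h2
  have hyx : hermForm n F q y x = 0 := by rw [H95.hermForm_herm hF x y, hxy, zero_pow hq]
  have hy'x : hermForm n F q y' x = 0 := by rw [H95.hermForm_herm hF x y', hxy', zero_pow hq]
  have hyy' : hermForm n F q y y' = 1 := by rw [H95.hermForm_herm hF y' y, hy'y, one_pow]
  have key : X * Y * X⁻¹ * Y⁻¹ = H95.unitTransv q x (c ^ q * d - d ^ q * c) hxx := by
    apply H99.gl_ext_act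
    intro z
    rw [comm_act X Y (fun z => z + ((c ^ q * d - d ^ q * c) * hermForm n F q z x) • x) ?_ z]
    · exact (H95.unitTransv_mulVec x _ hxx z).symm
    · intro z
      simp only [hXz, hYz]
      simp only [H95.hermForm_add_left, H99.herm_sub_left, H95.hermForm_smul_left,
        H95.hermForm_smul_right, hxx, hxy, hxy', hy'y, hyx, hy'x, hyy']
      module
  rw [← key]
  exact M.mul_mem (M.mul_mem (M.mul_mem hX hY) (M.inv_mem hX)) (M.inv_mem hY)

end OSubA

end Cfsg.Agent.H17
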