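import Cfsg.Agent.H17.OSubA

set_option autoImplicit false

/-! Helper lemmas (helper17): the rational orthogonal structure inside a unitary space
(`O_n(q) < SU_n(q)`, `q` odd): context, rational Eichler elements. -/

namespace Cfsg.Agent.H17

open Cfsg Cfsg.Geo Matrix
open scoped MatrixGroups

section General

variable {F : Type*} [Field F] [Fintype F] {n : ℕ} {Q : (Fin n → F) → F}
  {B : (Fin n → F) → (Fin n → F) → F}

/-- A non-zero vector perpendicular to fewer than `n` given vectors. -/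
theorem exists_perp_nz (C : H99.OCtx Q B) (k : ℕ) (hk : k < n) (s : Fin k → Fin n → F) :
    ∃ x, x ≠ 0 ∧ ∀ j, B x (s j) = 0 := by
  choose L hL using fun j => H99.OF.exists_lin C (s j)
  have h3 := LinearMap.finrank_range_add_finrank_ker (LinearMap.pi L)
  rw [Module.finrank_fin_fun] at h3
  have h4 : Module.finrank F (LinearMap.range (LinearMap.pi L)) ≤ k := by
    calc Module.finrank F (LinearMap.range (LinearMap.pi L))
        ≤ Module.finrank F (Fin k → F) := Submodule.finrank_le _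
      _ = k := by simp
  have h5 : 0 < Module.finrank F (LinearMap.ker (LinearMap.pi L)) := by omega
  obtain ⟨x, hx⟩ := Module.finrank_pos_iff_exists_ne_zero.mp h5
  refine ⟨(x : Fin n → F), fun h => hx (Subtype.ext h), fun j => ?_⟩
  have h6 := x.2
  rw [LinearMap.mem_ker] at h6
  have h7 := congrFun h6 j
  rw [LinearMap.pi_apply, hL] at h7
  exact h7

/-- A non-zero singular vector perpendicular to `k ≤ n − 3` given vectors. -/
theorem exists_sing_nz (C : H99.OCtx Q B) (k : ℕ) (hk : k + 3 ≤ n) (s : Fin k → Fin n → F) :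
    ∃ x, x ≠ 0 ∧ B x x = 0 ∧ ∀ j, B x (s j) = 0 := by
  obtain ⟨x₁, hx₁0, hx₁⟩ := exists_perp_nz C k (by omega) s
  by_cases h1 : B x₁ x₁ = 0
  · exact ⟨x₁, hx₁0, h1, hx₁⟩
  obtain ⟨x₂, hx₂0, hx₂⟩ := exists_perp_nz C (k + 1) (by omega) (Fin.cons x₁ s)
  have hx₂x₁ : B x₂ x₁ = 0 := by simpa using hx₂ 0
  have hx₂s : ∀ j, B x₂ (s j) = 0 := fun j => by simpa using hx₂ j.succ
  by_cases h2 : B x₂ x₂ = 0
  · exact ⟨x₂, hx₂0, h2, hx₂s⟩
  obtain ⟨x₃, hx₃0, hx₃⟩ := exists_perp_nz C (k + 2) (by omega) (Fin.cons x₂ (Fin.cons x₁ s))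
  have hx₃x₂ : B x₃ x₂ = 0 := by simpa using hx₃ 0
  have hx₃x₁ : B x₃ x₁ = 0 := by simpa using hx₃ (Fin.succ 0)
  have hx₃s : ∀ j, B x₃ (s j) = 0 := fun j => by simpa using hx₃ j.succ.succ
  by_cases h3 : B x₃ x₃ = 0
  · exact ⟨x₃, hx₃0, h3, hx₃s⟩
  obtain ⟨b, c, hbc⟩ := H99.OF.exists_sq_sum C.odd (B x₁ x₁) (B x₂ x₂) (B x₃ x₃) h1 h2
  refine ⟨b • x₁ + c • x₂ + x₃, ?_, ?_, ?_⟩
  · intro h0
    have h4 : B (b • x₁ + c • x₂ + x₃) x₃ = 0 := by
      rw [h0]
      exact H99.OF.zero_left C _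
    rw [C.add_left, C.add_left, C.smul_left, C.smul_left, C.symm x₁ x₃, C.symm x₂ x₃, hx₃x₁,
      hx₃x₂, mul_zero, mul_zero, zero_add, zero_add] at h4
    exact h3 h4
  · simp only [C.add_left, H99.OF.add_right C, C.smul_left, H99.OF.smul_right C, hx₂x₁, hx₃x₁,
      hx₃x₂, C.symm x₁ x₂, C.symm x₁ x₃, C.symm x₂ x₃]
    linear_combination hbc
  · intro j
    simp only [C.add_left, C.smul_left, hx₁ j, hx₂s j, hx₃s j]
    ring

end General

section OSubB

variable {F : Type*} [Field F] [Fintype F] {n q : ℕ}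

/-- The rational vectors of the `F₀`-structure spanned by the columns of `P`. -/
def rι (F₀ : Subfield F) (P : GL (Fin n) F) (x : Fin n → F₀) : Fin n → F :=
  H99.act P (emb F₀ x)

omit [Fintype F] in
lemma rι_add (F₀ : Subfield F) (P : GL (Fin n) F) (x y : Fin n → F₀) :
    rι F₀ P (x + y) = rι F₀ P x + rι F₀ P y := by
  unfold rι
  rw [emb_add, H99.act_add]

omit [Fintype F] in
lemma rι_sub (F₀ : Subfield F) (P : GL (Fin n) F) (x y : Fin n → F₀) :
    rι F₀ P (x - y) = rι F₀ P x - rι F₀ P y := by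
  unfold rι
  rw [emb_sub, H99.act_sub]

omit [Fintype F] in
lemma rι_smul (F₀ : Subfield F) (P : GL (Fin n) F) (c : F₀) (x : Fin n → F₀) :
    rι F₀ P (c • x) = (c : F) • rι F₀ P x := by
  unfold rι
  rw [emb_smul, H99.act_smul]

omit [Fintype F] in
lemma rι_zero (F₀ : Subfield F) (P : GL (Fin n) F) : rι F₀ P 0 = 0 := by
  unfold rι
  rw [emb_zero, H99.act_zero]

omit [Fintype F] in
lemma rι_injective (F₀ : Subfield F) (P : GL (Fin n) F) : Function.Injective (rι F₀ P) :=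
  fun _ _ h => emb_injective F₀ (H99.act_injective P h)

omit [Fintype F] in
lemma inV_rι {F₀ : Subfield F} {P : GL (Fin n) F} (x : Fin n → F₀) :
    H99.InV F₀ P (rι F₀ P x) :=
  H99.inV_act (emb_rat F₀ x)

omit [Fintype F] in
lemma exists_rι {F₀ : Subfield F} {P : GL (Fin n) F} {v : Fin n → F} (hv : H99.InV F₀ P v) :
    ∃ x : Fin n → F₀, rι F₀ P x = v := by
  obtain ⟨x, hx⟩ := exists_emb F₀ (H99.act P⁻¹ v) hv
  refine ⟨x, ?_⟩
  unfold rι
  rw [hx, H99.act_act_inv]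

omit [Fintype F] in
lemma inV_smul_rι {F₀ : Subfield F} {P : GL (Fin n) F} {x : Fin n → F₀} (hx0 : x ≠ 0) {c : F}
    (h : H99.InV F₀ P (c • rι F₀ P x)) : c ∈ F₀ := by
  obtain ⟨i, hi⟩ : ∃ i, x i ≠ 0 := by
    by_contra hcon
    push Not at hcon
    exact hx0 (funext hcon)
  have h1 := h i
  unfold rι at h1
  rw [H99.act_smul, H99.act_inv_act] at h1
  have h2 : c * ((x i : F₀) : F) ∈ F₀ := h1
  have h3 : ((x i : F₀) : F) ≠ 0 := fun h' => hi (Subtype.ext h')
  have h4 := F₀.div_mem h2 (x i).2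
  rwa [mul_div_assoc, div_self h3, mul_one] at h4

omit [Fintype F] in
lemma coe_ne {F₀ : Subfield F} {a : F₀} (h : a ≠ 0) : (a : F) ≠ 0 :=
  fun h' => h (Subtype.ext h')

/-- The data of an orthogonal `F₀`-structure (`|F₀| = q` odd) for the standard unitary form:
`θ` is a trace-zero generator of `F` over `F₀` and `B` is the restricted form. -/
structure OSub (q : ℕ) (F₀ : Subfield F) (P : GL (Fin n) F) (θ : F)
    (B : (Fin n → F₀) → (Fin n → F₀) → F₀) : Prop where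
  hF : Fintype.card F = q ^ 2
  hq : Nat.card F₀ = q
  odd : Odd q
  θq : θ ^ q = -θ
  θ0 : θ ≠ 0
  dec : ∀ x : F, ∃ x₁ ∈ F₀, ∃ x₂ ∈ F₀, x = x₁ + θ * x₂
  form : ∀ x y, hermForm n F q (rι F₀ P x) (rι F₀ P y) = ((B x y : F₀) : F)

variable {F₀ : Subfield F} {P : GL (Fin n) F} {θ : F}
  {B : (Fin n → F₀) → (Fin n → F₀) → F₀}

namespace OSub

lemma q1 (S : OSub q F₀ P θ B) : 1 < q := two_le_of_card_sq S.hF

lemma pow_mem (S : OSub q F₀ P θ B) {a : F} (ha : a ∈ F₀) : a ^ q = a :=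
  sub_pow_eq F₀ S.hq ha

lemma mem_of_pow (S : OSub q F₀ P θ B) {a : F} (ha : a ^ q = a) : a ∈ F₀ :=
  mem_of_pow_eq F₀ S.hq S.q1 ha

lemma frob_sub (S : OSub q F₀ P θ B) (a b : F) : (a - b) ^ q = a ^ q - b ^ q := by
  obtain ⟨φ, hφ⟩ := H95.exists_frob S.hF
  rw [← hφ, ← hφ, ← hφ, map_sub]

lemma two (S : OSub q F₀ P θ B) : (2 : F) ≠ 0 := by
  apply Ring.two_ne_zero
  intro hchar
  have h1 := FiniteField.even_card_of_char_two hchar
  rw [S.hF] at h1
  have h3 := Nat.odd_iff.mp (S.odd.pow (n := 2))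
  omega

lemma two₀ (S : OSub q F₀ P θ B) : (2 : F₀) ≠ 0 := by
  intro h
  apply S.two
  have h1 : ((2 : F₀) : F) = ((0 : F₀) : F) := congrArg Subtype.val h
  push_cast at h1
  exact h1

lemma two_mem (_S : OSub q F₀ P θ B) : (2 : F) ∈ F₀ := ofNat_mem F₀ 2

lemma θ_notin (S : OSub q F₀ P θ B) : θ ∉ F₀ := by
  intro h
  have h1 := S.pow_mem h
  rw [S.θq] at h1
  have h2 : 2 * θ = 0 := by linear_combination -h1
  rcases mul_eq_zero.mp h2 with h3 | h3
  · exact S.two h3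
  · exact S.θ0 h3

lemma θθ (S : OSub q F₀ P θ B) : θ * θ ∈ F₀ := by
  apply S.mem_of_pow
  rw [mul_pow, S.θq]
  ring

/-- `r₁ + θ r₂ ∈ F₀` forces `r₂ = 0`. -/
lemma coord (S : OSub q F₀ P θ B) {a b : F} (ha : a ∈ F₀) (hb : b ∈ F₀)
    (h : a + θ * b ∈ F₀) : b = 0 := by
  have h1 := S.pow_mem h
  rw [H95.frob_add S.hF, mul_pow, S.pow_mem ha, S.pow_mem hb, S.θq] at h1
  have h2 : 2 * (θ * b) = 0 := by linear_combination -h1
  rcases mul_eq_zero.mp h2 with h3 | h3
  · exact absurd h3 S.two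
  · rcases mul_eq_zero.mp h3 with h4 | h4
    · exact absurd h4 S.θ0
    · exact h4

lemma coord0 (S : OSub q F₀ P θ B) {a b : F} (ha : a ∈ F₀) (hb : b ∈ F₀)
    (h : a + θ * b = 0) : a = 0 ∧ b = 0 := by
  have hb0 : b = 0 := S.coord ha hb (by rw [h]; exact F₀.zero_mem)
  rw [hb0, mul_zero, add_zero] at h
  exact ⟨h, hb0⟩

/-- Trace-zero elements are `F₀`-multiples of `θ`. -/
lemma tr0 (S : OSub q F₀ P θ B) {c : F} (hc : c + c ^ q = 0) : c * θ⁻¹ ∈ F₀ := by
  apply S.mem_of_pow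
  have h1 : c ^ q = -c := by linear_combination hc
  rw [mul_pow, inv_pow, h1, S.θq, inv_neg, neg_mul_neg]

lemma decomp (S : OSub q F₀ P θ B) (v : Fin n → F) :
    ∃ x₁ x₂ : Fin n → F₀, v = rι F₀ P x₁ + θ • rι F₀ P x₂ := by
  obtain ⟨y₁, y₂, hy⟩ := exists_decomp F₀ S.dec (H99.act P⁻¹ v)
  refine ⟨y₁, y₂, ?_⟩
  unfold rι
  rw [← H99.act_smul, ← H99.act_add, ← hy, H99.act_act_inv]

variable [Fintype F₀]

/-- The orthogonal context of the rational form. -/
lemma octx (S : OSub q F₀ P θ B) : H99.OCtx (fun x => B x x / 2) B where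
  odd := by
    rw [← Nat.card_eq_fintype_card, S.hq]
    exact Nat.odd_iff.mp S.odd
  two := S.two₀
  add_left := fun x y v => by
    apply Subtype.ext
    rw [Subfield.coe_add, ← S.form, ← S.form, ← S.form, rι_add, H95.hermForm_add_left]
  smul_left := fun c x v => by
    apply Subtype.ext
    rw [Subfield.coe_mul, ← S.form, ← S.form, rι_smul, H95.hermForm_smul_left]
  symm := fun x y => by
    apply Subtype.ext
    rw [← S.form x y, H95.hermForm_herm S.hF (rι F₀ P y) (rι F₀ P x), S.form,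
      S.pow_mem (B y x).2]
  self := fun x => by
    have := S.two₀
    field_simp
  nondeg := fun v hv => by
    by_contra hcon
    push Not at hcon
    apply hv
    have h2 : ∀ z : Fin n → F, hermForm n F q z (rι F₀ P v) = 0 := by
      intro z
      obtain ⟨z₁, z₂, rfl⟩ := S.decomp z
      rw [H95.hermForm_add_left, H95.hermForm_smul_left, S.form, S.form, hcon, hcon]
      simp
    have h3 : rι F₀ P v = 0 := by
      by_contra h
      obtain ⟨x, hx⟩ := H99.herm_nondeg (q := q) h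
      exact hx (h2 x)
    exact rι_injective F₀ P (h3.trans (rι_zero F₀ P).symm)

omit [Fintype F₀] in
/-- Rational Eichler elements lie in the subfield subgroup. -/
lemma ratE (S : OSub q F₀ P θ B) (w u : Fin n → F₀) (hw : B w w = 0) (huw : B u w = 0) :
    ∃ E ∈ subfieldSubgroup F₀ P ⊓ (GU n F q ⊓ specialLinear (Fin n) F), ∀ z,
      H99.act E z = z + (hermForm n F q z (rι F₀ P w) • rι F₀ P u +
        (-hermForm n F q z (rι F₀ P u)) • rι F₀ P w +
          (-(((B u u : F₀) : F) / 2) * hermForm n F q z (rι F₀ P w)) • rι F₀ P w) := by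
  have hb : -(((B u u : F₀) : F) / 2) ∈ F₀ :=
    F₀.neg_mem (F₀.div_mem (B u u).2 S.two_mem)
  obtain ⟨E, hE, hEz⟩ := H95.exists_eichler S.hF (rι F₀ P w) (rι F₀ P u)
    (-(((B u u : F₀) : F) / 2))
    (by simp [S.form, hw]) (by simp [S.form, huw])
    (by
      rw [S.pow_mem hb, S.form]
      have := S.two
      field_simp
      ring)
  refine ⟨E, Subgroup.mem_inf.mpr ⟨?_, hE⟩, hEz⟩
  apply H99.mem_subfield_of_inV E 1 one_ne_zero
  intro v hv
  obtain ⟨x, rfl⟩ := exists_rι hv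
  rw [one_smul]
  have e : H99.act E (rι F₀ P x) = _ := hEz (rι F₀ P x)
  rw [e, S.form, S.form]
  exact H99.inV_add (inV_rι x) (H99.inV_add (H99.inV_add (H99.inV_smul (B x w).2 (inV_rι u))
    (H99.inV_smul (F₀.neg_mem (B x u).2) (inV_rι w)))
    (H99.inV_smul (F₀.mul_mem hb (B x w).2) (inV_rι w)))

/-- The rational Eichler elements of singular pairs. -/
lemma ratEM (S : OSub q F₀ P θ B) (x y : Fin n → F₀) (hx : B x x = 0) (hy : B y y = 0)
    (hxy : B x y = 0) (d : F) (hd : d ∈ F₀) :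
    EM q (subfieldSubgroup F₀ P ⊓ (GU n F q ⊓ specialLinear (Fin n) F)) (d • rι F₀ P x)
      (rι F₀ P y) := by
  have C := S.octx
  obtain ⟨E, hE, hEz⟩ := S.ratE y ((⟨d, hd⟩ : F₀) • x) hy (by rw [C.smul_left, hxy, mul_zero])
  refine ⟨E, hE, fun z => ?_⟩
  have h0 : B ((⟨d, hd⟩ : F₀) • x) ((⟨d, hd⟩ : F₀) • x) = 0 := by
    rw [C.smul_left, H99.OF.smul_right C, hx, mul_zero, mul_zero]
  have e : rι F₀ P ((⟨d, hd⟩ : F₀) • x) = d • rι F₀ P x := rι_smul F₀ P _ x
  rw [hEz, h0, e]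
  simp only [ZeroMemClass.coe_zero, zero_div, neg_zero, zero_mul, zero_smul, add_zero]
  module

/-- A rational Siegel element moving a singular vector to a perpendicular independent one. -/
lemma move (S : OSub q F₀ P θ B) (v r : Fin n → F₀) (hv : B v v = 0) (hr : B r r = 0)
    (hvr : B v r = 0) (hv0 : v ≠ 0) (hrv : ¬ ∃ c : F₀, r = c • v) :
    ∃ E ∈ subfieldSubgroup F₀ P ⊓ (GU n F q ⊓ specialLinear (Fin n) F),
      H99.act E (rι F₀ P v) = rι F₀ P r := by
  have C := S.octx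
  have hd : B (r - v) (r - v) = 0 := by
    simp only [H99.OF.sub_left C, H99.OF.sub_right C, hv, hr, hvr, C.symm r v]
    ring
  have hvd : B v (r - v) = 0 := by rw [H99.OF.sub_right C, hvr, hv, sub_zero]
  obtain ⟨x, hxd, hxv⟩ : ∃ x, B x (r - v) = 0 ∧ B x v ≠ 0 := by
    by_contra hcon
    push Not at hcon
    obtain ⟨k, hk⟩ := H99.OF.span_of_perp C (r - v) v hcon
    by_cases hk0 : k = 0
    · rw [hk0, zero_smul] at hk
      exact hv0 hk
    · apply hrv
      have h3 : k⁻¹ • v = r - v := by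
        have h4 := congrArg (fun t => k⁻¹ • t) hk
        simpa [smul_smul, inv_mul_cancel₀ hk0] using h4
      exact ⟨1 + k⁻¹, by rw [add_smul, one_smul, h3]; abel⟩
  obtain ⟨E, hE, hEz⟩ := S.ratE (r - v) (-((B x v)⁻¹ • x)) hd
    (by rw [H99.OF.neg_left C, C.smul_left, hxd, mul_zero, neg_zero])
  refine ⟨E, hE, ?_⟩
  have e1 : B v (-((B x v)⁻¹ • x)) = -1 := by
    rw [H99.OF.neg_right C, H99.OF.smul_right C, C.symm v x, inv_mul_cancel₀ hxv]
  rw [hEz, S.form, S.form, hvd, e1, rι_sub]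
  simp only [ZeroMemClass.coe_zero, zero_smul, mul_zero, add_zero, zero_add]
  push_cast
  module

end OSub

end OSubB

end Cfsg.Agent.H17
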