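import Cfsg.Agent.H17.OSubB

set_option autoImplicit false

/-! Helper lemmas (helper17): an overgroup of the orthogonal subfield subgroup of `SU_n(q)`
containing an irrational Eichler element of a rational singular pair contains all unitary
transvections. -/

namespace Cfsg.Agent.H17

open Cfsg Cfsg.Geo Matrix
open scoped MatrixGroups

section OSubC

variable {F : Type*} [Field F] [Fintype F] {n q : ℕ} {F₀ : Subfield F} {P : GL (Fin n) F}
  {θ : F} {B : (Fin n → F₀) → (Fin n → F₀) → F₀} [Fintype F₀]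

namespace OSub

/-- An irrational Eichler element of a rational singular pair gives a full transvection group
at a rational singular point. -/
lemma centre_of_irr (S : OSub q F₀ P θ B) {M : Subgroup (GL (Fin n) F)}
    (hHM : subfieldSubgroup F₀ P ⊓ (GU n F q ⊓ specialLinear (Fin n) F) ≤ M)
    {x y : Fin n → F₀} (hx : B x x = 0) (hy : B y y = 0) (hxy : B x y = 0)
    (hind : ¬ ∃ k : F₀, y = k • x) {c : F} (hc : c ∉ F₀)
    (hE : EM q M (c • rι F₀ P x) (rι F₀ P y)) : rι F₀ P x ∈ H95.uCenters q M := by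
  have C := S.octx
  obtain ⟨z, hzx, hzy⟩ : ∃ z, B z x = 0 ∧ B z y ≠ 0 := by
    by_contra hcon
    push Not at hcon
    exact hind (H99.OF.span_of_perp C x y hcon)
  obtain ⟨y₁, hy₁x, hy₁y⟩ : ∃ y₁, B y₁ x = 0 ∧ B y₁ y = 1 :=
    ⟨(B z y)⁻¹ • z, by rw [C.smul_left, hzx, mul_zero], by rw [C.smul_left, inv_mul_cancel₀ hzy]⟩
  obtain ⟨y', hy'⟩ : ∃ y' : Fin n → F₀, y' = y₁ - (B y₁ y₁ / 2) • y := ⟨_, rfl⟩
  have h1 : B y' y = 1 := by
    rw [hy', H99.OF.sub_left C, C.smul_left, hy, mul_zero, sub_zero, hy₁y]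
  have h2 : B x y' = 0 := by
    rw [hy', H99.OF.sub_right C, H99.OF.smul_right C, C.symm x y₁, hy₁x, hxy, mul_zero, sub_zero]
  have h3 : B y' y' = 0 := by
    rw [hy']
    simp only [H99.OF.sub_left C, H99.OF.sub_right C, C.smul_left, H99.OF.smul_right C, hy, hy₁y,
      C.symm y y₁]
    have := C.two
    field_simp
    ring
  have hxx : hermForm n F q (rι F₀ P x) (rι F₀ P x) = 0 := by simp [S.form, hx]
  refine ⟨hxx, fun s hs => ?_⟩
  have hcq : c ^ q - c ≠ 0 := fun h => hc (S.mem_of_pow (sub_eq_zero.mp h))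
  have hd : s / (c ^ q - c) ∈ F₀ := by
    apply S.mem_of_pow
    have h4 : s ^ q = -s := by linear_combination hs
    rw [div_pow, S.frob_sub, H95.frob_frob S.hF, h4, neg_div, ← div_neg, neg_sub]
  have h2' := (S.ratEM x y' hx h3 h2 _ hd).mono hHM
  have ht := EM.transv S.hF hE h2' hxx (by simp [S.form, hxy]) (by simp [S.form, h2])
    (by simp [S.form, h1])
  have e : c ^ q * (s / (c ^ q - c)) - (s / (c ^ q - c)) ^ q * c = s := by
    rw [S.pow_mem hd]
    field_simp
  rw [e] at ht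
  exact ht

/-- All rational singular points are centres as soon as one is. -/
lemma centres_rat (S : OSub q F₀ P θ B) (hn : 9 ≤ n) {M : Subgroup (GL (Fin n) F)}
    (hHM : subfieldSubgroup F₀ P ⊓ (GU n F q ⊓ specialLinear (Fin n) F) ≤ M)
    {x : Fin n → F₀} (hx0 : x ≠ 0) (hx : B x x = 0) (hxc : rι F₀ P x ∈ H95.uCenters q M)
    (x' : Fin n → F₀) (hx' : B x' x' = 0) : rι F₀ P x' ∈ H95.uCenters q M := by
  have C := S.octx
  by_cases hx'0 : x' = 0
  · have h1 := H95.uCenters_smul S.hF hxc 0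
    rw [zero_smul] at h1
    rw [hx'0, rι_zero]
    exact h1
  obtain ⟨r, z, hr, hrs, hzs, hrz⟩ := H99.OF.exists_sing_new C 2 (by omega) ![x, x']
  have hrx : B r x = 0 := by simpa using hrs 0
  have hrx' : B r x' = 0 := by simpa using hrs 1
  have hzx : B z x = 0 := by simpa using hzs 0
  have hzx' : B z x' = 0 := by simpa using hzs 1
  have hr0 : r ≠ 0 := by
    rintro rfl
    exact hrz (H99.OF.zero_left C z)
  have h1 : ¬ ∃ c : F₀, r = c • x := by
    rintro ⟨c, hc⟩
    apply hrz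
    rw [hc, C.smul_left, C.symm, hzx, mul_zero]
  have h2 : ¬ ∃ c : F₀, x' = c • r := by
    rintro ⟨c, hc⟩
    have hc0 : c ≠ 0 := by
      rintro rfl
      rw [zero_smul] at hc
      exact hx'0 hc
    apply hrz
    have h3 : r = c⁻¹ • x' := by rw [hc, smul_smul, inv_mul_cancel₀ hc0, one_smul]
    rw [h3, C.smul_left, C.symm, hzx', mul_zero]
  obtain ⟨E₁, hE₁, e₁⟩ := S.move x r hx hr (by rw [C.symm, hrx]) hx0 h1
  obtain ⟨E₂, hE₂, e₂⟩ := S.move r x' hr hx' hrx' hr0 h2
  have h4 := H95.uCenters_mulVec (hHM hE₁) hE₁.2.1 hxc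
  change H99.act E₁ (rι F₀ P x) ∈ _ at h4
  rw [e₁] at h4
  have h5 := H95.uCenters_mulVec (hHM hE₂) hE₂.2.1 h4
  change H99.act E₂ (rι F₀ P r) ∈ _ at h5
  rw [e₂] at h5
  exact h5

omit [Fintype F₀] in
/-- Isotropic vectors with singular non-perpendicular components. -/
lemma cen1 (S : OSub q F₀ P θ B) {M : Subgroup (GL (Fin n) F)}
    (hrat : ∀ x, B x x = 0 → rι F₀ P x ∈ H95.uCenters q M)
    (a b : Fin n → F₀) (ha : B a a = 0) (hb : B b b = 0) (hab : B a b ≠ 0) :
    rι F₀ P a + θ • rι F₀ P b ∈ H95.uCenters q M := by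
  have hab' : ((B a b : F₀) : F) ≠ 0 := coe_ne hab
  have h1 := H95.uCenters_transv S.hF (hrat b hb) (hrat a ha) (θ * ((B a b : F₀) : F)⁻¹) (by
    rw [mul_pow, inv_pow, S.pow_mem (B a b).2, S.θq]
    ring)
  rw [S.form] at h1
  have e : θ * ((B a b : F₀) : F)⁻¹ * ((B a b : F₀) : F) = θ := by
    field_simp
  rw [e] at h1
  exact h1

/-- Isotropic vectors with singular components. -/
lemma cen2 (S : OSub q F₀ P θ B) (hn : 7 ≤ n) {M : Subgroup (GL (Fin n) F)}
    (hrat : ∀ x, B x x = 0 → rι F₀ P x ∈ H95.uCenters q M)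
    (a b : Fin n → F₀) (ha : B a a = 0) (hb : B b b = 0) :
    rι F₀ P a + θ • rι F₀ P b ∈ H95.uCenters q M := by
  have C := S.octx
  by_cases hab : B a b = 0
  swap
  · exact S.cen1 hrat a b ha hb hab
  by_cases hdep : ∃ k : F₀, b = k • a
  · obtain ⟨k, rfl⟩ := hdep
    have h1 := H95.uCenters_smul S.hF (hrat a ha) (1 + θ * (k : F))
    have e : (1 + θ * (k : F)) • rι F₀ P a = rι F₀ P a + θ • rι F₀ P (k • a) := by
      rw [rι_smul, add_smul, one_smul, mul_smul]
    rw [e] at h1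
    exact h1
  · obtain ⟨x₀, hx₀a, hx₀b⟩ : ∃ x₀, B x₀ a = 0 ∧ B x₀ b ≠ 0 := by
      by_contra hcon
      push Not at hcon
      exact hdep (H99.OF.span_of_perp C a b hcon)
    obtain ⟨v, hvv, hvs, hvb⟩ := H99.OF.exists_sing C 1 (by omega) ![a] b
      ⟨x₀, fun j => by simpa using hx₀a, hx₀b⟩
    have hva : B v a = 0 := by simpa using hvs 0
    obtain ⟨t, ht⟩ : ∃ t : F₀, (t : F) = θ * θ := ⟨⟨θ * θ, S.θθ⟩, rfl⟩
    have ht0 : t ≠ 0 := by
      intro h0
      rw [h0] at ht
      exact mul_ne_zero S.θ0 S.θ0 ht.symm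
    have ha' : B (a + t • v) (a + t • v) = 0 := by
      simp only [C.add_left, H99.OF.add_right C, C.smul_left, H99.OF.smul_right C, ha, hvv, hva,
        C.symm a v]
      ring
    have hab' : B (a + t • v) b ≠ 0 := by
      rw [C.add_left, C.smul_left, hab, zero_add]
      exact mul_ne_zero ht0 hvb
    have h1 := S.cen1 hrat (a + t • v) b ha' hb hab'
    have hvb' : ((B v b : F₀) : F) ≠ 0 := coe_ne hvb
    have h2 := H95.uCenters_transv S.hF (hrat v hvv) h1 (θ * (-((B v b : F₀) : F)⁻¹)) (by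
      rw [mul_pow, S.pow_mem (F₀.neg_mem (F₀.inv_mem (B v b).2)), S.θq]
      ring)
    have hs : θ * (-((B v b : F₀) : F)⁻¹) *
        hermForm n F q (rι F₀ P (a + t • v) + θ • rι F₀ P b) (rι F₀ P v) = -(θ * θ) := by
      rw [H95.hermForm_add_left, H95.hermForm_smul_left, S.form, S.form, C.add_left, C.smul_left,
        C.symm a v, hva, hvv, C.symm b v]
      push_cast
      field_simp
      ring
    rw [hs, rι_add, rι_smul, ht] at h2
    have e : rι F₀ P a + θ • rι F₀ P b =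
        rι F₀ P a + (θ * θ) • rι F₀ P v + θ • rι F₀ P b + -(θ * θ) • rι F₀ P v := by
      module
    rw [e]
    exact h2

/-- All isotropic vectors are centres as soon as the rational singular ones are. -/
lemma centres_all (S : OSub q F₀ P θ B) (hn : 7 ≤ n) {M : Subgroup (GL (Fin n) F)}
    (hrat : ∀ x, B x x = 0 → rι F₀ P x ∈ H95.uCenters q M)
    (v : Fin n → F) (hv : hermForm n F q v v = 0) : v ∈ H95.uCenters q M := by
  have C := S.octx
  obtain ⟨a, b, rfl⟩ := S.decomp v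
  obtain ⟨t, ht⟩ : ∃ t : F₀, (t : F) = θ * θ := ⟨⟨θ * θ, S.θθ⟩, rfl⟩
  have ht0 : t ≠ 0 := by
    intro h0
    rw [h0] at ht
    exact mul_ne_zero S.θ0 S.θ0 ht.symm
  have hiso : B a a = t * B b b := by
    apply Subtype.ext
    rw [Subfield.coe_mul, ht]
    simp only [H95.hermForm_add_left, H95.hermForm_add_right S.hF, H95.hermForm_smul_left,
      H95.hermForm_smul_right, S.form, S.θq] at hv
    rw [C.symm b a] at hv
    linear_combination hv
  by_cases hb : B b b = 0
  · have ha : B a a = 0 := by rw [hiso, hb, mul_zero]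
    exact S.cen2 hn hrat a b ha hb
  · have ha : B a a ≠ 0 := by
      rw [hiso]
      exact mul_ne_zero ht0 hb
    obtain ⟨v₀, hv₀, hv₀a, hv₀b⟩ : ∃ v₀, B v₀ v₀ = 0 ∧ B v₀ a ≠ 0 ∧ B v₀ b ≠ 0 := by
      have ha0 : a ≠ 0 := by
        rintro rfl
        exact ha (H99.OF.zero_left C 0)
      obtain ⟨v₁, hv₁, hv₁a⟩ := H99.OF.exists_sing0 C (by omega) a ha0
      obtain ⟨x₀, hx₀v, hx₀b⟩ : ∃ x₀, B x₀ v₁ = 0 ∧ B x₀ b ≠ 0 := by
        by_contra hcon
        push Not at hcon
        obtain ⟨k, hk⟩ := H99.OF.span_of_perp C v₁ b hcon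
        apply hb
        rw [hk, C.smul_left, H99.OF.smul_right C, hv₁, mul_zero, mul_zero]
      obtain ⟨v₂, hv₂, hv₂s, hv₂b⟩ := H99.OF.exists_sing C 1 (by omega) ![v₁] b
        ⟨x₀, fun j => by simpa using hx₀v, hx₀b⟩
      have hv₂v₁ : B v₂ v₁ = 0 := by simpa using hv₂s 0
      by_cases h1 : B v₂ a = 0
      · by_cases h2 : B v₁ b = 0
        · refine ⟨v₁ + v₂, ?_, ?_, ?_⟩
          · simp only [C.add_left, H99.OF.add_right C, hv₁, hv₂, hv₂v₁, C.symm v₁ v₂]
            ring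
          · rw [C.add_left, h1, add_zero]
            exact hv₁a
          · rw [C.add_left, h2, zero_add]
            exact hv₂b
        · exact ⟨v₁, hv₁, hv₁a, h2⟩
      · exact ⟨v₂, hv₂, h1, hv₂b⟩
    obtain ⟨s, hs⟩ : ∃ s : F₀, s = -(B b b) / (2 * B v₀ a * B v₀ b) := ⟨_, rfl⟩
    have hs' : 2 * s * B v₀ a * B v₀ b = -(B b b) := by
      rw [hs]
      have := C.two
      field_simp
    obtain ⟨a', ha'⟩ : ∃ a' : Fin n → F₀, a' = a + (s * t * B v₀ b) • v₀ := ⟨_, rfl⟩
    obtain ⟨b', hb'⟩ : ∃ b' : Fin n → F₀, b' = b + (s * B v₀ a) • v₀ := ⟨_, rfl⟩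
    have hb'b' : B b' b' = 0 := by
      rw [hb']
      simp only [C.add_left, H99.OF.add_right C, C.smul_left, H99.OF.smul_right C, hv₀,
        C.symm b v₀]
      linear_combination hs'
    have ha'a' : B a' a' = 0 := by
      rw [ha']
      simp only [C.add_left, H99.OF.add_right C, C.smul_left, H99.OF.smul_right C, hv₀,
        C.symm a v₀]
      linear_combination hiso + t * hs'
    have h1 := S.cen2 hn hrat a' b' ha'a' hb'b'
    have h2 := H95.uCenters_transv S.hF (hrat v₀ hv₀) h1 (-(s : F) * θ) (by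
      rw [mul_pow, S.pow_mem (F₀.neg_mem s.2), S.θq]
      ring)
    have hs2 : hermForm n F q (rι F₀ P a' + θ • rι F₀ P b') (rι F₀ P v₀) =
        ((B v₀ a : F₀) : F) + θ * ((B v₀ b : F₀) : F) := by
      rw [H95.hermForm_add_left, H95.hermForm_smul_left, S.form, S.form, ha', hb', C.add_left,
        C.add_left, C.smul_left, C.smul_left, hv₀, C.symm a v₀, C.symm b v₀, mul_zero, mul_zero,
        add_zero, add_zero]
    rw [hs2, ha', hb', rι_add, rι_add, rι_smul, rι_smul] at h2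
    push_cast at h2
    rw [ht] at h2
    have e : rι F₀ P a + θ • rι F₀ P b =
        rι F₀ P a + ((s : F) * (θ * θ) * ((B v₀ b : F₀) : F)) • rι F₀ P v₀ +
          θ • (rι F₀ P b + ((s : F) * ((B v₀ a : F₀) : F)) • rι F₀ P v₀) +
          (-(s : F) * θ * (((B v₀ a : F₀) : F) + θ * ((B v₀ b : F₀) : F))) • rι F₀ P v₀ := by
      module
    rw [e]
    exact h2

end OSub

end OSubC

end Cfsg.Agent.H17
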