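import Cfsg.Agent.H17.OSubC

set_option autoImplicit false

/-! Helper lemmas (helper17): an overgroup of the orthogonal subfield subgroup of `SU_n(q)`
all of whose Eichler elements at rational singular pairs are rational lies in the subfield
subgroup; maximality of the orthogonal subfield subgroups. -/

namespace Cfsg.Agent.H17

open Cfsg Cfsg.Geo Matrix
open scoped MatrixGroups

section OSubD

variable {F : Type*} [Field F] [Fintype F] {n q : ℕ} {F₀ : Subfield F} {P : GL (Fin n) F}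
  {θ : F} {B : (Fin n → F₀) → (Fin n → F₀) → F₀} [Fintype F₀]

namespace OSub

/-- The rational singular points are mapped to projectively rational points. -/
lemma proj_sing (S : OSub q F₀ P θ B) (hn : 13 ≤ n) {M : Subgroup (GL (Fin n) F)}
    (hHM : subfieldSubgroup F₀ P ⊓ (GU n F q ⊓ specialLinear (Fin n) F) ≤ M)
    (hMG : M ≤ GU n F q ⊓ specialLinear (Fin n) F)
    (hII : ∀ x y : Fin n → F₀, x ≠ 0 → B x x = 0 → B y y = 0 → B x y = 0 →
      (¬ ∃ k : F₀, y = k • x) → ∀ c : F, EM q M (c • rι F₀ P x) (rι F₀ P y) → c ∈ F₀)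
    {g : GL (Fin n) F} (hg : g ∈ M) (x₀ : Fin n → F₀) (hx₀ : B x₀ x₀ = 0) :
    ∃ (l : F) (x' : Fin n → F₀), H99.act g (rι F₀ P x₀) = l • rι F₀ P x' := by
  have C := S.octx
  have hgU : g ∈ GU n F q := (hMG hg).1
  obtain ⟨u₁, u₂, hu⟩ := S.decomp (H99.act g (rι F₀ P x₀))
  obtain ⟨b, hb0, hbb, hbs⟩ := exists_sing_nz C 2 (by omega) ![u₁, u₂]
  have hbu₁ : B b u₁ = 0 := by simpa using hbs 0
  have hbu₂ : B b u₂ = 0 := by simpa using hbs 1
  have hrat_u : ∀ x, B x u₁ = 0 → B x u₂ = 0 →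
      hermForm n F q (rι F₀ P x) (H99.act g (rι F₀ P x₀)) = 0 := by
    intro x h1 h2
    rw [hu, H95.hermForm_add_right S.hF, H95.hermForm_smul_right, S.form, S.form, h1, h2]
    simp
  have hbu := hrat_u b hbu₁ hbu₂
  obtain ⟨v₁, v₂, hv⟩ := S.decomp (H99.act g⁻¹ (rι F₀ P b))
  have hvy : ∀ y, hermForm n F q (rι F₀ P b) (H99.act g (rι F₀ P y)) =
      ((B v₁ y : F₀) : F) + θ * ((B v₂ y : F₀) : F) := by
    intro y
    have h1 : hermForm n F q (rι F₀ P b) (H99.act g (rι F₀ P y)) =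
        hermForm n F q (H99.act g⁻¹ (rι F₀ P b)) (rι F₀ P y) :=
      (H95.GU_inv_form hgU _ _).symm
    rw [h1, hv, H95.hermForm_add_left, H95.hermForm_smul_left, S.form, S.form]
  by_cases hcase : ∀ y', B y' y' = 0 → B y' x₀ = 0 → (B v₁ y' = 0 ∧ B v₂ y' = 0)
  · -- the rational vector `b` is a multiple of `g x₀`
    have hall : ∀ x, B x x₀ = 0 → (B x v₁ = 0 ∧ B x v₂ = 0) := by
      intro x hx
      obtain ⟨s₁, s₂, h1, h2, h3, h4, rfl⟩ := H99.OF.sing_split C 1 (by omega) ![x₀] x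
        (fun j => by simpa using hx)
      have e1 := hcase s₁ h1 (by simpa using h3 0)
      have e2 := hcase s₂ h2 (by simpa using h4 0)
      constructor
      · rw [C.add_left, C.symm s₁, C.symm s₂, e1.1, e2.1, add_zero]
      · rw [C.add_left, C.symm s₁, C.symm s₂, e1.2, e2.2, add_zero]
    obtain ⟨k₁, hk₁⟩ := H99.OF.span_of_perp C x₀ v₁ (fun x hx => (hall x hx).1)
    obtain ⟨k₂, hk₂⟩ := H99.OF.span_of_perp C x₀ v₂ (fun x hx => (hall x hx).2)
    have e1 : H99.act g⁻¹ (rι F₀ P b) = ((k₁ : F) + θ * (k₂ : F)) • rι F₀ P x₀ := by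
      rw [hv, hk₁, hk₂, rι_smul, rι_smul, add_smul, mul_smul]
    have e2 : rι F₀ P b = ((k₁ : F) + θ * (k₂ : F)) • H99.act g (rι F₀ P x₀) := by
      rw [← H99.act_smul, ← e1, H99.act_act_inv]
    have hk : (k₁ : F) + θ * (k₂ : F) ≠ 0 := by
      intro h0
      rw [h0, zero_smul] at e2
      exact hb0 (rι_injective F₀ P (e2.trans (rι_zero F₀ P).symm))
    refine ⟨((k₁ : F) + θ * (k₂ : F))⁻¹, b, ?_⟩
    rw [e2, smul_smul, inv_mul_cancel₀ hk, one_smul]
  · push Not at hcase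
    obtain ⟨y', hy', hy'x, hne⟩ := hcase
    obtain ⟨β, hβ⟩ : ∃ β : F, β = hermForm n F q (rι F₀ P b) (H99.act g (rι F₀ P y')) :=
      ⟨_, rfl⟩
    have hβ0 : β ≠ 0 := by
      intro h0
      rw [hβ, hvy] at h0
      obtain ⟨e1, e2⟩ := S.coord0 (B v₁ y').2 (B v₂ y').2 h0
      exact hne (Subtype.ext e1) (Subtype.ext e2)
    have hind : ¬ ∃ k : F₀, y' = k • x₀ := by
      rintro ⟨k, rfl⟩
      apply hβ0
      rw [hβ, rι_smul, H99.act_smul, H95.hermForm_smul_right, hbu, mul_zero]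
    obtain ⟨w₁, w₂, hw⟩ := S.decomp (H99.act g (rι F₀ P y'))
    have hrat_w : ∀ x, B x w₁ = 0 → B x w₂ = 0 →
        hermForm n F q (rι F₀ P x) (H99.act g (rι F₀ P y')) = 0 := by
      intro x h1 h2
      rw [hw, H95.hermForm_add_right S.hF, H95.hermForm_smul_right, S.form, S.form, h1, h2]
      simp
    have hx₀y' : B x₀ y' = 0 := by rw [C.symm]; exact hy'x
    have hE1 : EM q M (H99.act g (rι F₀ P x₀)) (H99.act g (rι F₀ P y')) := by
      have h1 := ((S.ratEM x₀ y' hx₀ hy' hx₀y' 1 (one_mem F₀)).mono hHM).conj hg hgU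
      rwa [one_smul] at h1
    have hguu : ∀ x y, hermForm n F q (H99.act g (rι F₀ P x)) (H99.act g (rι F₀ P y)) =
        ((B x y : F₀) : F) := by
      intro x y
      rw [← S.form]
      exact H95.GU_form hgU _ _
    have hclaim : ∀ b', B b' b' = 0 →
        β * hermForm n F q (H99.act g (rι F₀ P x₀)) (rι F₀ P b') ∈ F₀ := by
      intro b' hb'
      obtain ⟨a, ha0, haa, has⟩ := exists_sing_nz C 6 (by omega) ![u₁, u₂, w₁, w₂, b, b']
      have hau₁ : B a u₁ = 0 := by simpa using has 0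
      have hau₂ : B a u₂ = 0 := by simpa using has 1
      have haw₁ : B a w₁ = 0 := by simpa using has 2
      have haw₂ : B a w₂ = 0 := by simpa using has 3
      have hab : B a b = 0 := by simpa using has 4
      have hab' : B a b' = 0 := by simpa using has 5
      obtain ⟨a', z, ha'a', ha's, hzs, ha'z⟩ :=
        H99.OF.exists_sing_new C 4 (by omega) ![a, u₁, u₂, b']
      have ha'a : B a' a = 0 := by simpa using ha's 0
      have ha'u₁ : B a' u₁ = 0 := by simpa using ha's 1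
      have ha'u₂ : B a' u₂ = 0 := by simpa using ha's 2
      have ha'b' : B a' b' = 0 := by simpa using ha's 3
      have hza : B z a = 0 := by simpa using hzs 0
      have ha'0 : a' ≠ 0 := by
        rintro rfl
        exact ha'z (H99.OF.zero_left C z)
      have hind' : ¬ ∃ k : F₀, a = k • a' := by
        rintro ⟨k, hk⟩
        have h1 : B z a = k * B a' z := by
          rw [hk, H99.OF.smul_right C, C.symm z a']
        rw [hza] at h1
        have hk0 : k = 0 := by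
          rcases mul_eq_zero.mp h1.symm with h2 | h2
          · exact h2
          · exact absurd h2 ha'z
        rw [hk0, zero_smul] at hk
        exact ha0 hk
      -- first commutator
      have hE2 : EM q M (rι F₀ P a) (rι F₀ P b) := by
        have h1 := (S.ratEM a b haa hbb hab 1 (one_mem F₀)).mono hHM
        rwa [one_smul] at h1
      have hS1 := EM.comm S.hF hE1 hE2 (by simp [hguu, hx₀]) (by simp [hguu, hx₀y'])
        (by simp [S.form, haa]) (by simp [S.form, hab]) (hrat_u a hau₁ hau₂)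
        (hrat_w a haw₁ haw₂) hbu
      rw [← hβ] at hS1
      -- second commutator
      have hE3 : EM q M (rι F₀ P a') (rι F₀ P b') := by
        have h1 := (S.ratEM a' b' ha'a' hb' ha'b' 1 (one_mem F₀)).mono hHM
        rwa [one_smul] at h1
      have hS2 := EM.comm S.hF hS1 hE3 (by simp [S.form, haa])
        (by rw [H95.hermForm_smul_right, hrat_u a hau₁ hau₂, mul_zero])
        (by simp [S.form, ha'a']) (by simp [S.form, ha'b']) (by simp [S.form, ha'a])
        (by rw [H95.hermForm_smul_right, hrat_u a' ha'u₁ ha'u₂, mul_zero])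
        (by rw [S.form, C.symm b' a, hab']; rfl)
      obtain ⟨γ, hγ⟩ : ∃ γ : F, γ = hermForm n F q (rι F₀ P b')
          (β • H99.act g (rι F₀ P x₀)) := ⟨_, rfl⟩
      rw [← hγ] at hS2
      have hS3 : EM q M (γ ^ q • rι F₀ P a') (rι F₀ P a) := by
        refine hS2.congr fun z => ?_
        rw [H95.hermForm_smul_right, H95.hermForm_smul_right, H95.frob_frob S.hF]
        module
      have h5 := hII a' a ha'0 ha'a' haa ha'a hind' _ hS3
      have e3 : γ ^ q = β * hermForm n F q (H99.act g (rι F₀ P x₀)) (rι F₀ P b') := by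
        rw [hγ, H95.hermForm_smul_right, mul_pow, H95.frob_frob S.hF,
          ← H95.hermForm_herm S.hF]
      rw [e3] at h5
      exact h5
    have hall : ∀ x, β * hermForm n F q (H99.act g (rι F₀ P x₀)) (rι F₀ P x) ∈ F₀ := by
      intro x
      obtain ⟨s₁, s₂, h1, h2, -, -, rfl⟩ := H99.OF.sing_split C 0 (by omega) ![] x
        (fun j => j.elim0)
      rw [rι_add, H95.hermForm_add_right S.hF, mul_add]
      exact F₀.add_mem (hclaim s₁ h1) (hclaim s₂ h2)
    obtain ⟨β₁, hβ₁, β₂, hβ₂, hββ⟩ := S.dec β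
    have hux : ∀ x, hermForm n F q (H99.act g (rι F₀ P x₀)) (rι F₀ P x) =
        ((B u₁ x : F₀) : F) + θ * ((B u₂ x : F₀) : F) := by
      intro x
      rw [hu, H95.hermForm_add_left, H95.hermForm_smul_left, S.form, S.form]
    have hzero : (⟨β₁, hβ₁⟩ : F₀) • u₂ + (⟨β₂, hβ₂⟩ : F₀) • u₁ = 0 := by
      apply H99.OF.eq_zero_of_forall C
      intro x
      have h1 := hall x
      rw [hux, hββ] at h1
      have h2 : (β₁ + θ * β₂) * (((B u₁ x : F₀) : F) + θ * ((B u₂ x : F₀) : F)) =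
          (β₁ * ((B u₁ x : F₀) : F) + (θ * θ) * (β₂ * ((B u₂ x : F₀) : F))) +
            θ * (β₁ * ((B u₂ x : F₀) : F) + β₂ * ((B u₁ x : F₀) : F)) := by ring
      rw [h2] at h1
      have h3 := S.coord (F₀.add_mem (F₀.mul_mem hβ₁ (B u₁ x).2)
        (F₀.mul_mem S.θθ (F₀.mul_mem hβ₂ (B u₂ x).2)))
        (F₀.add_mem (F₀.mul_mem hβ₁ (B u₂ x).2) (F₀.mul_mem hβ₂ (B u₁ x).2)) h1
      apply Subtype.ext
      rw [H99.OF.add_right C, H99.OF.smul_right C, H99.OF.smul_right C, C.symm x u₂,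
        C.symm x u₁]
      exact h3
    by_cases hb1 : β₁ = 0
    · have hb2 : β₂ ≠ 0 := by
        rintro rfl
        apply hβ0
        rw [hββ, hb1]
        ring
      have hu₁ : u₁ = 0 := by
        have h5 : (⟨β₁, hβ₁⟩ : F₀) = 0 := Subtype.ext hb1
        rw [h5, zero_smul, zero_add] at hzero
        exact (smul_eq_zero.mp hzero).resolve_left (fun h => hb2 (congrArg Subtype.val h))
      exact ⟨θ, u₂, by rw [hu, hu₁, rι_zero, zero_add]⟩
    · have h6 : (⟨β₁, hβ₁⟩ : F₀) ≠ 0 := fun h => hb1 (congrArg Subtype.val h)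
      have h7 : (⟨β₁, hβ₁⟩ : F₀) • u₂ = -((⟨β₂, hβ₂⟩ : F₀) • u₁) :=
        eq_neg_of_add_eq_zero_left hzero
      have h5 : u₂ = (-((⟨β₁, hβ₁⟩ : F₀)⁻¹ * ⟨β₂, hβ₂⟩)) • u₁ := by
        calc u₂ = (⟨β₁, hβ₁⟩ : F₀)⁻¹ • ((⟨β₁, hβ₁⟩ : F₀) • u₂) := by
              rw [smul_smul, inv_mul_cancel₀ h6, one_smul]
          _ = _ := by rw [h7, smul_neg, smul_smul, neg_smul]
      refine ⟨1 + θ * ((-((⟨β₁, hβ₁⟩ : F₀)⁻¹ * ⟨β₂, hβ₂⟩) : F₀) : F), u₁, ?_⟩
      rw [hu, add_smul, one_smul, mul_smul, ← rι_smul, ← h5]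

/-- All rational points are mapped to projectively rational points. -/
lemma proj_all (S : OSub q F₀ P θ B) (hn : 13 ≤ n) {M : Subgroup (GL (Fin n) F)}
    (hHM : subfieldSubgroup F₀ P ⊓ (GU n F q ⊓ specialLinear (Fin n) F) ≤ M)
    (hMG : M ≤ GU n F q ⊓ specialLinear (Fin n) F)
    (hII : ∀ x y : Fin n → F₀, x ≠ 0 → B x x = 0 → B y y = 0 → B x y = 0 →
      (¬ ∃ k : F₀, y = k • x) → ∀ c : F, EM q M (c • rι F₀ P x) (rι F₀ P y) → c ∈ F₀)
    {g : GL (Fin n) F} (hg : g ∈ M) (x : Fin n → F₀) :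
    ∃ (l : F) (x' : Fin n → F₀), H99.act g (rι F₀ P x) = l • rι F₀ P x' := by
  have C := S.octx
  have hgU : g ∈ GU n F q := (hMG hg).1
  by_cases hxx : B x x = 0
  · exact S.proj_sing hn hHM hMG hII hg x hxx
  · obtain ⟨s₁, s₂, h1, h2, -, -, rfl⟩ := H99.OF.sing_split C 0 (by omega) ![] x
      (fun j => j.elim0)
    have h12 : B s₁ s₂ ≠ 0 := by
      intro h0
      apply hxx
      simp only [C.add_left, H99.OF.add_right C, h1, h2, h0, C.symm s₂ s₁]
      ring
    obtain ⟨l₁, t₁, e₁⟩ := S.proj_sing hn hHM hMG hII hg s₁ h1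
    obtain ⟨l₂, t₂, e₂⟩ := S.proj_sing hn hHM hMG hII hg s₂ h2
    have h3 : l₁ * l₂ ^ q * ((B t₁ t₂ : F₀) : F) = ((B s₁ s₂ : F₀) : F) := by
      have h4 := H95.GU_form hgU (rι F₀ P s₁) (rι F₀ P s₂)
      change hermForm n F q (H99.act g _) (H99.act g _) = _ at h4
      rw [e₁, e₂, H95.hermForm_smul_left, H95.hermForm_smul_right, S.form, S.form] at h4
      linear_combination h4
    have h12' : ((B s₁ s₂ : F₀) : F) ≠ 0 := coe_ne h12
    have hq0 : q ≠ 0 := by
      have := S.q1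
      omega
    have hl₂ : l₂ ≠ 0 := by
      rintro rfl
      rw [zero_pow hq0, mul_zero, zero_mul] at h3
      exact h12' h3.symm
    have ht : ((B t₁ t₂ : F₀) : F) ≠ 0 := by
      intro h0
      rw [h0, mul_zero] at h3
      exact h12' h3.symm
    have hN : l₂ ^ (q + 1) ∈ F₀ := by
      apply S.mem_of_pow
      have h := H95.frob_frob S.hF l₂
      calc (l₂ ^ (q + 1)) ^ q = (l₂ ^ q) ^ q * l₂ ^ q := by ring
        _ = l₂ * l₂ ^ q := by rw [h]
        _ = l₂ ^ (q + 1) := by ring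
    have hμ : l₁ / l₂ ∈ F₀ := by
      have e : l₁ / l₂ = ((B s₁ s₂ : F₀) : F) / ((B t₁ t₂ : F₀) : F) / l₂ ^ (q + 1) := by
        rw [← h3]
        field_simp
        ring
      rw [e]
      exact F₀.div_mem (F₀.div_mem (B s₁ s₂).2 (B t₁ t₂).2) hN
    refine ⟨l₂, (⟨l₁ / l₂, hμ⟩ : F₀) • t₁ + t₂, ?_⟩
    rw [rι_add, H99.act_add, e₁, e₂, rι_add, rι_smul, smul_add, smul_smul]
    congr 2
    show l₁ = l₂ * (l₁ / l₂)
    field_simp

/-- An overgroup all of whose Eichler elements at rational singular pairs are rational lies in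
the subfield subgroup. -/
lemma le_sub (S : OSub q F₀ P θ B) (hn : 13 ≤ n) {M : Subgroup (GL (Fin n) F)}
    (hHM : subfieldSubgroup F₀ P ⊓ (GU n F q ⊓ specialLinear (Fin n) F) ≤ M)
    (hMG : M ≤ GU n F q ⊓ specialLinear (Fin n) F)
    (hII : ∀ x y : Fin n → F₀, x ≠ 0 → B x x = 0 → B y y = 0 → B x y = 0 →
      (¬ ∃ k : F₀, y = k • x) → ∀ c : F, EM q M (c • rι F₀ P x) (rι F₀ P y) → c ∈ F₀) :
    M ≤ subfieldSubgroup F₀ P := by
  intro g hg
  rw [mem_subfield_conj]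
  apply mem_subfield_of_proj
  intro u hu
  obtain ⟨x, rfl⟩ := exists_emb F₀ u hu
  obtain ⟨l, x', e⟩ := S.proj_all hn hHM hMG hII hg x
  refine ⟨l, emb F₀ x', emb_rat F₀ x', ?_⟩
  change H99.act (P⁻¹ * g * P) (emb F₀ x) = _
  rw [H99.act_mul, H99.act_mul]
  change H99.act P⁻¹ (H99.act g (rι F₀ P x)) = _
  rw [e, H99.act_smul]
  unfold rι
  rw [H99.act_inv_act]

/-- The subfield subgroup does not contain the special unitary group. -/
lemma proper (S : OSub q F₀ P θ B) (hn : 5 ≤ n) :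
    ¬ (GU n F q ⊓ specialLinear (Fin n) F ≤ subfieldSubgroup F₀ P) := by
  have C := S.octx
  intro hle
  obtain ⟨x, hx0, hxx, -⟩ := exists_sing_nz C 0 (by omega) ![]
  obtain ⟨y, hy⟩ := C.nondeg x hx0
  have hxx' : hermForm n F q (rι F₀ P x) (rι F₀ P x) = 0 := by simp [S.form, hxx]
  have hθ : θ + θ ^ q = 0 := by
    rw [S.θq]
    ring
  have ht := hle (Subgroup.mem_inf.mpr ⟨H95.unitTransv_mem_GU S.hF _ θ hxx' hθ,
    H95.unitTransv_mem_specialLinear _ θ hxx'⟩)
  obtain ⟨c, hc0, hc⟩ := H99.inV_of_mem_subfield _ ht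
  have e1 : H99.act (H95.unitTransv q (rι F₀ P x) θ hxx') (rι F₀ P x) = rι F₀ P x := by
    have h := H95.unitTransv_mulVec (rι F₀ P x) θ hxx' (rι F₀ P x)
    rw [hxx', mul_zero, zero_smul, add_zero] at h
    exact h
  have e2 : H99.act (H95.unitTransv q (rι F₀ P x) θ hxx') (rι F₀ P y) =
      rι F₀ P y + (θ * ((B y x : F₀) : F)) • rι F₀ P x := by
    have h := H95.unitTransv_mulVec (rι F₀ P x) θ hxx' (rι F₀ P y)
    rw [S.form] at h
    exact h
  have h1 := hc _ (inV_rι x)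
  rw [e1] at h1
  have hcF : c ∈ F₀ := inV_smul_rι hx0 h1
  have h2 := hc _ (inV_rι y)
  rw [e2] at h2
  have h3 : H99.InV F₀ P ((θ * ((B y x : F₀) : F)) • rι F₀ P x) := by
    have h4 := H99.inV_smul (F₀.inv_mem hcF) h2
    rw [smul_smul, inv_mul_cancel₀ hc0, one_smul] at h4
    have h5 := H99.inV_sub h4 (inV_rι y)
    rwa [add_sub_cancel_left] at h5
  have h6 : θ * ((B y x : F₀) : F) ∈ F₀ := inV_smul_rι hx0 h3
  have h7 : θ ∈ F₀ := by
    have h8 := F₀.div_mem h6 (B y x).2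
    rwa [mul_div_assoc, div_self (coe_ne hy), mul_one] at h8
  exact S.θ_notin h7

end OSub

/-- The orthogonal subfield subgroups (type `O_n(q)`, `q` odd) are maximal in `SU_n(q)`. -/
theorem o_subfield_maximal (hF : Fintype.card F = q ^ 2) (hn : 13 ≤ n) (hodd : Odd q)
    (F₀ : Subfield F) (hcard : Fintype.card F = Nat.card F₀ ^ 2) (P : GL (Fin n) F)
    (hP : IsFormRationalStructure (hermForm n F q) F₀ 1 P) :
    IsMaximalIn (GU n F q ⊓ specialLinear (Fin n) F)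
      (subfieldSubgroup F₀ P ⊓ (GU n F q ⊓ specialLinear (Fin n) F)) := by
  classical
  haveI : Fintype F₀ := Fintype.ofFinite F₀
  have hq2 : 2 ≤ q := two_le_of_card_sq hF
  have hq : Nat.card F₀ = q := by
    have h1 : Nat.card F₀ ^ 2 = q ^ 2 := by rw [← hcard, hF]
    exact Nat.pow_left_injective (by norm_num) h1
  obtain ⟨ω, hω, hdec⟩ := exists_omega hF F₀ hq
  obtain ⟨φ, hφ⟩ := H95.exists_frob hF
  have h2 : (2 : F) ≠ 0 := by
    apply Ring.two_ne_zero
    intro hchar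
    have h1 := FiniteField.even_card_of_char_two hchar
    rw [hF] at h1
    have h3 := Nat.odd_iff.mp (hodd.pow (n := 2))
    omega
  obtain ⟨θ, hθ⟩ : ∃ θ : F, θ = ω - ω ^ q := ⟨_, rfl⟩
  have hθq : θ ^ q = -θ := by
    rw [hθ, ← hφ, map_sub, hφ, hφ, H95.frob_frob hF]
    ring
  have hθ0 : θ ≠ 0 := by
    rw [hθ]
    exact sub_ne_zero.mpr (Ne.symm hω)
  have htr : ω + ω ^ q ∈ F₀ := by
    apply mem_of_pow_eq F₀ hq (by omega)
    rw [H95.frob_add hF, H95.frob_frob hF]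
    ring
  have hdec' : ∀ x : F, ∃ x₁ ∈ F₀, ∃ x₂ ∈ F₀, x = x₁ + θ * x₂ := by
    intro x
    obtain ⟨x₁, hx₁, x₂, hx₂, rfl⟩ := hdec x
    refine ⟨x₁ + (ω + ω ^ q) / 2 * x₂,
      F₀.add_mem hx₁ (F₀.mul_mem (F₀.div_mem htr (ofNat_mem F₀ 2)) hx₂), x₂ / 2,
      F₀.div_mem hx₂ (ofNat_mem F₀ 2), ?_⟩
    rw [hθ]
    field_simp
    ring
  obtain ⟨B, hB⟩ : ∃ B : (Fin n → F₀) → (Fin n → F₀) → F₀, ∀ x y,
      hermForm n F q (rι F₀ P x) (rι F₀ P y) = ((B x y : F₀) : F) :=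
    ⟨fun x y => ⟨hermForm n F q (rι F₀ P x) (rι F₀ P y), by
      have h := hP _ _ (emb_rat F₀ x) (emb_rat F₀ y)
      rw [one_mul] at h
      exact h⟩, fun x y => rfl⟩
  have S : OSub q F₀ P θ B := ⟨hF, hq, hodd, hθq, hθ0, hdec', hB⟩
  refine ⟨lt_of_le_of_ne inf_le_right ?_, fun M hHM hMG => ?_⟩
  · intro hEq
    exact S.proper (by omega) (by rw [← hEq]; exact inf_le_left)
  · by_cases hI : ∃ x y : Fin n → F₀, x ≠ 0 ∧ B x x = 0 ∧ B y y = 0 ∧ B x y = 0 ∧
        (¬ ∃ k : F₀, y = k • x) ∧ ∃ c : F, c ∉ F₀ ∧ EM q M (c • rι F₀ P x) (rι F₀ P y)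
    · right
      obtain ⟨x, y, hx0, hx, hy, hxy, hind, c, hc, hE⟩ := hI
      apply le_antisymm hMG
      have h1 := S.centre_of_irr hHM hx hy hxy hind hc hE
      have h3 := S.centres_rat (by omega) hHM hx0 hx h1
      have h4 := S.centres_all (by omega) h3
      exact H95.suGL_le_of_transv hF (by omega) (by omega) M
        (fun v c hv hc => H95.uCenters_of_mem (h4 v hv) c hv hc)
    · left
      apply le_antisymm _ hHM
      have hII : ∀ x y : Fin n → F₀, x ≠ 0 → B x x = 0 → B y y = 0 → B x y = 0 →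
          (¬ ∃ k : F₀, y = k • x) → ∀ c : F, EM q M (c • rι F₀ P x) (rι F₀ P y) → c ∈ F₀ := by
        intro x y hx0 hx hy hxy hind c hE
        by_contra hc
        exact hI ⟨x, y, hx0, hx, hy, hxy, hind, c, hc, hE⟩
      exact le_inf (S.le_sub hn hHM hMG hII) hMG

end OSubD

end Cfsg.Agent.H17
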