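import Cfsg.Agent.H17.PmDefs

set_option autoImplicit false

/-! Calculus of lifts for the S2140 project (`IsLift H c g φ : ∃ h : φ c = 0, τ(c, φ) * g ∈ H`). -/

namespace Cfsg.Agent.H17.Pm

open Cfsg Cfsg.Geo Cfsg.Agent.H17.Mn
open scoped MatrixGroups Matrix

variable {ι : Type} [Fintype ι] [DecidableEq ι] {F : Type*} [Field F]

theorem isLift_one (H : Subgroup (GL ι F)) (c : ι → F) : IsLift H c 1 0 := by
  refine ⟨by simp, ?_⟩
  rw [tvGL_zero_right, mul_one]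
  exact H.one_mem

/-- A transvection `τ(c, φ)` with `c ≠ 0` that is trivial has `φ = 0`. -/
theorem tvGL_eq_one_iff (c : ι → F) (hc : c ≠ 0) (φ : (ι → F) →ₗ[F] F) (h : φ c = 0) :
    H95.tvGL c φ h = 1 ↔ φ = 0 := by
  constructor
  · intro h1
    apply LinearMap.ext
    intro v
    have := congrArg (fun g : GL ι F => (g : Matrix ι ι F) *ᵥ v) h1
    simp only [H95.tvGL_mulVec, Units.val_one, Matrix.one_mulVec] at this
    have h2 : φ v • c = 0 := by simpa using this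
    rcases smul_eq_zero.mp h2 with h3 | h3
    · simpa using h3
    · exact absurd h3 hc
  · rintro rfl
    exact tvGL_zero_right c h

theorem isLift_unique (H : Subgroup (GL ι F)) (c : ι → F) (hc : c ≠ 0)
    (hNT : ∀ (x : ι → F) (φ : (ι → F) →ₗ[F] F) (hφ : φ x = 0),
      H95.tvGL x φ hφ ∈ H → H95.tvGL x φ hφ = 1)
    {g : GL ι F} {φ φ' : (ι → F) →ₗ[F] F} (h : IsLift H c g φ) (h' : IsLift H c g φ') :
    φ = φ' := by
  obtain ⟨h1, h2⟩ := h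
  obtain ⟨h1', h2'⟩ := h'
  have e1 : (-φ') c = 0 := by simp [h1']
  have e2 : (φ + -φ') c = 0 := by simp [h1, h1']
  have key : H95.tvGL c (φ + -φ') e2 ∈ H := by
    have h3 : H95.tvGL c φ h1 * g * (H95.tvGL c φ' h1' * g)⁻¹ ∈ H := H.mul_mem h2 (H.inv_mem h2')
    have h4 : H95.tvGL c φ h1 * g * (H95.tvGL c φ' h1' * g)⁻¹ = H95.tvGL c (φ + -φ') e2 := by
      rw [← tvGL_mul_form c φ (-φ') h1 e1 e2, ← tvGL_inv c φ' h1' e1]
      group
    rwa [h4] at h3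
  have h5 := (tvGL_eq_one_iff c hc _ e2).mp (hNT _ _ _ key)
  rw [← sub_eq_add_neg, sub_eq_zero] at h5
  exact h5

theorem isLift_mul (H : Subgroup (GL ι F)) (c : ι → F) {g g' : GL ι F}
    {φ φ' : (ι → F) →ₗ[F] F} (a : F) (hg : (g : Matrix ι ι F) *ᵥ c = a • c)
    (h : IsLift H c g φ) (h' : IsLift H c g' φ') :
    IsLift H c (g * g')
      (φ + a • (φ' ∘ₗ Matrix.toLin' ((g⁻¹ : GL ι F) : Matrix ι ι F))) := by
  obtain ⟨h1, h2⟩ := h
  obtain ⟨h1', h2'⟩ := h'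
  -- conjugate
  have e0 : (φ' ∘ₗ Matrix.toLin' ((g⁻¹ : GL ι F) : Matrix ι ι F)) ((g : Matrix ι ι F) *ᵥ c) = 0 :=
    conj_tvGL_aux g c φ' h1'
  have hconj := conj_tvGL g c φ' h1' e0
  have e1 : (φ' ∘ₗ Matrix.toLin' ((g⁻¹ : GL ι F) : Matrix ι ι F)) (a • c) = 0 := by
    rw [← hg]; exact e0
  have e2 : (a • (φ' ∘ₗ Matrix.toLin' ((g⁻¹ : GL ι F) : Matrix ι ι F))) c = 0 := by
    rw [LinearMap.smul_apply, ← map_smul]; exact e1
  have e3 : (φ + a • (φ' ∘ₗ Matrix.toLin' ((g⁻¹ : GL ι F) : Matrix ι ι F))) c = 0 := by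
    rw [LinearMap.add_apply, h1, e2, add_zero]
  refine ⟨e3, ?_⟩
  have h3 : H95.tvGL c (φ + a • (φ' ∘ₗ Matrix.toLin' ((g⁻¹ : GL ι F) : Matrix ι ι F))) e3 * (g * g')
      = (H95.tvGL c φ h1 * g) * (H95.tvGL c φ' h1' * g') := by
    rw [← tvGL_mul_form c φ _ h1 e2 e3, ← tvGL_smul a c _ e1 e2]
    have h4 : H95.tvGL (a • c) (φ' ∘ₗ Matrix.toLin' ((g⁻¹ : GL ι F) : Matrix ι ι F)) e1 =
        g * H95.tvGL c φ' h1' * g⁻¹ := by
      rw [hconj]
      congr 1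
      exact hg.symm
    rw [h4]
    group
  rw [h3]
  exact H.mul_mem h2 h2'

theorem comp_tvGL_inv (u : ι → F) (θ : (ι → F) →ₗ[F] F) (hθ : θ u = 0)
    (φ : (ι → F) →ₗ[F] F) :
    φ ∘ₗ Matrix.toLin' (((H95.tvGL u θ hθ)⁻¹ : GL ι F) : Matrix ι ι F) = φ - φ u • θ := by
  have e1 : (-θ) u = 0 := by simp [hθ]
  rw [tvGL_inv u θ hθ e1]
  apply LinearMap.ext
  intro v
  rw [LinearMap.comp_apply, Matrix.toLin'_apply, H95.tvGL_mulVec]
  simp only [LinearMap.neg_apply, map_add, map_smul, smul_eq_mul, LinearMap.sub_apply,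
    LinearMap.smul_apply]
  ring

theorem comp_tvGL (u : ι → F) (θ : (ι → F) →ₗ[F] F) (hθ : θ u = 0)
    (φ : (ι → F) →ₗ[F] F) :
    φ ∘ₗ Matrix.toLin' ((H95.tvGL u θ hθ : GL ι F) : Matrix ι ι F) = φ + φ u • θ := by
  apply LinearMap.ext
  intro v
  rw [LinearMap.comp_apply, Matrix.toLin'_apply, H95.tvGL_mulVec]
  simp only [map_add, map_smul, smul_eq_mul, LinearMap.add_apply, LinearMap.smul_apply]
  ring

end Cfsg.Agent.H17.Pm
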