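import Cfsg.Agent.H17.PmLift
import Cfsg.Agent.H3.PmAbs
import Cfsg.Agent.H4.PmPidx
import Cfsg.Agent.H4.PmArith
import Cfsg.Agent.H15.PmSltr
import Cfsg.Agent.H15.PmFormtr
import Cfsg.Agent.H15.PmCspace
import Cfsg.Agent.H16.PmInvIdx
import Cfsg.Agent.H4.PmCardY
import Cfsg.Agent.H47.PmStr
import Cfsg.Agent.H3.PmB2Kill
import Cfsg.Agent.H84.PmCore
import Cfsg.Agent.H3.PmComm
import Cfsg.Agent.Lib.Helper96.PmN3
import Cfsg.Agent.H16.PmXfer
import Cfsg.Agent.H16.PmExist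
import Cfsg.Agent.H40.PmLinalg

set_option autoImplicit false

/-!
S2140: every proper subgroup of `PSL_n(q)` (`n ≥ 3`, `(n, q) ≠ (4, 2)`) has index at least
`(q^n - 1)/(q - 1)`. Assembly of the team pieces: case B1 (`b1_kill`), the Burnside step in
`GL`-form (`abs_gl`), the dichotomy B1/B2 (`mu1`), and the main theorem (`core`, `main_result`).
-/

namespace Cfsg.Agent.H17.Pm

open Cfsg Cfsg.Geo Cfsg.Agent.H17.Mn
open scoped MatrixGroups Matrix
open Cfsg.Agent.H3.Pm (abs_orbit b2_kill b1_comm)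
open Cfsg.Agent.H4.Pm (exists_prime_index_sep arith_bound card_Yc)
open Cfsg.Agent.H15.Pm (sl_trans sl_form_trans centre_space)
open Cfsg.Agent.H16.Pm (index_of_invariant psl_transfer psl_exists_index)
open Cfsg.Agent.H47.Pm (str)
open Cfsg.Agent.H84.Pm (b1_core)
open Cfsg.Agent.Lib.Helper96.Pm (b1_three_even b1_three_odd)
open Cfsg.Agent.H40.Pm (exists_indep exists_not_mem_span_pair exists_form_three exists_form_three_indep card_eq_two_of)

variable {ι : Type} [Fintype ι] [DecidableEq ι] {F : Type*} [Field F]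

/-- Case B1 is impossible (unless `(n, q) = (4, 2)`). -/
theorem b1_kill [Fintype F] (hn : 3 ≤ Fintype.card ι)
    (hexc : ¬ (Fintype.card ι = 4 ∧ Fintype.card F = 2))
    (H : Subgroup (GL ι F)) (c : ι → F) (hc : c ≠ 0)
    (hL : ∀ g ∈ specialLinear ι F, ∃ φ, IsLift H c g φ)
    (hNT : ∀ (x : ι → F) (φ : (ι → F) →ₗ[F] F) (hφ : φ x = 0),
      H95.tvGL x φ hφ ∈ H → H95.tvGL x φ hφ = 1) : False := by
  rcases Nat.lt_or_ge (Fintype.card ι) 4 with h3 | h4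
  · have h3' : Fintype.card ι = 3 := by omega
    by_cases h2 : (2 : F) = 0
    · exact b1_three_even h3' h2 H c hc hL hNT
    · exact b1_three_odd h3' h2 H c hc hL hNT
  · obtain ⟨e, hce⟩ := exists_indep (by omega) c hc
    by_cases hs : ∃ s : F, s ≠ 0 ∧ s ^ 2 ≠ 1
    · obtain ⟨s, hs0, hs1⟩ := hs
      obtain ⟨u, θ₀, h0u, hu, h0, h0c, h0e, hκ0⟩ := b1_comm h4 H c e hce s hs0 hs1 hL hNT
      obtain ⟨κ, hκ⟩ := hL _ (H95.tvGL_mem_specialLinear u θ₀ h0u)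
      exact (b1_core h4 H c e u hce hu hL hNT θ₀ h0 h0c h0e h0u κ hκ).1 (hκ0 κ hκ)
    · push Not at hs
      obtain ⟨u, hu⟩ := exists_not_mem_span_pair hn c e
      by_cases h2 : (2 : F) = 0
      · have hq : Fintype.card F = 2 := card_eq_two_of h2 hs
        have h5 : 5 ≤ Fintype.card ι := by
          rcases Nat.lt_or_ge (Fintype.card ι) 5 with h | h
          · exact absurd ⟨by omega, hq⟩ hexc
          · exact h
        obtain ⟨θ₀, θ, h0, h0c, h0e, h0u, hθc, hθe, hθu, hne⟩ := exists_form_three_indep h5 c e u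
        obtain ⟨κ, hκ⟩ := hL _ (H95.tvGL_mem_specialLinear u θ₀ h0u)
        obtain ⟨hk0, -, hk⟩ := b1_core h4 H c e u hce hu hL hNT θ₀ h0 h0c h0e h0u κ hκ
        obtain ⟨a, ha⟩ := hk θ hθc hθe hθu
        apply hne ((κ e)⁻¹ * a)
        rw [mul_smul, ← ha, smul_smul, inv_mul_cancel₀ hk0, one_smul]
      · obtain ⟨θ₀, h0, h0c, h0e, h0u⟩ := exists_form_three h4 c e u
        obtain ⟨κ, hκ⟩ := hL _ (H95.tvGL_mem_specialLinear u θ₀ h0u)
        obtain ⟨hk0, hk2, -⟩ := b1_core h4 H c e u hce hu hL hNT θ₀ h0 h0c h0e h0u κ hκ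
        rcases mul_eq_zero.mp hk2 with h | h
        · exact h2 h
        · exact hk0 h


lemma tvGL_congr {c c' : ι → F} {φ φ' : (ι → F) →ₗ[F] F} (hc : c = c') (hφ : φ = φ')
    (h : φ c = 0) (h' : φ' c' = 0) : H95.tvGL c φ h = H95.tvGL c' φ' h' := by
  subst hc; subst hφ; rfl

/-- The group of transvections with centre `c`, as a homomorphism. -/
noncomputable def tauHom (c : ι → F) : Multiplicative ↥(Yc c) →* ↥(specialLinear ι F) where
  toFun y := ⟨H95.tvGL c (Multiplicative.toAdd y).1 (Multiplicative.toAdd y).2,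
    H95.tvGL_mem_specialLinear _ _ _⟩
  map_one' := by
    apply Subtype.ext
    show H95.tvGL c (0 : ↥(Yc c)).1 (0 : ↥(Yc c)).2 = 1
    exact tvGL_zero_right c _
  map_mul' x y := by
    apply Subtype.ext
    show H95.tvGL c (Multiplicative.toAdd x + Multiplicative.toAdd y : ↥(Yc c)).1 _ =
      H95.tvGL c (Multiplicative.toAdd x).1 _ * H95.tvGL c (Multiplicative.toAdd y).1 _
    rw [tvGL_mul_form c _ _ (Multiplicative.toAdd x).2 (Multiplicative.toAdd y).2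
      (Multiplicative.toAdd x + Multiplicative.toAdd y : ↥(Yc c)).2]
    rfl

lemma tauHom_coe (c : ι → F) (y : ↥(Yc c)) :
    ((tauHom c (Multiplicative.ofAdd y) : ↥(specialLinear ι F)) : GL ι F) =
      H95.tvGL c y.1 y.2 := rfl

theorem abs_gl [Fintype F] (hn : 3 ≤ Fintype.card ι) (H : Subgroup (GL ι F)) (c : ι → F)
    (hc : c ≠ 0)
    (hd : H.relIndex (specialLinear ι F) <
      (Fintype.card F ^ Fintype.card ι - 1) / (Fintype.card F - 1))
    (A : AddSubgroup ↥(Yc c)) (hA : A.index.Prime) (g g' : GL ι F)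
    (hg : g ∈ specialLinear ι F) (hg' : g' ∈ specialLinear ι F)
    (h1 : ∀ y : ↥(Yc c), g⁻¹ * H95.tvGL c y.1 y.2 * g ∈ H → y ∈ A)
    (h2 : ∀ y : ↥(Yc c), g'⁻¹ * H95.tvGL c y.1 y.2 * g' ∈ H → y ∈ A) :
    ∃ y : ↥(Yc c), g'⁻¹ * H95.tvGL c y.1 y.2 * g ∈ H := by
  have hconj : ∀ x y : ↥(Yc c), x ≠ 0 → y ≠ 0 →
      ∃ k : ↥(specialLinear ι F), k * tauHom c (Multiplicative.ofAdd x) * k⁻¹ =
        tauHom c (Multiplicative.ofAdd y) := by
    intro x y hx hy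
    have hx' : x.1 ≠ 0 := fun h => hx (Subtype.ext h)
    have hy' : y.1 ≠ 0 := fun h => hy (Subtype.ext h)
    obtain ⟨k, hk, hkc, hky⟩ := sl_form_trans hn c hc x.1 y.1 x.2 y.2 hx' hy'
    refine ⟨⟨k, hk⟩, ?_⟩
    apply Subtype.ext
    show k * H95.tvGL c x.1 x.2 * k⁻¹ = H95.tvGL c y.1 y.2
    rw [conj_tvGL k c x.1 x.2 (conj_tvGL_aux k c x.1 x.2)]
    exact tvGL_congr hkc hky.symm _ _
  have hq : 2 ≤ Fintype.card F := Fintype.one_lt_card
  have : Finite ((ι → F) →ₗ[F] F) := Module.finite_of_finite F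
  have hd' : (H.subgroupOf (specialLinear ι F)).index < 2 * Nat.card ↥(Yc c) := by
    rw [card_Yc c hc]
    exact lt_of_lt_of_le hd (arith_bound _ _ hq (by omega))
  obtain ⟨x, hx⟩ := abs_orbit (H.subgroupOf (specialLinear ι F)) (tauHom c) hconj hd' A hA
    ⟨g, hg⟩ ⟨g', hg'⟩ (fun y hy => h1 y hy) (fun y hy => h2 y hy)
  exact ⟨x, hx⟩


lemma comp_inv_comp (g : GL ι F) (φ : (ι → F) →ₗ[F] F) :
    (φ ∘ₗ Matrix.toLin' ((g⁻¹ : GL ι F) : Matrix ι ι F)) ∘ₗ Matrix.toLin' (g : Matrix ι ι F) = φ := by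
  apply LinearMap.ext
  intro v
  simp only [LinearMap.comp_apply, Matrix.toLin'_apply]
  rw [inv_mulVec_mulVec]

lemma comp_comp_inv (g : GL ι F) (φ : (ι → F) →ₗ[F] F) :
    (φ ∘ₗ Matrix.toLin' (g : Matrix ι ι F)) ∘ₗ Matrix.toLin' ((g⁻¹ : GL ι F) : Matrix ι ι F) = φ := by
  apply LinearMap.ext
  intro v
  simp only [LinearMap.comp_apply, Matrix.toLin'_apply]
  rw [mulVec_inv_mulVec]

/-- `g⁻¹ τ(x, χ) g = τ(g⁻¹ x, χ ∘ g)`. -/
lemma inv_conj_tvGL (g : GL ι F) (x : ι → F) (χ : (ι → F) →ₗ[F] F) (h : χ x = 0)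
    (h' : (χ ∘ₗ Matrix.toLin' (g : Matrix ι ι F)) (((g⁻¹ : GL ι F) : Matrix ι ι F) *ᵥ x) = 0) :
    g⁻¹ * H95.tvGL x χ h * g =
      H95.tvGL (((g⁻¹ : GL ι F) : Matrix ι ι F) *ᵥ x) (χ ∘ₗ Matrix.toLin' (g : Matrix ι ι F)) h' := by
  have h1 := conj_tvGL g⁻¹ x χ h (conj_tvGL_aux g⁻¹ x χ h)
  have h2 : g⁻¹ * H95.tvGL x χ h * g = g⁻¹ * H95.tvGL x χ h * g⁻¹⁻¹ := by rw [inv_inv]
  rw [h2, h1]
  exact tvGL_congr rfl (by rw [inv_inv]) _ _

lemma inv_conj_tvGL_aux (g : GL ι F) (x : ι → F) (χ : (ι → F) →ₗ[F] F) (h : χ x = 0) :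
    (χ ∘ₗ Matrix.toLin' (g : Matrix ι ι F)) (((g⁻¹ : GL ι F) : Matrix ι ι F) *ᵥ x) = 0 := by
  rw [LinearMap.comp_apply, Matrix.toLin'_apply, mulVec_inv_mulVec, h]

/-- The stabiliser (in `Yc c`) of the coset `g H`. -/
def stabY (H : Subgroup (GL ι F)) (c : ι → F) (g : GL ι F) : AddSubgroup ↥(Yc c) where
  carrier := {y | g⁻¹ * H95.tvGL c y.1 y.2 * g ∈ H}
  add_mem' := by
    intro a b ha hb
    have h1 : g⁻¹ * H95.tvGL c (a + b).1 (a + b).2 * g =
        (g⁻¹ * H95.tvGL c a.1 a.2 * g) * (g⁻¹ * H95.tvGL c b.1 b.2 * g) := by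
      rw [show H95.tvGL c (a + b).1 (a + b).2 = H95.tvGL c a.1 a.2 * H95.tvGL c b.1 b.2 from
        (tvGL_mul_form c a.1 b.1 a.2 b.2 (a + b).2).symm]
      group
    show g⁻¹ * H95.tvGL c (a + b).1 (a + b).2 * g ∈ H
    rw [h1]
    exact H.mul_mem ha hb
  zero_mem' := by
    show g⁻¹ * H95.tvGL c (0 : ↥(Yc c)).1 (0 : ↥(Yc c)).2 * g ∈ H
    rw [show H95.tvGL c (0 : ↥(Yc c)).1 (0 : ↥(Yc c)).2 = 1 from tvGL_zero_right c _]
    simp
  neg_mem' := by
    intro a ha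
    have h1 : g⁻¹ * H95.tvGL c (-a).1 (-a).2 * g = (g⁻¹ * H95.tvGL c a.1 a.2 * g)⁻¹ := by
      rw [show H95.tvGL c (-a).1 (-a).2 = (H95.tvGL c a.1 a.2)⁻¹ from
        (tvGL_inv c a.1 a.2 (-a).2).symm]
      group
    show g⁻¹ * H95.tvGL c (-a).1 (-a).2 * g ∈ H
    rw [h1]
    exact H.inv_mem ha

lemma mem_stabY (H : Subgroup (GL ι F)) (c : ι → F) (g : GL ι F) (y : ↥(Yc c)) :
    y ∈ stabY H c g ↔ g⁻¹ * H95.tvGL c y.1 y.2 * g ∈ H := Iff.rfl

/-- Cosets in the same `Q`-orbit have the same stabiliser. -/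
lemma stabY_eq_of_orbit (H : Subgroup (GL ι F)) (c : ι → F) (g g' : GL ι F) (x : ↥(Yc c))
    (hx : g'⁻¹ * H95.tvGL c x.1 x.2 * g ∈ H) : stabY H c g = stabY H c g' := by
  ext y
  rw [mem_stabY, mem_stabY]
  have hcomm : H95.tvGL c x.1 x.2 * H95.tvGL c y.1 y.2 = H95.tvGL c y.1 y.2 * H95.tvGL c x.1 x.2 := by
    rw [tvGL_mul_form c x.1 y.1 x.2 y.2 (x + y).2, tvGL_mul_form c y.1 x.1 y.2 x.2 (y + x).2]
    exact tvGL_congr rfl (add_comm _ _) _ _
  have key : g'⁻¹ * H95.tvGL c y.1 y.2 * g' =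
      (g'⁻¹ * H95.tvGL c x.1 x.2 * g) * (g⁻¹ * H95.tvGL c y.1 y.2 * g) *
        (g'⁻¹ * H95.tvGL c x.1 x.2 * g)⁻¹ := by
    have : (g'⁻¹ * H95.tvGL c x.1 x.2 * g) * (g⁻¹ * H95.tvGL c y.1 y.2 * g) *
        (g'⁻¹ * H95.tvGL c x.1 x.2 * g)⁻¹ =
        g'⁻¹ * (H95.tvGL c x.1 x.2 * H95.tvGL c y.1 y.2) * (H95.tvGL c x.1 x.2)⁻¹ * g' := by
      group
    rw [this, hcomm]
    group
  constructor
  · intro h
    rw [key]
    exact H.mul_mem (H.mul_mem hx h) (H.inv_mem hx)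
  · intro h
    have h2 : g⁻¹ * H95.tvGL c y.1 y.2 * g =
        (g'⁻¹ * H95.tvGL c x.1 x.2 * g)⁻¹ * (g'⁻¹ * H95.tvGL c y.1 y.2 * g') *
          (g'⁻¹ * H95.tvGL c x.1 x.2 * g) := by
      rw [key]; group
    rw [h2]
    exact H.mul_mem (H.mul_mem (H.inv_mem hx) h) hx

/-- Translating the coset by a transvection fixing `c` transforms the stabiliser. -/
lemma stabY_tv_mul (H : Subgroup (GL ι F)) (c : ι → F) (g : GL ι F) (w : ι → F) (θ : ↥(Yc c))
    (hθ : θ.1 w = 0) (y : ↥(Yc c)) :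
    y ∈ stabY H c (H95.tvGL w θ.1 hθ * g) ↔ y + y.1 w • θ ∈ stabY H c g := by
  rw [mem_stabY, mem_stabY]
  have h1 : (H95.tvGL w θ.1 hθ * g)⁻¹ * H95.tvGL c y.1 y.2 * (H95.tvGL w θ.1 hθ * g) =
      g⁻¹ * ((H95.tvGL w θ.1 hθ)⁻¹ * H95.tvGL c y.1 y.2 * H95.tvGL w θ.1 hθ) * g := by
    group
  have h2 : (H95.tvGL w θ.1 hθ)⁻¹ * H95.tvGL c y.1 y.2 * H95.tvGL w θ.1 hθ =
      H95.tvGL c (y + y.1 w • θ).1 (y + y.1 w • θ).2 := by
    rw [inv_conj_tvGL _ c y.1 y.2 (inv_conj_tvGL_aux _ c y.1 y.2)]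
    apply tvGL_congr
    · have e1 : (-θ.1) w = 0 := by simp [hθ]
      rw [tvGL_inv w θ.1 hθ e1, H95.tvGL_mulVec]
      have : θ.1 c = 0 := θ.2
      simp [this]
    · rw [comp_tvGL]
      rfl
  rw [h1, h2]


/-- Case B: either (B1) `G = Q_c' H` and `H` has no transvections, or (B2) every `H ∩ Q_c'`
contains a hyperplane of `Q_c'`. -/
theorem mu1 [Fintype F] (hn : 3 ≤ Fintype.card ι) (H : Subgroup (GL ι F)) (c : ι → F)
    (hc : c ≠ 0)
    (hd : H.relIndex (specialLinear ι F) <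
      (Fintype.card F ^ Fintype.card ι - 1) / (Fintype.card F - 1))
    (hB : ∀ c : ι → F, c ≠ 0 → ∃ (φ : (ι → F) →ₗ[F] F) (hφ : φ c = 0), H95.tvGL c φ hφ ∉ H) :
    (∃ c' : ι → F, c' ≠ 0 ∧ (∀ g ∈ specialLinear ι F, ∃ φ, IsLift H c' g φ) ∧
      (∀ (x : ι → F) (φ : (ι → F) →ₗ[F] F) (hφ : φ x = 0),
        H95.tvGL x φ hφ ∈ H → H95.tvGL x φ hφ = 1)) ∨
    (∀ c' : ι → F, c' ≠ 0 → ∃ w : ι → F, w ∉ Submodule.span F {c'} ∧
      ∀ (φ : (ι → F) →ₗ[F] F) (hφ : φ c' = 0), φ w = 0 → H95.tvGL c' φ hφ ∈ H) := by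
  have hfin : Finite ((ι → F) →ₗ[F] F) := Module.finite_of_finite F
  -- the family of stabilisers
  set S : ↥(specialLinear ι F) → AddSubgroup ↥(Yc c) := fun g => stabY H c g.1 with hSdef
  -- a non-zero vector stays non-zero
  have hne : ∀ (k : GL ι F) (v : ι → F), v ≠ 0 → (k : Matrix ι ι F) *ᵥ v ≠ 0 := by
    intro k v hv h0
    apply hv
    have := inv_mulVec_mulVec k v
    rw [h0, Matrix.mulVec_zero] at this
    exact this.symm
  have hS : ∀ g, S g ≠ ⊤ := by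
    intro g htop
    obtain ⟨φ, hφ, hnot⟩ := hB _ (hne g.1⁻¹ c hc)
    have hy : (φ ∘ₗ Matrix.toLin' ((g.1⁻¹ : GL ι F) : Matrix ι ι F)) c = 0 := by
      rw [LinearMap.comp_apply, Matrix.toLin'_apply]; exact hφ
    have hmem : (⟨_, hy⟩ : ↥(Yc c)) ∈ S g := by rw [htop]; trivial
    rw [hSdef, mem_stabY] at hmem
    rw [inv_conj_tvGL _ c _ hy (inv_conj_tvGL_aux _ c _ hy)] at hmem
    apply hnot
    have e := tvGL_congr (c := ((g.1⁻¹ : GL ι F) : Matrix ι ι F) *ᵥ c)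
      (c' := ((g.1⁻¹ : GL ι F) : Matrix ι ι F) *ᵥ c) rfl (comp_inv_comp g.1 φ)
      (inv_conj_tvGL_aux _ c _ hy) hφ
    rw [← e]
    exact hmem
  have huniq : ∀ A : AddSubgroup ↥(Yc c), A.index.Prime → ∀ i j, S i ≤ A → S j ≤ A →
      S i = S j := by
    intro A hA i j hi hj
    obtain ⟨y, hy⟩ := abs_gl hn H c hc hd A hA i.1 j.1 i.2 j.2 (fun y hy => hi hy)
      (fun y hy => hj hy)
    exact stabY_eq_of_orbit H c i.1 j.1 y hy
  have hinv : ∀ i (w : ι → F) (θ : ↥(Yc c)), θ.1 w = 0 →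
      ∃ j, ∀ y : ↥(Yc c), y ∈ S j ↔ y + y.1 w • θ ∈ S i := by
    intro i w θ hθ
    refine ⟨⟨H95.tvGL w θ.1 hθ * i.1,
      (specialLinear ι F).mul_mem (H95.tvGL_mem_specialLinear _ _ _) i.2⟩, ?_⟩
    intro y
    exact stabY_tv_mul H c i.1 w θ hθ y
  have hstr := str c hc S hS huniq hinv
  by_cases h : ∃ g, S g = ⊥
  · obtain ⟨g, hg⟩ := h
    left
    -- every coset is in the orbit of `g H`
    have horb : ∀ g' : ↥(specialLinear ι F), ∃ y : ↥(Yc c),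
        g'.1⁻¹ * H95.tvGL c y.1 y.2 * g.1 ∈ H := by
      intro g'
      obtain ⟨y₀, hy₀⟩ : ∃ y₀, y₀ ∉ S g' := by
        by_contra hall
        push Not at hall
        exact hS g' (by ext y; simp [hall y])
      obtain ⟨A, hA, hSA, -⟩ := exists_prime_index_sep (F := F) (S g') y₀ hy₀
      exact abs_gl hn H c hc hd A hA g.1 g'.1 g.2 g'.2
        (fun y hy => by
          have : y ∈ S g := hy
          rw [hg] at this
          rw [AddSubgroup.mem_bot] at this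
          rw [this]; exact A.zero_mem)
        (fun y hy => hSA hy)
    have hall : ∀ g' : ↥(specialLinear ι F), S g' = ⊥ := by
      intro g'
      obtain ⟨y, hy⟩ := horb g'
      rw [← hg]
      exact (stabY_eq_of_orbit H c g.1 g'.1 y hy).symm
    refine ⟨((g.1⁻¹ : GL ι F) : Matrix ι ι F) *ᵥ c, hne _ c hc, ?_, ?_⟩
    · intro x hx
      obtain ⟨y, hy⟩ := horb ⟨g.1 * x, (specialLinear ι F).mul_mem g.2 hx⟩
      have hφ : ((-y.1) ∘ₗ Matrix.toLin' (g.1 : Matrix ι ι F))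
          (((g.1⁻¹ : GL ι F) : Matrix ι ι F) *ᵥ c) = 0 :=
        inv_conj_tvGL_aux g.1 c (-y.1) (-y).2
      refine ⟨(-y.1) ∘ₗ Matrix.toLin' (g.1 : Matrix ι ι F), hφ, ?_⟩
      rw [← inv_conj_tvGL g.1 c (-y.1) (-y).2 hφ, ← tvGL_inv c y.1 y.2 (-y).2]
      have : g.1⁻¹ * (H95.tvGL c y.1 y.2)⁻¹ * g.1 * x =
          ((g.1 * x)⁻¹ * H95.tvGL c y.1 y.2 * g.1)⁻¹ := by group
      rw [this]
      exact H.inv_mem hy
    · intro x φ hφ hmem
      by_cases hx : x = 0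
      · subst hx
        exact tvGL_zero_left φ hφ
      · obtain ⟨k, hk, hkx⟩ := sl_trans (by omega) x c hx hc
        have hkc : ((k⁻¹ : GL ι F) : Matrix ι ι F) *ᵥ c = x := by
          rw [← hkx, inv_mulVec_mulVec]
        have hy : (φ ∘ₗ Matrix.toLin' ((k⁻¹ : GL ι F) : Matrix ι ι F)) c = 0 := by
          rw [LinearMap.comp_apply, Matrix.toLin'_apply, hkc]; exact hφ
        have hmem' : (⟨_, hy⟩ : ↥(Yc c)) ∈ S ⟨k, hk⟩ := by
          rw [hSdef, mem_stabY]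
          rw [inv_conj_tvGL _ c _ hy (inv_conj_tvGL_aux _ c _ hy)]
          have e := tvGL_congr (c := ((k⁻¹ : GL ι F) : Matrix ι ι F) *ᵥ c) (c' := x) hkc
            (comp_inv_comp k φ) (inv_conj_tvGL_aux _ c _ hy) hφ
          rw [e]
          exact hmem
        rw [hall, AddSubgroup.mem_bot] at hmem'
        have h0 : φ ∘ₗ Matrix.toLin' ((k⁻¹ : GL ι F) : Matrix ι ι F) = 0 :=
          congrArg Subtype.val hmem'
        have h1 : φ = 0 := by
          rw [← comp_inv_comp k φ, h0, LinearMap.zero_comp]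
        subst h1
        exact tvGL_zero_right x hφ
  · right
    push Not at h
    intro c' hc'
    obtain ⟨k, hk, hkc⟩ := sl_trans (by omega) c' c hc' hc
    have hkc' : ((k⁻¹ : GL ι F) : Matrix ι ι F) *ᵥ c = c' := by
      rw [← hkc, inv_mulVec_mulVec]
    rcases hstr ⟨k, hk⟩ with h0 | ⟨w, hw, hwS⟩
    · exact absurd h0 (h _)
    · refine ⟨((k⁻¹ : GL ι F) : Matrix ι ι F) *ᵥ w, ?_, ?_⟩
      · intro hmem
        apply hw
        rw [Submodule.mem_span_singleton] at hmem ⊢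
        obtain ⟨a, ha⟩ := hmem
        refine ⟨a, ?_⟩
        have := congrArg (fun v => (k : Matrix ι ι F) *ᵥ v) ha
        simp only [Matrix.mulVec_smul, hkc, mulVec_inv_mulVec] at this
        exact this
      · intro φ hφ hφw
        have hy : (φ ∘ₗ Matrix.toLin' ((k⁻¹ : GL ι F) : Matrix ι ι F)) c = 0 := by
          rw [LinearMap.comp_apply, Matrix.toLin'_apply, hkc']; exact hφ
        have hmem : (⟨_, hy⟩ : ↥(Yc c)) ∈ S ⟨k, hk⟩ := by
          apply hwS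
          show (φ ∘ₗ Matrix.toLin' ((k⁻¹ : GL ι F) : Matrix ι ι F)) w = 0
          rw [LinearMap.comp_apply, Matrix.toLin'_apply]; exact hφw
        rw [hSdef, mem_stabY] at hmem
        rw [inv_conj_tvGL _ c _ hy (inv_conj_tvGL_aux _ c _ hy)] at hmem
        have e := tvGL_congr (c := ((k⁻¹ : GL ι F) : Matrix ι ι F) *ᵥ c) (c' := c') hkc'
          (comp_inv_comp k φ) (inv_conj_tvGL_aux _ c _ hy) hφ
        rw [← e]
        exact hmem


/-- The main theorem in `GL`-form. -/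
theorem core [Fintype F] (hn : 3 ≤ Fintype.card ι)
    (hexc : ¬ (Fintype.card ι = 4 ∧ Fintype.card F = 2))
    (H : Subgroup (GL ι F)) (hH : ¬ specialLinear ι F ≤ H) :
    (Fintype.card F ^ Fintype.card ι - 1) / (Fintype.card F - 1) ≤
      H.relIndex (specialLinear ι F) := by
  by_contra hd
  push Not at hd
  obtain ⟨C, hC, hCinv⟩ := centre_space H
  by_cases hA : C = ⊥
  · -- Case B
    have hB : ∀ c : ι → F, c ≠ 0 →
        ∃ (φ : (ι → F) →ₗ[F] F) (hφ : φ c = 0), H95.tvGL c φ hφ ∉ H := by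
      intro c hc
      by_contra hall
      push Not at hall
      have : c ∈ C := (hC c).mpr hall
      rw [hA, Submodule.mem_bot] at this
      exact hc this
    have hne : Nonempty ι := Fintype.card_pos_iff.mp (by omega)
    obtain ⟨i⟩ := hne
    have hc : (Pi.single i (1 : F) : ι → F) ≠ 0 := by
      intro h
      have := congrFun h i
      simp at this
    rcases mu1 hn H _ hc hd hB with ⟨c', hc', hL, hNT⟩ | h2
    · exact b1_kill hn hexc H c' hc' hL hNT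
    · exact b2_kill hn H hB h2
  · -- Case A
    have hC1 : C ≠ ⊤ := by
      intro htop
      apply hH
      apply H95.specialLinear_le_of_tv
      intro u φ hφ
      exact (hC u).mp (by rw [htop]; trivial) φ hφ
    exact absurd (index_of_invariant hn H C hA hC1 hCinv) (not_le.mpr hd)

theorem main_result {F : Type*} [Field F] [Fintype F] {q : ℕ} (hF : Fintype.card F = q) (n : ℕ)
    (hn : 3 ≤ n) (hexc : ¬ (n = 4 ∧ q = 2)) :
    (∀ H : Subgroup (Matrix.ProjectiveSpecialLinearGroup (Fin n) F), H ≠ ⊤ →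
      (q ^ n - 1) / (q - 1) ≤ H.index) ∧
    (∃ H : Subgroup (Matrix.ProjectiveSpecialLinearGroup (Fin n) F),
      H.index = (q ^ n - 1) / (q - 1)) := by
  subst hF
  refine ⟨fun K hK => ?_, psl_exists_index n hn⟩
  apply psl_transfer n _ _ K hK
  intro H hH
  have := core (ι := Fin n) (by simpa using hn) (by simpa using hexc) H hH
  simpa using this

end Cfsg.Agent.H17.Pm
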