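import Mathlib
import Cfsg.Prelude.Def_ClassicalGeometry

set_option autoImplicit false

/-! Helper lemmas (helper17) on quadratic forms on `F^n`, reflections. -/

namespace Cfsg.Agent.H17

open Matrix

variable {F : Type*} [Field F] {ι : Type} [Fintype ι] [DecidableEq ι]

/-- determinant of a rank one perturbation of the identity -/
theorem det_one_add_vecMulVec' {R : Type*} [CommRing R] (u w : ι → R) :
    (1 + Matrix.vecMulVec u w).det = 1 + w ⬝ᵥ u := by
  rw [Matrix.vecMulVec_eq (ι := Unit), Matrix.det_one_add_replicateCol_mul_replicateRow]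

theorem polarVec_dotProduct (Q : QuadraticForm F (ι → F)) (v x : ι → F) :
    Cfsg.polarVec ⇑Q v ⬝ᵥ x = QuadraticMap.polar ⇑Q v x := by
  have hx : x = ∑ j, x j • (Pi.single j (1 : F) : ι → F) := by
    ext i
    simp [Finset.sum_apply, Pi.single_apply]
  conv_rhs => rw [hx]
  have h1 : QuadraticMap.polar ⇑Q v (∑ j, x j • (Pi.single j (1 : F) : ι → F)) =
      ∑ j, x j * QuadraticMap.polar ⇑Q v (Pi.single j (1 : F)) := by
    have := map_sum (QuadraticMap.polarBilin Q v) (fun j => x j • (Pi.single j (1 : F) : ι → F))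
      Finset.univ
    simp only [QuadraticMap.polarBilin_apply_apply, map_smul, smul_eq_mul] at this
    exact this
  rw [h1]
  unfold Cfsg.polarVec
  simp only [dotProduct]
  apply Finset.sum_congr rfl
  intro j _
  ring

theorem reflectionMatrix_mulVec (Q : QuadraticForm F (ι → F)) (v x : ι → F) :
    Cfsg.reflectionMatrix ⇑Q v *ᵥ x = x - ((Q v)⁻¹ * QuadraticMap.polar ⇑Q v x) • v := by
  unfold Cfsg.reflectionMatrix
  rw [Matrix.sub_mulVec, Matrix.one_mulVec, Matrix.smul_mulVec, Matrix.vecMulVec_mulVec,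
    polarVec_dotProduct]
  congr 1
  ext i
  simp only [Pi.smul_apply, smul_eq_mul, MulOpposite.smul_eq_mul_unop, MulOpposite.unop_op]
  ring

theorem quad_sub_smul (Q : QuadraticForm F (ι → F)) (x v : ι → F) (a : F) :
    Q (x - a • v) = Q x + a * a * Q v - a * QuadraticMap.polar ⇑Q v x := by
  have h1 : Q (x - a • v) = Q x + Q (-(a • v)) + QuadraticMap.polar ⇑Q x (-(a • v)) := by
    rw [sub_eq_add_neg]
    exact QuadraticMap.map_add Q x (-(a • v))
  rw [h1, QuadraticMap.map_neg, QuadraticMap.map_smul, QuadraticMap.polar_neg_right,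
    QuadraticMap.polar_smul_right, QuadraticMap.polar_comm ⇑Q x v]
  simp only [smul_eq_mul]
  ring

theorem reflection_preserves (Q : QuadraticForm F (ι → F)) (v : ι → F) (hv : Q v ≠ 0)
    (x : ι → F) : Q (Cfsg.reflectionMatrix ⇑Q v *ᵥ x) = Q x := by
  rw [reflectionMatrix_mulVec, quad_sub_smul]
  field_simp
  ring

theorem reflection_self (Q : QuadraticForm F (ι → F)) (v : ι → F) (hv : Q v ≠ 0) :
    Cfsg.reflectionMatrix ⇑Q v *ᵥ v = -v := by
  rw [reflectionMatrix_mulVec, QuadraticMap.polar_self]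
  have : (Q v)⁻¹ * (2 • Q v) = 2 := by
    rw [nsmul_eq_mul]
    field_simp
    norm_num
  rw [this, two_smul]
  abel

theorem reflection_fix (Q : QuadraticForm F (ι → F)) (v x : ι → F)
    (hx : QuadraticMap.polar ⇑Q v x = 0) :
    Cfsg.reflectionMatrix ⇑Q v *ᵥ x = x := by
  rw [reflectionMatrix_mulVec, hx]
  simp

theorem reflection_det (Q : QuadraticForm F (ι → F)) (v : ι → F) (hv : Q v ≠ 0) :
    (Cfsg.reflectionMatrix ⇑Q v).det = -1 := by
  have h1 : Cfsg.reflectionMatrix ⇑Q v =
      1 + Matrix.vecMulVec (-(Q v)⁻¹ • v) (Cfsg.polarVec ⇑Q v) := by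
    unfold Cfsg.reflectionMatrix
    rw [sub_eq_add_neg]
    congr 1
    ext i j
    simp [Matrix.vecMulVec_apply]
    ring
  rw [h1, det_one_add_vecMulVec', polarVec_dotProduct, QuadraticMap.polar_smul_right,
    QuadraticMap.polar_self]
  simp only [smul_eq_mul, nsmul_eq_mul]
  field_simp
  ring

end Cfsg.Agent.H17

namespace Cfsg.Agent.H17

open Matrix

variable {F : Type*} [Field F] {ι : Type} [Fintype ι] [DecidableEq ι]

/-- A matrix preserving a quadratic form with nondegenerate polar form has determinant `±1`. -/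
theorem det_mul_self_of_preserves (Q : QuadraticForm F (ι → F))
    (hQ : (QuadraticMap.polarBilin Q).Nondegenerate) (g : Matrix ι ι F)
    (hg : ∀ x, Q (g *ᵥ x) = Q x) : g.det * g.det = 1 := by
  set B : LinearMap.BilinForm F (ι → F) := QuadraticMap.polarBilin Q with hB
  have hcomp : B.comp (Matrix.toLin' g) (Matrix.toLin' g) = B := by
    refine LinearMap.ext₂ (fun x y => ?_)
    simp only [hB, LinearMap.BilinForm.comp_apply, Matrix.toLin'_apply,
      QuadraticMap.polarBilin_apply_apply]
    unfold QuadraticMap.polar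
    rw [← Matrix.mulVec_add, hg, hg, hg]
  have hM : (LinearMap.BilinForm.toMatrix' B).det ≠ 0 := by
    rw [← LinearMap.BilinForm.nondegenerate_toBilin'_iff_det_ne_zero, Matrix.toBilin'_toMatrix']
    exact hQ
  have h1 := congrArg LinearMap.BilinForm.toMatrix' hcomp
  rw [LinearMap.BilinForm.toMatrix'_comp, LinearMap.toMatrix'_toLin'] at h1
  have h2 := congrArg Matrix.det h1
  rw [Matrix.det_mul, Matrix.det_mul, Matrix.det_transpose] at h2
  have h3 : (g.det * g.det - 1) * (LinearMap.BilinForm.toMatrix' B).det = 0 := by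
    linear_combination h2
  rcases mul_eq_zero.mp h3 with h | h
  · exact sub_eq_zero.mp h
  · exact absurd h hM

theorem det_eq_one_or_neg_one_of_preserves (Q : QuadraticForm F (ι → F))
    (hQ : (QuadraticMap.polarBilin Q).Nondegenerate) (g : Matrix ι ι F)
    (hg : ∀ x, Q (g *ᵥ x) = Q x) : g.det = 1 ∨ g.det = -1 := by
  have h := det_mul_self_of_preserves Q hQ g hg
  have h2 : (g.det - 1) * (g.det + 1) = 0 := by linear_combination h
  rcases mul_eq_zero.mp h2 with h | h
  · exact Or.inl (sub_eq_zero.mp h)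
  · exact Or.inr (eq_neg_of_add_eq_zero_left h)

theorem mem_isometryGroup_iff (Q : (ι → F) → F) (g : Matrix.GeneralLinearGroup ι F) :
    g ∈ Cfsg.isometryGroup F Q ↔ ∀ x, Q ((g : Matrix ι ι F) *ᵥ x) = Q x := by
  constructor
  · intro h x
    exact h x x
  · intro h x _
    exact h x

/-- The reflection as an element of `GL`. -/
noncomputable def reflGL (Q : QuadraticForm F (ι → F)) (v : ι → F) (hv : Q v ≠ 0) :
    Matrix.GeneralLinearGroup ι F :=
  Matrix.GeneralLinearGroup.mkOfDetNeZero (Cfsg.reflectionMatrix ⇑Q v)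
    (by rw [reflection_det Q v hv]; simp)

theorem reflGL_coe (Q : QuadraticForm F (ι → F)) (v : ι → F) (hv : Q v ≠ 0) :
    ((reflGL Q v hv : Matrix.GeneralLinearGroup ι F) : Matrix ι ι F) =
      Cfsg.reflectionMatrix ⇑Q v := rfl

theorem reflGL_mem (Q : QuadraticForm F (ι → F)) (v : ι → F) (hv : Q v ≠ 0) :
    reflGL Q v hv ∈ Cfsg.isometryGroup F ⇑Q := by
  rw [mem_isometryGroup_iff]
  intro x
  rw [reflGL_coe]
  exact reflection_preserves Q v hv x

end Cfsg.Agent.H17
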