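import Mathlib
import Cfsg.Agent.H42.SqDefs

/-!
# SQ-CNT for S2945: the counting piece `StCnt`

`A` elementary abelian normalizing `V`; `K` acts on `V` as a group of order 3 with commutator
`W = [V, K]` of order 4 and commutes modulo `C(V)` with its `A`-conjugates; subgroups `V' B'`
(`V' ≤ V`, `B' ≤ C_A(V')`) have order at most `|A|`.  Then `A` normalizes `W`.

Proof: pairwise dichotomy (either `a` normalizes `W`, or `k` centralizes `a W a⁻¹` and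
`W ∩ a W a⁻¹ = 1`), then one injection `A → V' B'` missing an element.
-/

set_option autoImplicit false

open scoped commutatorElement

namespace Cfsg.Agent.H17.Sq

universe u

/-- A subgroup of order 4 on which `k` acts without fixed points is `{1, w, w^k, w^(k^2)}`. -/
theorem four {G : Type u} [Group G] [Finite G] (W : Subgroup G) (hW : Nat.card ↥W = 4)
    (k w₁ : G) (h1 : w₁ ∈ W) (h2 : k * w₁ * k⁻¹ ∈ W) (h3 : k * (k * w₁ * k⁻¹) * k⁻¹ ∈ W)
    (hne : w₁ ≠ 1) (hfix : k * w₁ * k⁻¹ ≠ w₁)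
    (hk3 : k * (k * (k * w₁ * k⁻¹) * k⁻¹) * k⁻¹ = w₁) :
    ∀ w ∈ W, w = 1 ∨ w = w₁ ∨ w = k * w₁ * k⁻¹ ∨ w = k * (k * w₁ * k⁻¹) * k⁻¹ := by
  classical
  have cinj : ∀ x y : G, k * x * k⁻¹ = k * y * k⁻¹ → x = y :=
    fun x y h => mul_left_cancel (mul_right_cancel h)
  have c1 : k * 1 * k⁻¹ = 1 := by group
  have d1 : (1 : G) ≠ w₁ := fun h => hne h.symm
  have d2 : (1 : G) ≠ k * w₁ * k⁻¹ := fun h => hne (cinj _ _ (c1.trans h)).symm
  have d3 : (1 : G) ≠ k * (k * w₁ * k⁻¹) * k⁻¹ := fun h => d2 (cinj _ _ (c1.trans h))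
  have d4 : w₁ ≠ k * w₁ * k⁻¹ := fun h => hfix h.symm
  have d5 : w₁ ≠ k * (k * w₁ * k⁻¹) * k⁻¹ := by
    intro h
    apply hfix
    have h' : k * (k * (k * w₁ * k⁻¹) * k⁻¹) * k⁻¹ = k * w₁ * k⁻¹ := by rw [← h]
    rw [← h', hk3]
  have d6 : k * w₁ * k⁻¹ ≠ k * (k * w₁ * k⁻¹) * k⁻¹ := fun h => d4 (cinj _ _ h)
  let s : Finset G := {1, w₁, k * w₁ * k⁻¹, k * (k * w₁ * k⁻¹) * k⁻¹}
  have hs : (s : Set G) ⊆ (W : Set G) := by
    intro x hx
    simp only [s, Finset.coe_insert, Finset.coe_singleton, Set.mem_insert_iff,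
      Set.mem_singleton_iff] at hx
    rcases hx with rfl | rfl | rfl | rfl
    exacts [W.one_mem, h1, h2, h3]
  have hcard : s.card = 4 := by
    simp only [s]
    rw [Finset.card_insert_of_notMem, Finset.card_insert_of_notMem,
      Finset.card_insert_of_notMem, Finset.card_singleton]
    · simpa using d6
    · simp only [Finset.mem_insert, Finset.mem_singleton, not_or]
      exact ⟨d4, d5⟩
    · simp only [Finset.mem_insert, Finset.mem_singleton, not_or]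
      exact ⟨d1, d2, d3⟩
  have heq : (s : Set G) = (W : Set G) := by
    apply Set.eq_of_subset_of_ncard_le hs _ (Set.toFinite _)
    rw [Set.ncard_coe_finset, hcard, ← hW]
    exact le_of_eq (Nat.card_coe_set_eq (W : Set G))
  intro w hw
  have hws : w ∈ (s : Set G) := by rw [heq]; exact hw
  simpa [s] using hws

/-- The orbit injection: an element `t ∈ V` outside `A` all of whose "differences" with its
`A`-conjugates lie outside `A` contradicts the maximality hypothesis. -/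
theorem orbit_inj {G : Type u} [Group G] [Finite G] (V A : Subgroup G) (t : G)
    (hAc : ∀ a ∈ A, ∀ b ∈ A, a * b = b * a)
    (hAV : A ≤ Subgroup.normalizer (V : Set G)) (ht : t ∈ V) (ht2 : t * t = 1) (htA : t ∉ A)
    (hI : ∀ u ∈ A, t * (u * t * u⁻¹) ∈ A → u * t * u⁻¹ = t)
    (hmax : ∀ V' B' : Subgroup G, V' ≤ V → B' ≤ A →
      B' ≤ Subgroup.centralizer (V' : Set G) → Nat.card ↥(V' ⊔ B') ≤ Nat.card ↥A) : False := by
  classical
  let V' : Subgroup G := Subgroup.closure {s | ∃ y ∈ A, y * t * y⁻¹ = s}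
  let B' : Subgroup G := A ⊓ Subgroup.centralizer {t}
  have hV' : V' ≤ V := by
    rw [Subgroup.closure_le]
    rintro s ⟨y, hy, rfl⟩
    exact ((Subgroup.mem_normalizer_iff.mp (hAV hy)) t).mp ht
  have hB'A : B' ≤ A := inf_le_left
  have hB'C : B' ≤ Subgroup.centralizer (V' : Set G) := by
    rw [Subgroup.le_centralizer_iff, Subgroup.closure_le]
    rintro s ⟨y, hy, rfl⟩
    rw [SetLike.mem_coe, Subgroup.mem_centralizer_iff]
    intro b hb
    have hbt : Commute b t :=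
      (Subgroup.mem_centralizer_iff.mp hb.2 t (Set.mem_singleton t)).symm
    have hby : Commute b y := hAc b hb.1 y hy
    exact ((hby.mul_right hbt).mul_right hby.inv_right).eq
  let r : G → G := fun s => if h : ∃ y ∈ A, y * t * y⁻¹ = s then Classical.choose h else 1
  have hr : ∀ y ∈ A, r (y * t * y⁻¹) ∈ A ∧
      r (y * t * y⁻¹) * t * (r (y * t * y⁻¹))⁻¹ = y * t * y⁻¹ := by
    intro y hy
    have h : ∃ y' ∈ A, y' * t * y'⁻¹ = y * t * y⁻¹ := ⟨y, hy, rfl⟩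
    simp only [r, dif_pos h]
    exact Classical.choose_spec h
  have hbA : ∀ y ∈ A, (r (y * t * y⁻¹))⁻¹ * y ∈ A :=
    fun y hy => A.mul_mem (A.inv_mem (hr y hy).1) hy
  have hmem : ∀ y ∈ A, (y * t * y⁻¹) * ((r (y * t * y⁻¹))⁻¹ * y) ∈ V' ⊔ B' := by
    intro y hy
    have hsV : y * t * y⁻¹ ∈ V' := Subgroup.subset_closure ⟨y, hy, rfl⟩
    refine Subgroup.mul_mem_sup hsV ?_
    refine Subgroup.mem_inf.mpr ⟨hbA y hy, ?_⟩
    rw [Subgroup.mem_centralizer_iff]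
    intro h hh
    rw [Set.mem_singleton_iff] at hh
    subst hh
    have h2 := (hr y hy).2
    calc h * ((r (y * h * y⁻¹))⁻¹ * y)
        = (r (y * h * y⁻¹))⁻¹ * (r (y * h * y⁻¹) * h * (r (y * h * y⁻¹))⁻¹) * y := by group
      _ = (r (y * h * y⁻¹))⁻¹ * (y * h * y⁻¹) * y := by rw [h2]
      _ = (r (y * h * y⁻¹))⁻¹ * y * h := by group
  let F : ↥A → ↥(V' ⊔ B') := fun y =>
    ⟨((y : G) * t * (y : G)⁻¹) * ((r ((y : G) * t * (y : G)⁻¹))⁻¹ * (y : G)), hmem y y.2⟩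
  have tinv : t⁻¹ = t := inv_eq_of_mul_eq_one_left ht2
  have hFinj : Function.Injective F := by
    intro y y' hyy
    have h0 : ((y : G) * t * (y : G)⁻¹) * ((r ((y : G) * t * (y : G)⁻¹))⁻¹ * (y : G)) =
        ((y' : G) * t * (y' : G)⁻¹) * ((r ((y' : G) * t * (y' : G)⁻¹))⁻¹ * (y' : G)) :=
      congrArg Subtype.val hyy
    obtain ⟨y, hy⟩ := y
    obtain ⟨y', hy'⟩ := y'
    simp only at h0
    have hb := hbA y hy
    have hb' := hbA y' hy'
    -- s'⁻¹ * s ∈ A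
    have h1 : (y' * t * y'⁻¹)⁻¹ * (y * t * y⁻¹) ∈ A := by
      have : (y' * t * y'⁻¹)⁻¹ * (y * t * y⁻¹) =
          ((r (y' * t * y'⁻¹))⁻¹ * y') * ((r (y * t * y⁻¹))⁻¹ * y)⁻¹ := by
        calc (y' * t * y'⁻¹)⁻¹ * (y * t * y⁻¹)
            = (y' * t * y'⁻¹)⁻¹ * ((y * t * y⁻¹) * ((r (y * t * y⁻¹))⁻¹ * y)) *
                ((r (y * t * y⁻¹))⁻¹ * y)⁻¹ := by group
          _ = (y' * t * y'⁻¹)⁻¹ * ((y' * t * y'⁻¹) * ((r (y' * t * y'⁻¹))⁻¹ * y')) *
                ((r (y * t * y⁻¹))⁻¹ * y)⁻¹ := by rw [h0]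
          _ = _ := by group
      rw [this]
      exact A.mul_mem hb' (A.inv_mem hb)
    have h2 : t * ((y'⁻¹ * y) * t * (y'⁻¹ * y)⁻¹) ∈ A := by
      have : t * ((y'⁻¹ * y) * t * (y'⁻¹ * y)⁻¹) =
          y'⁻¹ * ((y' * t * y'⁻¹)⁻¹ * (y * t * y⁻¹)) * y' := by
        nth_rewrite 1 [← tinv]
        group
      rw [this]
      exact A.mul_mem (A.mul_mem (A.inv_mem hy') h1) hy'
    have h3 := hI (y'⁻¹ * y) (A.mul_mem (A.inv_mem hy') hy) h2
    have h4 : y * t * y⁻¹ = y' * t * y'⁻¹ := by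
      calc y * t * y⁻¹ = y' * ((y'⁻¹ * y) * t * (y'⁻¹ * y)⁻¹) * y'⁻¹ := by group
        _ = y' * t * y'⁻¹ := by rw [h3]
    rw [h4] at h0
    have h5 : y = y' := mul_left_cancel (mul_left_cancel h0)
    subst h5
    rfl
  have hFone : (1 : ↥(V' ⊔ B')) ∉ Set.range F := by
    rintro ⟨⟨y, hy⟩, hF⟩
    have h0 : (y * t * y⁻¹) * ((r (y * t * y⁻¹))⁻¹ * y) = 1 := congrArg Subtype.val hF
    have h1 : y * t * y⁻¹ ∈ A := by
      have : y * t * y⁻¹ = ((r (y * t * y⁻¹))⁻¹ * y)⁻¹ := eq_inv_of_mul_eq_one_left h0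
      rw [this]
      exact A.inv_mem (hbA y hy)
    apply htA
    have : t = y⁻¹ * (y * t * y⁻¹) * y := by group
    rw [this]
    exact A.mul_mem (A.mul_mem (A.inv_mem hy) h1) hy
  have hlt : Nat.card ↥A < Nat.card ↥(V' ⊔ B') := by
    let _i1 := Fintype.ofFinite ↥A
    let _i2 := Fintype.ofFinite ↥(V' ⊔ B')
    rw [Nat.card_eq_fintype_card, Nat.card_eq_fintype_card]
    exact Fintype.card_lt_of_injective_of_notMem F hFinj hFone
  exact absurd (hmax V' B' hV' hB'A hB'C) (not_le.mpr hlt)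

/-- The counting argument, given the pairwise dichotomy. -/
theorem count {G : Type u} [Group G] [Finite G] (V A W : Subgroup G) (k : G)
    (hV2 : ∀ v ∈ V, v * v = 1)
    (hAc : ∀ a ∈ A, ∀ b ∈ A, a * b = b * a)
    (hAV : A ≤ Subgroup.normalizer (V : Set G)) (hWV : W ≤ V)
    (hW : ∃ t₁ ∈ W, ∃ t₂ ∈ W, t₁ ≠ 1 ∧ t₂ ≠ 1 ∧ t₁ ≠ t₂)
    (hfpf : ∀ w ∈ W, k * w * k⁻¹ = w → w = 1)
    (hD : ∀ a ∈ A, a ∈ Subgroup.normalizer (W : Set G) ∨
      ((∀ w ∈ W, k * (a * w * a⁻¹) * k⁻¹ = a * w * a⁻¹) ∧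
        (∀ w ∈ W, a * w * a⁻¹ ∈ W → w = 1)))
    (hmax : ∀ V' B' : Subgroup G, V' ≤ V → B' ≤ A →
      B' ≤ Subgroup.centralizer (V' : Set G) → Nat.card ↥(V' ⊔ B') ≤ Nat.card ↥A) :
    A ≤ Subgroup.normalizer (W : Set G) := by
  classical
  by_contra hcon
  obtain ⟨z, hzA, hzN⟩ := SetLike.not_le_iff_exists.mp hcon
  have hD2 : ∀ a ∈ A, a ∉ Subgroup.normalizer (W : Set G) →
      ((∀ w ∈ W, k * (a * w * a⁻¹) * k⁻¹ = a * w * a⁻¹) ∧
        (∀ w ∈ W, a * w * a⁻¹ ∈ W → w = 1)) := fun a ha hn => (hD a ha).resolve_left hn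
  have hNW : ∀ a, a ∈ Subgroup.normalizer (W : Set G) → ∀ w ∈ W, a * w * a⁻¹ ∈ W :=
    fun a ha w hw => (Subgroup.mem_normalizer_iff.mp ha w).mp hw
  -- `W ∩ A = 1`
  have hWA : ∀ w ∈ W, w ∈ A → w = 1 := by
    intro w hw hwA
    apply (hD2 z hzA hzN).2 w hw
    have : z * w * z⁻¹ = w := by rw [hAc z hzA w hwA]; group
    rw [this]; exact hw
  by_cases hα : ∃ b ∈ A, b ∈ Subgroup.normalizer (W : Set G) ∧ ∃ t ∈ W, b * t * b⁻¹ ≠ t
  · obtain ⟨b, hbA, hbN, t, ht, hbt⟩ := hα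
    have ht2 := hV2 t (hWV ht)
    apply orbit_inj V A t hAc hAV (hWV ht) ht2 ?_ ?_ hmax
    · intro htA
      have h1 := hWA t ht htA
      apply hbt
      rw [h1]; group
    · intro u hu hp
      by_contra hne
      by_cases huN : u ∈ Subgroup.normalizer (W : Set G)
      · have h1 : t * (u * t * u⁻¹) = 1 := hWA _ (W.mul_mem ht (hNW u huN t ht)) hp
        exact hne (mul_left_cancel (h1.trans ht2.symm))
      · have h2 := (hD2 u hu huN).2
        have hbtW := hNW b hbN t ht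
        have hw : t * (b * t * b⁻¹)⁻¹ ∈ W := W.mul_mem ht (W.inv_mem hbtW)
        have hub : u * b = b * u := hAc u hu b hbA
        have hbp : b * (t * (u * t * u⁻¹)) = (t * (u * t * u⁻¹)) * b := hAc b hbA _ hp
        have key : u * (t * (b * t * b⁻¹)⁻¹) * u⁻¹ = t⁻¹ * (b * t * b⁻¹) := by
          calc u * (t * (b * t * b⁻¹)⁻¹) * u⁻¹
              = (u * t * u⁻¹) * ((u * b) * t⁻¹ * (u * b)⁻¹) := by group
            _ = (u * t * u⁻¹) * ((b * u) * t⁻¹ * (b * u)⁻¹) := by rw [hub]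
            _ = t⁻¹ * ((t * (u * t * u⁻¹)) * b) * (u * t⁻¹ * u⁻¹) * b⁻¹ := by group
            _ = t⁻¹ * (b * (t * (u * t * u⁻¹))) * (u * t⁻¹ * u⁻¹) * b⁻¹ := by rw [hbp]
            _ = t⁻¹ * (b * t * b⁻¹) := by group
        have h3 := h2 _ hw (by rw [key]; exact W.mul_mem (W.inv_mem ht) hbtW)
        exact hbt (mul_inv_eq_one.mp h3).symm
  · push Not at hα
    by_cases hβ : ∀ u ∈ A, u ∉ Subgroup.normalizer (W : Set G) →
        ∃ y ∈ A, y ∉ Subgroup.normalizer (W : Set G) ∧ u * y ∉ Subgroup.normalizer (W : Set G)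
    · obtain ⟨t, ht, -, -, ht1, -, -⟩ := hW
      have ht2 := hV2 t (hWV ht)
      apply orbit_inj V A t hAc hAV (hWV ht) ht2 ?_ ?_ hmax
      · exact fun htA => ht1 (hWA t ht htA)
      · intro u hu hp
        by_contra hne
        have huN : u ∉ Subgroup.normalizer (W : Set G) := fun h => hne (hα u hu h t ht)
        obtain ⟨y, hy, hyN, huyN⟩ := hβ u hu huN
        have hX : k * (y * t * y⁻¹) * k⁻¹ = y * t * y⁻¹ := (hD2 y hy hyN).1 t ht
        have hY : k * ((u * y) * t * (u * y)⁻¹) * k⁻¹ = (u * y) * t * (u * y)⁻¹ :=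
          (hD2 (u * y) (A.mul_mem hu hy) huyN).1 t ht
        have hZ : k * (u * t * u⁻¹) * k⁻¹ = u * t * u⁻¹ := (hD2 u hu huN).1 t ht
        have hyu : y * u = u * y := hAc y hy u hu
        have hyp : y * (t * (u * t * u⁻¹)) = (t * (u * t * u⁻¹)) * y := hAc y hy _ hp
        have ht_eq : t = (y * t * y⁻¹) * ((u * y) * t * (u * y)⁻¹) * (u * t * u⁻¹)⁻¹ := by
          calc t = ((t * (u * t * u⁻¹)) * y) * y⁻¹ * (u * t * u⁻¹)⁻¹ := by group
            _ = (y * (t * (u * t * u⁻¹))) * y⁻¹ * (u * t * u⁻¹)⁻¹ := by rw [hyp]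
            _ = (y * t * y⁻¹) * ((y * u) * t * (y * u)⁻¹) * (u * t * u⁻¹)⁻¹ := by group
            _ = _ := by rw [hyu]
        have hkt : k * t * k⁻¹ = t := by
          calc k * t * k⁻¹
              = k * ((y * t * y⁻¹) * ((u * y) * t * (u * y)⁻¹) * (u * t * u⁻¹)⁻¹) * k⁻¹ := by
                rw [← ht_eq]
            _ = (k * (y * t * y⁻¹) * k⁻¹) * (k * ((u * y) * t * (u * y)⁻¹) * k⁻¹) *
                  (k * (u * t * u⁻¹) * k⁻¹)⁻¹ := by group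
            _ = (y * t * y⁻¹) * ((u * y) * t * (u * y)⁻¹) * (u * t * u⁻¹)⁻¹ := by
                rw [hX, hY, hZ]
            _ = t := ht_eq.symm
        exact ht1 (hfpf t ht hkt)
    · push Not at hβ
      obtain ⟨u, hu, huN, hu2⟩ := hβ
      obtain ⟨t₁, ht₁, t₂, ht₂, h1, h2, h12⟩ := hW
      let N : Subgroup G := A ⊓ Subgroup.normalizer (W : Set G)
      have hNA : N ≤ A := inf_le_left
      have hNC : N ≤ Subgroup.centralizer (W : Set G) := by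
        intro b hb
        rw [Subgroup.mem_centralizer_iff]
        intro w hw
        have h := hα b hb.1 hb.2 w hw
        calc w * b = (b * w * b⁻¹) * b := by rw [h]
          _ = b * w := by group
      let g₀ : G → G := fun y =>
        if y ∈ Subgroup.normalizer (W : Set G) then y else t₁ * (u * y)
      have hg₀ : ∀ y ∈ A, g₀ y ∈ W ⊔ N := by
        intro y hy
        by_cases hyN : y ∈ Subgroup.normalizer (W : Set G)
        · simp only [g₀, if_pos hyN]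
          exact Subgroup.mem_sup_right (Subgroup.mem_inf.mpr ⟨hy, hyN⟩)
        · simp only [g₀, if_neg hyN]
          exact Subgroup.mul_mem_sup ht₁
            (Subgroup.mem_inf.mpr ⟨A.mul_mem hu hy, hu2 y hy hyN⟩)
      let F : ↥A → ↥(W ⊔ N) := fun y => ⟨g₀ (y : G), hg₀ y y.2⟩
      have hFinj : Function.Injective F := by
        rintro ⟨y, hy⟩ ⟨y', hy'⟩ hyy
        have h0 : g₀ y = g₀ y' := congrArg Subtype.val hyy
        have hcross : ∀ a ∈ A, ∀ a' ∈ A, a = t₁ * (u * a') → False := by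
          intro a ha a' ha' h
          apply h1
          apply hWA t₁ ht₁
          have : t₁ = a * (u * a')⁻¹ := by rw [h]; group
          rw [this]
          exact A.mul_mem ha (A.inv_mem (A.mul_mem hu ha'))
        by_cases hyN : y ∈ Subgroup.normalizer (W : Set G) <;>
          by_cases hyN' : y' ∈ Subgroup.normalizer (W : Set G)
        · simp only [g₀, if_pos hyN, if_pos hyN'] at h0
          exact Subtype.ext h0
        · simp only [g₀, if_pos hyN, if_neg hyN'] at h0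
          exact (hcross y hy y' hy' h0).elim
        · simp only [g₀, if_neg hyN, if_pos hyN'] at h0
          exact (hcross y' hy' y hy h0.symm).elim
        · simp only [g₀, if_neg hyN, if_neg hyN'] at h0
          exact Subtype.ext (mul_left_cancel (mul_left_cancel h0))
      have ht₂mem : t₂ ∈ W ⊔ N := Subgroup.mem_sup_left ht₂
      have hFmiss : (⟨t₂, ht₂mem⟩ : ↥(W ⊔ N)) ∉ Set.range F := by
        rintro ⟨⟨y, hy⟩, hF⟩
        have h0 : g₀ y = t₂ := congrArg Subtype.val hF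
        by_cases hyN : y ∈ Subgroup.normalizer (W : Set G)
        · simp only [g₀, if_pos hyN] at h0
          exact h2 (hWA t₂ ht₂ (h0 ▸ hy))
        · simp only [g₀, if_neg hyN] at h0
          have h3 : t₁⁻¹ * t₂ = u * y := by rw [← h0]; group
          have h4 : t₁⁻¹ * t₂ = 1 :=
            hWA _ (W.mul_mem (W.inv_mem ht₁) ht₂) (h3 ▸ A.mul_mem hu hy)
          exact h12 (inv_mul_eq_one.mp h4)
      have hlt : Nat.card ↥A < Nat.card ↥(W ⊔ N) := by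
        let _i1 := Fintype.ofFinite ↥A
        let _i2 := Fintype.ofFinite ↥(W ⊔ N)
        rw [Nat.card_eq_fintype_card, Nat.card_eq_fintype_card]
        exact Fintype.card_lt_of_injective_of_notMem F hFinj hFmiss
      exact absurd (hmax W N hWV hNA hNC) (not_le.mpr hlt)

/-- SQ-CNT: the counting piece of S2945. -/
theorem cnt : Cfsg.Agent.H42.Sq.StCnt.{u} := by
  intro G _ _ V K O A hV hA hAV hKV hOK hOC hidx hW hcomm hmax
  classical
  have _hVc := hV.1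
  have _hAcI := hA.1
  have hV2 : ∀ v ∈ V, v * v = 1 := fun v hv => by
    have h := hV.2 v hv; rwa [pow_two] at h
  have hAc : ∀ a ∈ A, ∀ b ∈ A, a * b = b * a :=
    fun a ha b hb => setLike_mul_comm ha hb
  have hA2 : ∀ a ∈ A, a * a = 1 := fun a ha => by
    have h := hA.2 a ha; rwa [pow_two] at h
  have hnV : ∀ g, g ∈ Subgroup.normalizer (V : Set G) → ∀ v ∈ V, g * v * g⁻¹ ∈ V :=
    fun g hg v hv => (Subgroup.mem_normalizer_iff.mp hg v).mp hv
  have hWV : ⁅V, K⁆ ≤ V := by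
    rw [Subgroup.commutator_le]
    intro v hv x hx
    have : ⁅v, x⁆ = v * (x * v⁻¹ * x⁻¹) := by rw [commutatorElement_def]; group
    rw [this]
    exact V.mul_mem hv (hnV x (hKV hx) _ (V.inv_mem hv))
  have hKnC : ¬ K ≤ Subgroup.centralizer (V : Set G) := by
    intro h
    have h1 : ⁅V, K⁆ = ⊥ := by
      rw [Subgroup.commutator_eq_bot_iff_le_centralizer, Subgroup.le_centralizer_iff]
      exact h
    rw [h1, Subgroup.card_bot] at hW
    norm_num at hW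
  obtain ⟨k, hk, hkC⟩ := SetLike.not_le_iff_exists.mp hKnC
  -- `k ^ 3` centralizes `V`
  have hk3 : k ^ 3 ∈ Subgroup.centralizer (V : Set G) := by
    have hnorm : ((Subgroup.centralizer (V : Set G)).subgroupOf K).Normal := by
      constructor
      intro n hn g
      rw [Subgroup.mem_subgroupOf] at hn ⊢
      rw [Subgroup.mem_centralizer_iff] at hn ⊢
      intro v hv
      have hv' : (g : G)⁻¹ * v * ((g : G)⁻¹)⁻¹ ∈ V :=
        hnV _ (Subgroup.inv_mem _ (hKV g.2)) v hv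
      have h := hn _ hv'
      simp only [Subgroup.coe_mul, Subgroup.coe_inv]
      calc v * ((g : G) * (n : G) * (g : G)⁻¹)
          = g * (((g : G)⁻¹ * v * ((g : G)⁻¹)⁻¹) * n) * (g : G)⁻¹ := by group
        _ = g * (n * ((g : G)⁻¹ * v * ((g : G)⁻¹)⁻¹)) * (g : G)⁻¹ := by rw [h]
        _ = (g : G) * (n : G) * (g : G)⁻¹ * v := by group
    have hdvd : (Subgroup.centralizer (V : Set G)).relIndex K ∣ 3 := by
      rw [← hidx]
      exact Subgroup.relIndex_dvd_of_le_left K hOC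
    have hidx' : ((Subgroup.centralizer (V : Set G)).subgroupOf K).index = 3 := by
      rcases (Nat.dvd_prime Nat.prime_three).mp hdvd with h | h
      · exact absurd (Subgroup.relIndex_eq_one.mp h) hKnC
      · exact h
    have h := Subgroup.pow_index_mem ((Subgroup.centralizer (V : Set G)).subgroupOf K)
      (⟨k, hk⟩ : ↥K)
    rw [hidx', Subgroup.mem_subgroupOf] at h
    simpa using h
  have hk3e : k ^ 3 = k * k * k := by rw [pow_succ, pow_two]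
  have hk3V : ∀ v ∈ V, k * (k * (k * v * k⁻¹) * k⁻¹) * k⁻¹ = v := by
    intro v hv
    have h := Subgroup.mem_centralizer_iff.mp hk3 v hv
    calc k * (k * (k * v * k⁻¹) * k⁻¹) * k⁻¹ = (k ^ 3 * v) * (k ^ 3)⁻¹ := by
          rw [hk3e]; group
      _ = (v * k ^ 3) * (k ^ 3)⁻¹ := by rw [h]
      _ = v := by group
  have hkV : ∀ v ∈ V, k * v * k⁻¹ ∈ V := hnV k (hKV hk)
  have hcW : ∀ v ∈ V, ⁅v, k⁆ ∈ ⁅V, K⁆ :=
    fun v hv => Subgroup.commutator_mem_commutator hv hk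
  have hcκ : ∀ v : G, k * ⁅v, k⁆ * k⁻¹ = ⁅k * v * k⁻¹, k⁆ := by
    intro v; simp only [commutatorElement_def]; group
  -- `k` has no fixed points among the commutators
  have hfpf0 : ∀ v ∈ V, k * ⁅v, k⁆ * k⁻¹ = ⁅v, k⁆ → ⁅v, k⁆ = 1 := by
    intro v hv h
    have id1 : ⁅v, k⁆ * (k * ⁅v, k⁆ * k⁻¹) * (k * (k * ⁅v, k⁆ * k⁻¹) * k⁻¹) = ⁅v, k ^ 3⁆ := by
      rw [hk3e]; simp only [commutatorElement_def]; group
    have hc3 : ⁅v, k ^ 3⁆ = 1 := by
      rw [commutatorElement_eq_one_iff_mul_comm]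
      exact Subgroup.mem_centralizer_iff.mp hk3 v hv
    rw [h, h, hV2 _ (hWV (hcW v hv)), one_mul, hc3] at id1
    exact id1
  obtain ⟨v₀, hv₀, hv₀k⟩ : ∃ v₀ ∈ V, ⁅v₀, k⁆ ≠ 1 := by
    by_contra hcon
    push Not at hcon
    apply hkC
    rw [Subgroup.mem_centralizer_iff]
    intro v hv
    exact commutatorElement_eq_one_iff_mul_comm.mp (hcon v hv)
  -- every element of `W` is a commutator with `k`
  have hS1 : ∀ w ∈ ⁅V, K⁆, ∃ v ∈ V, w = ⁅v, k⁆ := by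
    have h4 := four ⁅V, K⁆ hW k ⁅v₀, k⁆ (hcW v₀ hv₀) (by rw [hcκ]; exact hcW _ (hkV v₀ hv₀))
      (by rw [hcκ, hcκ]; exact hcW _ (hkV _ (hkV v₀ hv₀))) hv₀k
      (fun h => hv₀k (hfpf0 v₀ hv₀ h)) (hk3V _ (hWV (hcW v₀ hv₀)))
    intro w hw
    rcases h4 w hw with rfl | rfl | rfl | rfl
    · exact ⟨1, V.one_mem, by simp⟩
    · exact ⟨v₀, hv₀, rfl⟩
    · exact ⟨_, hkV v₀ hv₀, hcκ v₀⟩
    · exact ⟨_, hkV _ (hkV v₀ hv₀), by rw [hcκ, hcκ]⟩
  have hfpf : ∀ w ∈ ⁅V, K⁆, k * w * k⁻¹ = w → w = 1 := by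
    intro w hw h
    obtain ⟨v, hv, rfl⟩ := hS1 w hw
    exact hfpf0 v hv h
  have hκW : ∀ w ∈ ⁅V, K⁆, k * w * k⁻¹ ∈ ⁅V, K⁆ := by
    intro w hw
    obtain ⟨v, hv, rfl⟩ := hS1 w hw
    rw [hcκ]; exact hcW _ (hkV v hv)
  have hT : ∀ w₁ ∈ ⁅V, K⁆, w₁ ≠ 1 → ∀ w ∈ ⁅V, K⁆,
      w = 1 ∨ w = w₁ ∨ w = k * w₁ * k⁻¹ ∨ w = k * (k * w₁ * k⁻¹) * k⁻¹ :=
    fun w₁ hw₁ hne => four ⁅V, K⁆ hW k w₁ hw₁ (hκW w₁ hw₁) (hκW _ (hκW w₁ hw₁)) hne
      (fun h => hne (hfpf w₁ hw₁ h)) (hk3V w₁ (hWV hw₁))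
  -- the dichotomy
  have hD : ∀ a ∈ A, a ∈ Subgroup.normalizer ((⁅V, K⁆ : Subgroup G) : Set G) ∨
      ((∀ w ∈ ⁅V, K⁆, k * (a * w * a⁻¹) * k⁻¹ = a * w * a⁻¹) ∧
        (∀ w ∈ ⁅V, K⁆, a * w * a⁻¹ ∈ ⁅V, K⁆ → w = 1)) := by
    intro a ha
    have haV : ∀ v ∈ V, a * v * a⁻¹ ∈ V := hnV a (hAV ha)
    have haV' : ∀ v ∈ V, a⁻¹ * v * a ∈ V := by
      intro v hv
      have := hnV a⁻¹ (Subgroup.inv_mem _ (hAV ha)) v hv
      simpa using this
    have hkaV : ∀ v ∈ V, (a * k * a⁻¹) * v * (a * k * a⁻¹)⁻¹ ∈ V :=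
      hnV _ (Subgroup.mul_mem _ (Subgroup.mul_mem _ (hAV ha) (hKV hk))
        (Subgroup.inv_mem _ (hAV ha)))
    have hka_mem : a * k * a⁻¹ ∈ K.map (MulAut.conj a).toMonoidHom := ⟨k, hk, rfl⟩
    have hC : ∀ v ∈ V, k * ((a * k * a⁻¹) * v * (a * k * a⁻¹)⁻¹) * k⁻¹ =
        (a * k * a⁻¹) * (k * v * k⁻¹) * (a * k * a⁻¹)⁻¹ := by
      intro v hv
      have hv' : (a * k * a⁻¹) * (k * v * k⁻¹) * (a * k * a⁻¹)⁻¹ ∈ V := hkaV _ (hkV v hv)
      have hc := Subgroup.mem_centralizer_iff.mp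
        (hcomm a ha (Subgroup.commutator_mem_commutator hk hka_mem)) _ hv'
      calc k * ((a * k * a⁻¹) * v * (a * k * a⁻¹)⁻¹) * k⁻¹
          = ⁅k, a * k * a⁻¹⁆ * ((a * k * a⁻¹) * (k * v * k⁻¹) * (a * k * a⁻¹)⁻¹) *
              ⁅k, a * k * a⁻¹⁆⁻¹ := by
            simp only [commutatorElement_def]; group
        _ = ((a * k * a⁻¹) * (k * v * k⁻¹) * (a * k * a⁻¹)⁻¹) * ⁅k, a * k * a⁻¹⁆ *
              ⁅k, a * k * a⁻¹⁆⁻¹ := by rw [hc]
        _ = _ := by group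
    have hP : ∀ w ∈ ⁅V, K⁆, ∃ w' ∈ ⁅V, K⁆, k * (a * w * a⁻¹) * k⁻¹ = a * w' * a⁻¹ := by
      intro w hw
      obtain ⟨v, hv, rfl⟩ := hS1 w hw
      have hv' : a * v * a⁻¹ ∈ V := haV v hv
      refine ⟨⁅a⁻¹ * (k * (a * v * a⁻¹) * k⁻¹) * a, k⁆, hcW _ (haV' _ (hkV _ hv')), ?_⟩
      calc k * (a * ⁅v, k⁆ * a⁻¹) * k⁻¹
          = (k * (a * v * a⁻¹) * k⁻¹) *
              (k * ((a * k * a⁻¹) * (a * v * a⁻¹) * (a * k * a⁻¹)⁻¹) * k⁻¹)⁻¹ := by
            simp only [commutatorElement_def]; group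
        _ = (k * (a * v * a⁻¹) * k⁻¹) *
              ((a * k * a⁻¹) * (k * (a * v * a⁻¹) * k⁻¹) * (a * k * a⁻¹)⁻¹)⁻¹ := by
            rw [hC _ hv']
        _ = a * ⁅a⁻¹ * (k * (a * v * a⁻¹) * k⁻¹) * a, k⁆ * a⁻¹ := by
            simp only [commutatorElement_def]; group
    by_cases hcase : ∃ w₁ ∈ ⁅V, K⁆, w₁ ≠ 1 ∧ k * (a * w₁ * a⁻¹) * k⁻¹ = a * w₁ * a⁻¹
    · right
      obtain ⟨w₁, hw₁, hne, hfix⟩ := hcase
      have hx₁ : a * w₁ * a⁻¹ ∈ V := haV _ (hWV hw₁)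
      have hcen : ∀ w ∈ ⁅V, K⁆, k * (a * w * a⁻¹) * k⁻¹ = a * w * a⁻¹ := by
        intro w hw
        have e1 : a * (k * w₁ * k⁻¹) * a⁻¹ =
            (a * k * a⁻¹) * (a * w₁ * a⁻¹) * (a * k * a⁻¹)⁻¹ := by group
        have e2 : a * (k * (k * w₁ * k⁻¹) * k⁻¹) * a⁻¹ =
            (a * k * a⁻¹) * ((a * k * a⁻¹) * (a * w₁ * a⁻¹) * (a * k * a⁻¹)⁻¹) *
              (a * k * a⁻¹)⁻¹ := by group
        rcases hT w₁ hw₁ hne w hw with h | h | h | h
        · rw [h]; group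
        · rw [h]; exact hfix
        · rw [h, e1, hC _ hx₁, hfix]
        · rw [h, e2, hC _ (hkaV _ hx₁), hC _ hx₁, hfix]
      refine ⟨hcen, ?_⟩
      intro w hw hwW
      have h1 : a * w * a⁻¹ = 1 := hfpf _ hwW (hcen w hw)
      calc w = a⁻¹ * (a * w * a⁻¹) * a := by group
        _ = 1 := by rw [h1]; group
    · left
      push Not at hcase
      have hφW : ∀ w ∈ ⁅V, K⁆, a⁻¹ * ⁅a * w * a⁻¹, k⁆ * a ∈ ⁅V, K⁆ := by
        intro w hw
        obtain ⟨w', hw', h⟩ := hP w hw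
        have : a⁻¹ * ⁅a * w * a⁻¹, k⁆ * a = w * w'⁻¹ := by
          calc a⁻¹ * ⁅a * w * a⁻¹, k⁆ * a
              = a⁻¹ * ((a * w * a⁻¹) * (k * (a * w * a⁻¹) * k⁻¹)⁻¹) * a := by
                simp only [commutatorElement_def]; group
            _ = a⁻¹ * ((a * w * a⁻¹) * (a * w' * a⁻¹)⁻¹) * a := by rw [h]
            _ = w * w'⁻¹ := by group
        rw [this]
        exact Subgroup.mul_mem _ hw (Subgroup.inv_mem _ hw')
      let φ : ↥⁅V, K⁆ → ↥⁅V, K⁆ := fun w =>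
        ⟨a⁻¹ * ⁅a * (w : G) * a⁻¹, k⁆ * a, hφW w w.2⟩
      have hφinj : Function.Injective φ := by
        rintro ⟨w₁, hw₁⟩ ⟨w₂, hw₂⟩ h
        have h0 : a⁻¹ * ⁅a * w₁ * a⁻¹, k⁆ * a = a⁻¹ * ⁅a * w₂ * a⁻¹, k⁆ * a :=
          congrArg Subtype.val h
        have h1 : ⁅a * w₁ * a⁻¹, k⁆ = ⁅a * w₂ * a⁻¹, k⁆ :=
          mul_left_cancel (mul_right_cancel h0)
        have h2 : k * (a * (w₂⁻¹ * w₁) * a⁻¹) * k⁻¹ = a * (w₂⁻¹ * w₁) * a⁻¹ := by
          calc k * (a * (w₂⁻¹ * w₁) * a⁻¹) * k⁻¹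
              = (a * w₂ * a⁻¹)⁻¹ * ⁅a * w₂ * a⁻¹, k⁆ * k * (a * w₁ * a⁻¹) * k⁻¹ := by
                simp only [commutatorElement_def]; group
            _ = (a * w₂ * a⁻¹)⁻¹ * ⁅a * w₁ * a⁻¹, k⁆ * k * (a * w₁ * a⁻¹) * k⁻¹ := by
                rw [h1]
            _ = a * (w₂⁻¹ * w₁) * a⁻¹ := by simp only [commutatorElement_def]; group
        have h3 : w₂⁻¹ * w₁ = 1 := by
          by_contra hne
          exact hcase _ (Subgroup.mul_mem _ (Subgroup.inv_mem _ hw₂) hw₁) hne h2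
        exact Subtype.ext (inv_mul_eq_one.mp h3).symm
      have hφsurj : Function.Surjective φ := Finite.injective_iff_surjective.mp hφinj
      have hsub : ∀ w ∈ ⁅V, K⁆, a * w * a⁻¹ ∈ ⁅V, K⁆ := by
        intro w hw
        obtain ⟨⟨w', hw'⟩, h⟩ := hφsurj ⟨w, hw⟩
        have h0 : a⁻¹ * ⁅a * w' * a⁻¹, k⁆ * a = w := congrArg Subtype.val h
        have : a * w * a⁻¹ = ⁅a * w' * a⁻¹, k⁆ := by rw [← h0]; group
        rw [this]
        exact hcW _ (haV _ (hWV hw'))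
      rw [Subgroup.mem_normalizer_iff]
      intro h
      constructor
      · exact hsub h
      · intro hh
        have h5 := hsub _ hh
        have e : a * (a * h * a⁻¹) * a⁻¹ = h := by
          calc a * (a * h * a⁻¹) * a⁻¹ = (a * a) * h * (a * a)⁻¹ := by group
            _ = h := by rw [hA2 a ha]; group
        rwa [e] at h5
  -- two distinct nontrivial elements of `W`
  have hW2 : ∃ t₁ ∈ ⁅V, K⁆, ∃ t₂ ∈ ⁅V, K⁆, t₁ ≠ 1 ∧ t₂ ≠ 1 ∧ t₁ ≠ t₂ := by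
    have hw₀ := hcW v₀ hv₀
    refine ⟨⁅v₀, k⁆, hw₀, k * ⁅v₀, k⁆ * k⁻¹, hκW _ hw₀, hv₀k, ?_, ?_⟩
    · intro h
      apply hv₀k
      calc ⁅v₀, k⁆ = k⁻¹ * (k * ⁅v₀, k⁆ * k⁻¹) * k := by group
        _ = 1 := by rw [h]; group
    · intro h
      exact hv₀k (hfpf _ hw₀ h.symm)
  exact count V A ⁅V, K⁆ k hV2 hAc hAV hWV hW2 hfpf hD hmax

example : Cfsg.Agent.H42.Sq.StCnt.{u} := cnt

end Cfsg.Agent.H17.Sq

#print axioms Cfsg.Agent.H17.Sq.cnt
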