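import Mathlib

set_option autoImplicit false

namespace Cfsg.Agent.H17

section PairTrans

variable {K V : Type*} [Field K] [AddCommGroup V] [Module K V]

/-- The symplectic transvection move `x ↦ x + a f(x,u) u`. -/
def tvMove (f : V →ₗ[K] V →ₗ[K] K) (u : V) (a : K) (x : V) : V := x + (a * f x u) • u

lemma alt_skew (f : V →ₗ[K] V →ₗ[K] K) (halt : ∀ x, f x x = 0) (x y : V) : f x y = - f y x := by
  have h := halt (x + y)
  simp only [map_add, LinearMap.add_apply, halt, zero_add, add_zero] at h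
  linear_combination h

lemma tvMove_form (f : V →ₗ[K] V →ₗ[K] K) (halt : ∀ x, f x x = 0) (u : V) (a : K) (x y : V) :
    f (tvMove f u a x) (tvMove f u a y) = f x y := by
  unfold tvMove
  simp only [map_add, LinearMap.add_apply, map_smul, LinearMap.smul_apply, smul_eq_mul, halt]
  rw [alt_skew f halt u y]
  ring

lemma tvMove_lin (f : V →ₗ[K] V →ₗ[K] K) (u : V) (a : K) (α β : K) (x y : V) :
    α • tvMove f u a x + β • tvMove f u a y = tvMove f u a (α • x + β • y) := by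
  unfold tvMove
  simp only [map_add, LinearMap.add_apply, map_smul, LinearMap.smul_apply, smul_eq_mul]
  module

lemma tvMove_inj (f : V →ₗ[K] V →ₗ[K] K) (halt : ∀ x, f x x = 0) (u : V) (a : K) (z : V)
    (h : tvMove f u a z = 0) : z = 0 := by
  have h1 : f (tvMove f u a z) u = f z u := by
    unfold tvMove
    simp [halt]
  rw [h] at h1
  simp only [map_zero, LinearMap.zero_apply] at h1
  unfold tvMove at h
  rw [← h1] at h
  simpa using h

/-- A pair of independent, mutually orthogonal vectors. -/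
def GoodPair (f : V →ₗ[K] V →ₗ[K] K) (x y : V) : Prop :=
  (∀ a b : K, a • x + b • y = 0 → a = 0 ∧ b = 0) ∧ f x y = 0

lemma GoodPair.move {f : V →ₗ[K] V →ₗ[K] K} (halt : ∀ x, f x x = 0) {x y : V}
    (h : GoodPair f x y) (u : V) (a : K) : GoodPair f (tvMove f u a x) (tvMove f u a y) := by
  refine ⟨fun α β hαβ => ?_, ?_⟩
  · rw [tvMove_lin] at hαβ
    exact h.1 α β (tvMove_inj f halt u a _ hαβ)
  · rw [tvMove_form f halt]
    exact h.2

lemma GoodPair.ne_left {f : V →ₗ[K] V →ₗ[K] K} {x y : V} (hg : GoodPair f x y) : x ≠ 0 := by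
  intro h0
  have := hg.1 1 0 (by simp [h0])
  exact one_ne_zero this.1

lemma GoodPair.ne_right {f : V →ₗ[K] V →ₗ[K] K} {x y : V} (hg : GoodPair f x y) : y ≠ 0 := by
  intro h0
  have := hg.1 0 1 (by simp [h0])
  exact one_ne_zero this.2

lemma exists_form_ne (f : V →ₗ[K] V →ₗ[K] K) (hnd : ∀ x, (∀ y, f x y = 0) → x = 0)
    (x : V) (hx0 : x ≠ 0) : ∃ z, f x z ≠ 0 := by
  by_contra hcon
  push Not at hcon
  exact hx0 (hnd x hcon)

/-- For independent `x, w` there is `z ⟂ x` with `f w z ≠ 0`. -/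
lemma exists_perp_ne (f : V →ₗ[K] V →ₗ[K] K) (hnd : ∀ x, (∀ y, f x y = 0) → x = 0)
    (x w : V) (hind : ∀ a b : K, a • x + b • w = 0 → a = 0 ∧ b = 0) :
    ∃ z, f x z = 0 ∧ f w z ≠ 0 := by
  by_contra hcon
  push Not at hcon
  have hx0 : x ≠ 0 := by
    intro h0
    exact one_ne_zero (hind 1 0 (by simp [h0])).1
  obtain ⟨z₀, hz₀⟩ := exists_form_ne f hnd x hx0
  have h0 : w - (f w z₀ / f x z₀) • x = 0 := by
    apply hnd
    intro z
    have h3 := hcon (z - (f x z / f x z₀) • z₀) (by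
      rw [map_sub, map_smul, smul_eq_mul]
      field_simp
      ring)
    rw [map_sub, map_smul, smul_eq_mul] at h3
    rw [map_sub, LinearMap.sub_apply, map_smul, LinearMap.smul_apply, smul_eq_mul]
    linear_combination h3
  have := hind (-(f w z₀ / f x z₀)) 1 (by rw [← h0]; module)
  exact one_ne_zero this.2

/-- The group generated by symplectic transvections is transitive on pairs of independent
mutually orthogonal vectors (stated for a set of pairs closed under the moves). -/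
theorem pair_trans (f : V →ₗ[K] V →ₗ[K] K) (halt : ∀ x, f x x = 0)
    (hnd : ∀ x, (∀ y, f x y = 0) → x = 0) (S : Set (V × V))
    (hS : ∀ p ∈ S, ∀ (u : V) (a : K), (tvMove f u a p.1, tvMove f u a p.2) ∈ S)
    {x₁ x₂ y₁ y₂ : V} (hx : GoodPair f x₁ x₂) (hy : GoodPair f y₁ y₂) (h : (x₁, x₂) ∈ S) :
    (y₁, y₂) ∈ S := by
  have skew := alt_skew f halt
  have E1 := exists_form_ne f hnd
  have E2 : ∀ x y : V, x ≠ 0 → y ≠ 0 → ∃ z, f x z ≠ 0 ∧ f y z ≠ 0 := by
    intro x y hx0 hy0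
    obtain ⟨z₁, hz₁⟩ := E1 x hx0
    obtain ⟨z₂, hz₂⟩ := E1 y hy0
    by_cases h1 : f y z₁ = 0
    · by_cases h2 : f x z₂ = 0
      · exact ⟨z₁ + z₂, by simp [map_add, h2, hz₁], by simp [map_add, h1, hz₂]⟩
      · exact ⟨z₂, h2, hz₂⟩
    · exact ⟨z₁, hz₁, h1⟩
  have M1 : ∀ {x x₂ : V} (y : V), GoodPair f x x₂ → (x, x₂) ∈ S → f x y ≠ 0 →
      ∃ x₂', GoodPair f y x₂' ∧ (y, x₂') ∈ S := by
    intro x x₂ y hg hmem hxy
    have key : tvMove f (y - x) (f x y)⁻¹ x = y := by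
      unfold tvMove
      rw [map_sub, halt, sub_zero, inv_mul_cancel₀ hxy, one_smul]
      abel
    have h1 := hg.move halt (y - x) (f x y)⁻¹
    have h2 := hS _ hmem (y - x) (f x y)⁻¹
    rw [key] at h1
    simp only [key] at h2
    exact ⟨_, h1, h2⟩
  obtain ⟨x₂', hg', hmem'⟩ : ∃ x₂', GoodPair f y₁ x₂' ∧ (y₁, x₂') ∈ S := by
    by_cases h1 : f x₁ y₁ = 0
    · obtain ⟨z, hz1, hz2⟩ := E2 x₁ y₁ hx.ne_left hy.ne_left
      obtain ⟨w, hw1, hw2⟩ := M1 z hx h hz1
      have : f z y₁ ≠ 0 := by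
        rw [skew]
        exact neg_ne_zero.mpr hz2
      exact M1 y₁ hw1 hw2 this
    · exact M1 y₁ hx h h1
  by_cases h2 : f x₂' y₂ = 0
  · obtain ⟨z, hz0, hz1, hz2⟩ : ∃ z, f y₁ z = 0 ∧ f x₂' z ≠ 0 ∧ f y₂ z ≠ 0 := by
      obtain ⟨z₁, hz₁0, hz₁⟩ := exists_perp_ne f hnd y₁ x₂' hg'.1
      obtain ⟨z₂, hz₂0, hz₂⟩ := exists_perp_ne f hnd y₁ y₂ hy.1
      by_cases h3 : f y₂ z₁ = 0
      · by_cases h4 : f x₂' z₂ = 0
        · exact ⟨z₁ + z₂, by simp [map_add, hz₁0, hz₂0], by simp [map_add, h4, hz₁],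
            by simp [map_add, h3, hz₂]⟩
        · exact ⟨z₂, hz₂0, h4, hz₂⟩
      · exact ⟨z₁, hz₁0, hz₁, h3⟩
    have m1 := hS _ hmem' (z - x₂') (f x₂' z)⁻¹
    have k1 : tvMove f (z - x₂') (f x₂' z)⁻¹ y₁ = y₁ := by
      unfold tvMove
      rw [map_sub, hz0, hg'.2, sub_zero, mul_zero, zero_smul, add_zero]
    have k2 : tvMove f (z - x₂') (f x₂' z)⁻¹ x₂' = z := by
      unfold tvMove
      rw [map_sub, halt, sub_zero, inv_mul_cancel₀ hz1, one_smul]
      abel
    simp only [k1, k2] at m1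
    have hzy : f z y₂ ≠ 0 := by
      rw [skew]
      exact neg_ne_zero.mpr hz2
    have m2 := hS _ m1 (y₂ - z) (f z y₂)⁻¹
    have k3 : tvMove f (y₂ - z) (f z y₂)⁻¹ y₁ = y₁ := by
      unfold tvMove
      rw [map_sub, hz0, hy.2, sub_zero, mul_zero, zero_smul, add_zero]
    have k4 : tvMove f (y₂ - z) (f z y₂)⁻¹ z = y₂ := by
      unfold tvMove
      rw [map_sub, halt, sub_zero, inv_mul_cancel₀ hzy, one_smul]
      abel
    simp only [k3, k4] at m2
    exact m2
  · have m1 := hS _ hmem' (y₂ - x₂') (f x₂' y₂)⁻¹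
    have k1 : tvMove f (y₂ - x₂') (f x₂' y₂)⁻¹ y₁ = y₁ := by
      unfold tvMove
      rw [map_sub, hy.2, hg'.2, sub_zero, mul_zero, zero_smul, add_zero]
    have k2 : tvMove f (y₂ - x₂') (f x₂' y₂)⁻¹ x₂' = y₂ := by
      unfold tvMove
      rw [map_sub, halt, sub_zero, inv_mul_cancel₀ h2, one_smul]
      abel
    simp only [k1, k2] at m1
    exact m1

end PairTrans

end Cfsg.Agent.H17
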