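import Cfsg.Agent.H95.SUMax
import Cfsg.Agent.H99.SubRat
import Cfsg.Agent.H17.SubPair

set_option autoImplicit false

namespace Cfsg.Agent.H17

open Matrix
open scoped MatrixGroups

section SubFld

variable {F : Type*} [Field F] [Fintype F] {q : ℕ}

omit [Fintype F] in
lemma sub_pow_eq [Finite F] (F₀ : Subfield F) (hq : Nat.card F₀ = q) {a : F} (ha : a ∈ F₀) :
    a ^ q = a := by
  classical
  have : Fintype F₀ := Fintype.ofFinite _
  have h := FiniteField.pow_card (⟨a, ha⟩ : F₀)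
  rw [← Nat.card_eq_fintype_card, hq] at h
  exact congrArg Subtype.val h

lemma mem_of_pow_eq (F₀ : Subfield F) (hq : Nat.card F₀ = q) (hq1 : 1 < q) {x : F}
    (hx : x ^ q = x) : x ∈ F₀ := by
  classical
  have : Fintype F₀ := Fintype.ofFinite _
  have hne : (Polynomial.X ^ q - Polynomial.X : Polynomial F) ≠ 0 :=
    FiniteField.X_pow_card_sub_X_ne_zero F hq1
  have hdeg : (Polynomial.X ^ q - Polynomial.X : Polynomial F).natDegree = q :=
    FiniteField.X_pow_card_sub_X_natDegree_eq F hq1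
  obtain ⟨R, hR⟩ : ∃ R : Finset F,
      R = (Polynomial.X ^ q - Polynomial.X : Polynomial F).roots.toFinset := ⟨_, rfl⟩
  have hmemR : ∀ y : F, y ∈ R ↔ y ^ q = y := by
    intro y
    rw [hR, Multiset.mem_toFinset, Polynomial.mem_roots hne, Polynomial.IsRoot.def]
    simp [sub_eq_zero]
  have hcardR : R.card ≤ q := by
    calc R.card ≤ Multiset.card (Polynomial.X ^ q - Polynomial.X : Polynomial F).roots := by
          rw [hR]
          exact Multiset.toFinset_card_le _
      _ ≤ _ := Polynomial.card_roots' _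
      _ = q := hdeg
  obtain ⟨I, hI⟩ : ∃ I : Finset F, I = (Finset.univ : Finset F₀).image Subtype.val := ⟨_, rfl⟩
  have hIcard : I.card = q := by
    rw [hI, Finset.card_image_of_injective _ Subtype.val_injective, Finset.card_univ,
      ← Nat.card_eq_fintype_card, hq]
  have hIR : I ⊆ R := by
    intro y hy
    rw [hI, Finset.mem_image] at hy
    obtain ⟨a, -, rfl⟩ := hy
    rw [hmemR]
    exact sub_pow_eq F₀ hq a.2
  have hEq : I = R := Finset.eq_of_subset_of_card_le hIR (by rw [hIcard]; exact hcardR)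
  have hxI : x ∈ I := by
    rw [hEq, hmemR]
    exact hx
  rw [hI, Finset.mem_image] at hxI
  obtain ⟨a, -, rfl⟩ := hxI
  exact a.2

lemma exists_omega (hF : Fintype.card F = q ^ 2) (F₀ : Subfield F) (hq : Nat.card F₀ = q) :
    ∃ ω : F, ω ^ q ≠ ω ∧ ∀ x : F, ∃ x₁ ∈ F₀, ∃ x₂ ∈ F₀, x = x₁ + ω * x₂ := by
  classical
  have hq1 : 1 < q := two_le_of_card_sq hF
  obtain ⟨φ, hφ⟩ := H95.exists_frob hF
  have hφφ : ∀ x, φ (φ x) = x := fun x => by
    rw [hφ, hφ]
    exact H95.frob_frob hF x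
  obtain ⟨ω, hω⟩ : ∃ ω : F, ω ^ q ≠ ω := by
    by_contra hcon
    push Not at hcon
    have : Fintype F₀ := Fintype.ofFinite _
    have h1 : Fintype.card F ≤ Fintype.card F₀ :=
      Fintype.card_le_of_injective
        (fun x : F => (⟨x, mem_of_pow_eq F₀ hq hq1 (hcon x)⟩ : F₀))
        (fun a b hab => by simpa using congrArg Subtype.val hab)
    rw [hF, ← Nat.card_eq_fintype_card, hq] at h1
    nlinarith
  refine ⟨ω, hω, fun x => ?_⟩
  have hd : φ ω - ω ≠ 0 := by
    rw [hφ]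
    exact sub_ne_zero.mpr hω
  have hd' : ω - φ ω ≠ 0 := by
    intro h
    apply hd
    linear_combination -h
  refine ⟨x - ω * ((φ x - x) / (φ ω - ω)), ?_, (φ x - x) / (φ ω - ω), ?_, by ring⟩
  · apply mem_of_pow_eq F₀ hq hq1
    rw [← hφ]
    simp only [map_sub, map_mul, map_div₀, hφφ]
    field_simp
    ring
  · apply mem_of_pow_eq F₀ hq hq1
    rw [← hφ]
    simp only [map_sub, map_div₀, hφφ]
    field_simp
    ring

lemma omega_unique (hF : Fintype.card F = q ^ 2) (F₀ : Subfield F) (hq : Nat.card F₀ = q)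
    {ω : F} (hω : ω ^ q ≠ ω) {a b : F} (ha : a ∈ F₀) (hb : b ∈ F₀) (h : a + ω * b = 0) :
    a = 0 ∧ b = 0 := by
  have hq1 : 1 < q := two_le_of_card_sq hF
  have h1 : a + ω ^ q * b = 0 := by
    have : (a + ω * b) ^ q = (0 : F) ^ q := congrArg (· ^ q) h
    rw [H95.frob_add hF, mul_pow, sub_pow_eq F₀ hq ha, sub_pow_eq F₀ hq hb,
      zero_pow (by omega)] at this
    exact this
  have h2 : (ω ^ q - ω) * b = 0 := by linear_combination h1 - h
  have hb0 : b = 0 := by
    rcases mul_eq_zero.mp h2 with h3 | h3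
    · exact absurd (sub_eq_zero.mp h3) hω
    · exact h3
  refine ⟨?_, hb0⟩
  rw [hb0] at h
  simpa using h

/-- Coordinatewise embedding of `F₀`-vectors. -/
def emb (F₀ : Subfield F) {n : ℕ} (u : Fin n → F₀) : Fin n → F := fun i => (u i : F)

omit [Fintype F] in
lemma emb_add (F₀ : Subfield F) {n : ℕ} (u v : Fin n → F₀) :
    emb F₀ (u + v) = emb F₀ u + emb F₀ v := rfl

omit [Fintype F] in
lemma emb_sub (F₀ : Subfield F) {n : ℕ} (u v : Fin n → F₀) :
    emb F₀ (u - v) = emb F₀ u - emb F₀ v := rfl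

omit [Fintype F] in
lemma emb_zero (F₀ : Subfield F) {n : ℕ} : emb F₀ (0 : Fin n → F₀) = 0 := rfl

omit [Fintype F] in
lemma emb_smul (F₀ : Subfield F) {n : ℕ} (a : F₀) (u : Fin n → F₀) :
    emb F₀ (a • u) = (a : F) • emb F₀ u := rfl

omit [Fintype F] in
lemma emb_rat (F₀ : Subfield F) {n : ℕ} (u : Fin n → F₀) (i : Fin n) : emb F₀ u i ∈ F₀ :=
  (u i).2

omit [Fintype F] in
lemma emb_injective (F₀ : Subfield F) {n : ℕ} : Function.Injective (emb F₀ (n := n)) := by
  intro u v h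
  funext i
  exact Subtype.ext (congrFun h i)

omit [Fintype F] in
lemma exists_emb (F₀ : Subfield F) {n : ℕ} (u : Fin n → F) (hu : ∀ i, u i ∈ F₀) :
    ∃ u₀ : Fin n → F₀, emb F₀ u₀ = u :=
  ⟨fun i => ⟨u i, hu i⟩, rfl⟩

omit [Fintype F] in
lemma exists_decomp (F₀ : Subfield F) {n : ℕ} {ω : F}
    (hω : ∀ x : F, ∃ x₁ ∈ F₀, ∃ x₂ ∈ F₀, x = x₁ + ω * x₂) (y : Fin n → F) :
    ∃ y₁ y₂ : Fin n → F₀, y = emb F₀ y₁ + ω • emb F₀ y₂ := by
  choose a ha b hb hab using hω
  refine ⟨fun i => ⟨a (y i), ha (y i)⟩, fun i => ⟨b (y i), hb (y i)⟩, ?_⟩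
  funext i
  exact hab (y i)

lemma decomp_unique (hF : Fintype.card F = q ^ 2) (F₀ : Subfield F) (hq : Nat.card F₀ = q)
    {n : ℕ} {ω : F} (hω : ω ^ q ≠ ω) {a b c d : Fin n → F₀}
    (h : emb F₀ a + ω • emb F₀ b = emb F₀ c + ω • emb F₀ d) : a = c ∧ b = d := by
  have key : ∀ i, a i = c i ∧ b i = d i := by
    intro i
    have hi := congrFun h i
    simp only [Pi.add_apply, Pi.smul_apply, smul_eq_mul, emb] at hi
    have := omega_unique hF F₀ hq hω (a := (a i : F) - c i) (b := (b i : F) - d i)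
      (F₀.sub_mem (a i).2 (c i).2) (F₀.sub_mem (b i).2 (d i).2) (by linear_combination hi)
    exact ⟨Subtype.ext (sub_eq_zero.mp this.1), Subtype.ext (sub_eq_zero.mp this.2)⟩
  exact ⟨funext fun i => (key i).1, funext fun i => (key i).2⟩

omit [Fintype F] in
lemma mem_subfield_conj {n : ℕ} (F₀ : Subfield F) (P g : GL (Fin n) F) :
    g ∈ Cfsg.Geo.subfieldSubgroup F₀ P ↔ P⁻¹ * g * P ∈ Cfsg.Geo.subfieldSubgroup F₀ 1 := by
  unfold Cfsg.Geo.subfieldSubgroup
  simp only [Subgroup.mem_map, MulEquiv.coe_toMonoidHom, MulAut.conj_apply]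
  constructor
  · rintro ⟨s, hs, rfl⟩
    exact ⟨s, hs, by group⟩
  · rintro ⟨s, hs, hsg⟩
    refine ⟨s, hs, ?_⟩
    have : s = P⁻¹ * g * P := by
      rw [← hsg]
      group
    rw [this]
    group

omit [Fintype F] in
/-- An invertible matrix mapping rational points to projectively rational points lies in the
subfield group. -/
theorem mem_subfield_of_proj {n : ℕ} (F₀ : Subfield F) (A : GL (Fin n) F)
    (h : ∀ u : Fin n → F, (∀ i, u i ∈ F₀) → ∃ (c : F) (u' : Fin n → F),
      (∀ i, u' i ∈ F₀) ∧ (A : Matrix (Fin n) (Fin n) F) *ᵥ u = c • u') :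
    A ∈ Cfsg.Geo.subfieldSubgroup F₀ 1 := by
  classical
  rw [H99.mem_subfield_iff]
  rcases Nat.eq_zero_or_pos n with hn | hn
  · subst hn
    exact ⟨1, one_ne_zero, fun i => i.elim0⟩
  obtain ⟨j₀⟩ : Nonempty (Fin n) := ⟨⟨0, hn⟩⟩
  obtain ⟨M, hM⟩ : ∃ M : Matrix (Fin n) (Fin n) F, M = (A : Matrix (Fin n) (Fin n) F) := ⟨_, rfl⟩
  rw [← hM] at h ⊢
  have hinj : ∀ v : Fin n → F, M *ᵥ v = 0 → v = 0 := by
    intro v hv
    have h1 := congrArg (fun w => ((A⁻¹ : GL (Fin n) F) : Matrix (Fin n) (Fin n) F) *ᵥ w) hv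
    simp only [Matrix.mulVec_mulVec, Matrix.mulVec_zero] at h1
    rw [hM, ← Units.val_mul, inv_mul_cancel, Units.val_one, Matrix.one_mulVec] at h1
    exact h1
  have hcol : ∀ j, M *ᵥ (Pi.single j 1) = fun i => M i j := by
    intro j
    rw [Matrix.mulVec_single_one]
    rfl
  obtain ⟨i₀, hi₀⟩ : ∃ i₀, M i₀ j₀ ≠ 0 := by
    by_contra hcon
    push Not at hcon
    have h1 : M *ᵥ (Pi.single j₀ 1) = 0 := by
      rw [hcol]
      funext i
      exact hcon i
    have h2 := congrFun (hinj _ h1) j₀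
    simp at h2
  have norm : ∀ (x : Fin n → F) (d : F) (u' : Fin n → F), (∀ i, u' i ∈ F₀) → x = d • u' →
      ∀ i i', x i' ≠ 0 → x i / x i' ∈ F₀ := by
    intro x d u' hu' hx i i' hne
    rw [hx] at hne ⊢
    simp only [Pi.smul_apply, smul_eq_mul] at hne ⊢
    have hd : d ≠ 0 := fun h0 => hne (by rw [h0, zero_mul])
    have hu0 : u' i' ≠ 0 := fun h0 => hne (by rw [h0, mul_zero])
    have : d * u' i / (d * u' i') = u' i / u' i' := by field_simp
    rw [this]
    exact F₀.div_mem (hu' i) (hu' i')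
  obtain ⟨c, hc⟩ : ∃ c : F, c = (M i₀ j₀)⁻¹ := ⟨_, rfl⟩
  have hc0 : c ≠ 0 := by
    rw [hc]
    exact inv_ne_zero hi₀
  refine ⟨c, hc0, fun i j => ?_⟩
  obtain ⟨d₀, u₀, hu₀, hcol₀⟩ := h (Pi.single j₀ 1) (H99.rat_single F₀ j₀)
  rw [hcol] at hcol₀
  have hx : ∀ i, c * M i j₀ ∈ F₀ := by
    intro i
    have := norm _ d₀ u₀ hu₀ hcol₀ i i₀ hi₀
    rw [hc, inv_mul_eq_div]
    exact this
  have hx1 : c * M i₀ j₀ = 1 := by
    rw [hc, inv_mul_cancel₀ hi₀]
  by_cases hj : j = j₀
  · rw [hj]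
    exact hx i
  obtain ⟨d, y, hy, hcolj⟩ := h (Pi.single j 1) (H99.rat_single F₀ j)
  rw [hcol] at hcolj
  have hMj : ∀ i, M i j = d * y i := by
    intro i
    have := congrFun hcolj i
    simpa using this
  obtain ⟨e, z, hz, hsum⟩ := h (Pi.single j₀ 1 + Pi.single j 1)
    (fun i => F₀.add_mem (H99.rat_single F₀ j₀ i) (H99.rat_single F₀ j i))
  rw [Matrix.mulVec_add, hcol, hcol] at hsum
  have hrel : ∀ i, c * M i j₀ + (c * d) * y i = (c * e) * z i := by
    intro i
    have h1 := congrFun hsum i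
    simp only [Pi.add_apply, Pi.smul_apply, smul_eq_mul] at h1
    rw [hMj i] at h1
    linear_combination c * h1
  have hρ : c * d ∈ F₀ := by
    by_contra hρ
    have claim1 : ∀ i i', z i' * y i - z i * y i' = 0 := by
      intro i i'
      by_contra hne
      apply hρ
      have h3 : c * d = (z i * (c * M i' j₀) - z i' * (c * M i j₀)) / (z i' * y i - z i * y i') := by
        rw [eq_div_iff hne]
        linear_combination z i' * hrel i - z i * hrel i'
      rw [h3]
      exact F₀.div_mem (F₀.sub_mem (F₀.mul_mem (hz i) (hx i')) (F₀.mul_mem (hz i') (hx i)))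
        (F₀.sub_mem (F₀.mul_mem (hz i') (hy i)) (F₀.mul_mem (hz i) (hy i')))
    have claim2 : ∀ i i', z i * (c * M i' j₀) - z i' * (c * M i j₀) = 0 := by
      intro i i'
      linear_combination z i * hrel i' - z i' * hrel i + c * d * claim1 i i'
    have hz0 : z i₀ ≠ 0 := by
      intro h0
      have h4 := hrel i₀
      rw [hx1, h0, mul_zero] at h4
      have hy0 : y i₀ ≠ 0 := by
        intro h5
        rw [h5, mul_zero, add_zero] at h4
        exact one_ne_zero h4
      apply hρ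
      have h6 : c * d = -(y i₀)⁻¹ := by
        field_simp
        linear_combination h4
      rw [h6]
      exact F₀.neg_mem (F₀.inv_mem (hy i₀))
    -- columns proportional
    have hprop : ∀ i, M i j = (d * y i₀) * (c * M i j₀) := by
      intro i
      rw [hMj i]
      have h7 := claim1 i i₀
      have h8 := claim2 i i₀
      rw [hx1] at h8
      have h9 : y i = y i₀ * (c * M i j₀) := by
        have : z i₀ * (y i - y i₀ * (c * M i j₀)) = 0 := by
          linear_combination h7 + y i₀ * h8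
        rcases mul_eq_zero.mp this with h10 | h10
        · exact absurd h10 hz0
        · exact sub_eq_zero.mp h10
      rw [h9]
      ring
    have h11 : M *ᵥ (Pi.single j 1 - (d * y i₀ * c) • Pi.single j₀ 1) = 0 := by
      rw [Matrix.mulVec_sub, Matrix.mulVec_smul, hcol, hcol]
      funext i
      simp only [Pi.sub_apply, Pi.smul_apply, smul_eq_mul, Pi.zero_apply]
      rw [hprop i]
      ring
    have h12 := congrFun (hinj _ h11) j
    simp [hj] at h12
  rw [hMj i, ← mul_assoc]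
  exact F₀.mul_mem hρ (hy i)

end SubFld

end Cfsg.Agent.H17
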