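import Cfsg.Agent.H17.SubFld

set_option autoImplicit false

namespace Cfsg.Agent.H17

open Cfsg Cfsg.Geo Matrix
open scoped MatrixGroups

section SubSU

variable {F : Type*} [Field F] [Fintype F] {n q : ℕ}

/-- The `F₀`-bilinear form `ζ h(Pu, Pv)` on `F₀^n`. -/
noncomputable def ratForm (hF : Fintype.card F = q ^ 2) (F₀ : Subfield F) (hq : Nat.card F₀ = q)
    (ζ : F) (P : GL (Fin n) F) (hP : IsFormRationalStructure (hermForm n F q) F₀ ζ P) :
    (Fin n → F₀) →ₗ[F₀] (Fin n → F₀) →ₗ[F₀] F₀ :=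
  LinearMap.mk₂ F₀
    (fun u v => ⟨ζ * hermForm n F q ((P : Matrix (Fin n) (Fin n) F) *ᵥ emb F₀ u)
      ((P : Matrix (Fin n) (Fin n) F) *ᵥ emb F₀ v), hP _ _ (emb_rat F₀ u) (emb_rat F₀ v)⟩)
    (by
      intro u u' v
      apply Subtype.ext
      simp only [emb_add, Matrix.mulVec_add, H95.hermForm_add_left, mul_add, Subfield.coe_add])
    (by
      intro c u v
      apply Subtype.ext
      simp only [emb_smul, Matrix.mulVec_smul, H95.hermForm_smul_left, smul_eq_mul,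
        Subfield.coe_mul]
      ring)
    (by
      intro u v v'
      apply Subtype.ext
      simp only [emb_add, Matrix.mulVec_add, H95.hermForm_add_right hF, mul_add, Subfield.coe_add])
    (by
      intro c u v
      apply Subtype.ext
      simp only [emb_smul, Matrix.mulVec_smul, H95.hermForm_smul_right, smul_eq_mul,
        Subfield.coe_mul, sub_pow_eq F₀ hq c.2]
      ring)

lemma ratForm_apply (hF : Fintype.card F = q ^ 2) (F₀ : Subfield F) (hq : Nat.card F₀ = q)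
    (ζ : F) (P : GL (Fin n) F) (hP : IsFormRationalStructure (hermForm n F q) F₀ ζ P)
    (u v : Fin n → F₀) :
    ((ratForm hF F₀ hq ζ P hP u v : F₀) : F) =
      ζ * hermForm n F q ((P : Matrix (Fin n) (Fin n) F) *ᵥ emb F₀ u)
        ((P : Matrix (Fin n) (Fin n) F) *ᵥ emb F₀ v) := rfl

/-- The symplectic-type subfield subgroup (`Sp_n(q)` with scalars) is maximal in `SU_n(q)`. -/
theorem sp_subfield_maximal (hF : Fintype.card F = q ^ 2) (hn : 3 ≤ n)
    (h32 : ¬ (n = 3 ∧ q = 2)) (F₀ : Subfield F) (hcard : Fintype.card F = Nat.card F₀ ^ 2)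
    (ζ : F) (hζ0 : ζ ≠ 0) (hζ : ζ + ζ ^ q = 0) (P : GL (Fin n) F)
    (hP : IsFormRationalStructure (hermForm n F q) F₀ ζ P)
    (halt : ∀ u : Fin n → F, (∀ i, u i ∈ F₀) →
      hermForm n F q ((P : Matrix (Fin n) (Fin n) F) *ᵥ u)
        ((P : Matrix (Fin n) (Fin n) F) *ᵥ u) = 0) :
    IsMaximalIn (GU n F q ⊓ specialLinear (Fin n) F)
      (subfieldSubgroup F₀ P ⊓ (GU n F q ⊓ specialLinear (Fin n) F)) := by
  classical
  have hq2 : 2 ≤ q := two_le_of_card_sq hF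
  have hq : Nat.card F₀ = q := by
    have h1 : Nat.card F₀ ^ 2 = q ^ 2 := by rw [← hcard, hF]
    exact Nat.pow_left_injective (by norm_num) h1
  obtain ⟨ω, hω, hdec⟩ := exists_omega hF F₀ hq
  obtain ⟨PM, hPM⟩ : ∃ PM : Matrix (Fin n) (Fin n) F, PM = (P : Matrix (Fin n) (Fin n) F) :=
    ⟨_, rfl⟩
  have hPinv : ∀ v : Fin n → F,
      ((P⁻¹ : GL (Fin n) F) : Matrix (Fin n) (Fin n) F) *ᵥ (PM *ᵥ v) = v := by
    intro v
    rw [hPM, Matrix.mulVec_mulVec, ← Units.val_mul, inv_mul_cancel, Units.val_one,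
      Matrix.one_mulVec]
  have hPinv' : ∀ v : Fin n → F,
      PM *ᵥ (((P⁻¹ : GL (Fin n) F) : Matrix (Fin n) (Fin n) F) *ᵥ v) = v := by
    intro v
    rw [hPM, Matrix.mulVec_mulVec, ← Units.val_mul, mul_inv_cancel, Units.val_one,
      Matrix.one_mulVec]
  obtain ⟨f, hf⟩ : ∃ f : (Fin n → F₀) →ₗ[F₀] (Fin n → F₀) →ₗ[F₀] F₀, ∀ u v,
      ((f u v : F₀) : F) = ζ * hermForm n F q (PM *ᵥ emb F₀ u) (PM *ᵥ emb F₀ v) :=
    ⟨ratForm hF F₀ hq ζ P hP, fun u v => by rw [hPM]; rfl⟩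
  have hh : ∀ u v, hermForm n F q (PM *ᵥ emb F₀ u) (PM *ᵥ emb F₀ v) = ζ⁻¹ * ((f u v : F₀) : F) := by
    intro u v
    rw [hf]
    field_simp
  have falt : ∀ x, f x x = 0 := by
    intro x
    apply Subtype.ext
    rw [hf, hPM, halt _ (emb_rat F₀ x), mul_zero]
    rfl
  have fnd : ∀ x, (∀ y, f x y = 0) → x = 0 := by
    intro x hx
    have h1 : ∀ y : Fin n → F₀, hermForm n F q (PM *ᵥ emb F₀ x) (PM *ᵥ emb F₀ y) = 0 := by
      intro y
      rw [hh, hx y]
      simp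
    have h2 : ∀ v : Fin n → F, hermForm n F q (PM *ᵥ emb F₀ x) (PM *ᵥ v) = 0 := by
      intro v
      obtain ⟨v₁, v₂, rfl⟩ := exists_decomp F₀ hdec v
      rw [Matrix.mulVec_add, Matrix.mulVec_smul, H95.hermForm_add_right hF,
        H95.hermForm_smul_right, h1, h1]
      simp
    have h3 : PM *ᵥ emb F₀ x = 0 := by
      funext i
      have h4 := h2 (((P⁻¹ : GL (Fin n) F) : Matrix (Fin n) (Fin n) F) *ᵥ Pi.single i 1)
      rw [hPinv'] at h4
      unfold hermForm at h4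
      rw [Finset.sum_eq_single i] at h4
      · simpa using h4
      · intro j _ hji
        rw [Pi.single_eq_of_ne hji, zero_pow (by omega), mul_zero]
      · intro hi
        exact absurd (Finset.mem_univ i) hi
    have h5 : emb F₀ x = 0 := by
      have h6 := hPinv (emb F₀ x)
      rw [h3, Matrix.mulVec_zero] at h6
      exact h6.symm
    exact emb_injective F₀ (h5.trans (emb_zero F₀).symm)
  have hcz : ∀ c : F, c + c ^ q = 0 → c * ζ⁻¹ ∈ F₀ := by
    intro c hc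
    apply mem_of_pow_eq F₀ hq (by omega)
    have h1 : c ^ q = -c := by linear_combination hc
    have h2 : ζ ^ q = -ζ := by linear_combination hζ
    rw [mul_pow, inv_pow, h1, h2, inv_neg, neg_mul_neg]
  obtain ⟨H, hH⟩ : ∃ H : Subgroup (GL (Fin n) F),
      H = subfieldSubgroup F₀ P ⊓ (GU n F q ⊓ specialLinear (Fin n) F) := ⟨_, rfl⟩
  rw [← hH]
  -- rational points are centres for `H`
  have hrat : ∀ u : Fin n → F₀, PM *ᵥ emb F₀ u ∈ H95.uCenters q H := by
    intro u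
    have hv : hermForm n F q (PM *ᵥ emb F₀ u) (PM *ᵥ emb F₀ u) = 0 := by
      rw [hPM]
      exact halt _ (emb_rat F₀ u)
    refine ⟨hv, fun c hc => ?_⟩
    rw [hH]
    refine Subgroup.mem_inf.mpr ⟨?_, Subgroup.mem_inf.mpr
      ⟨H95.unitTransv_mem_GU hF _ c hv hc, H95.unitTransv_mem_specialLinear _ c hv⟩⟩
    rw [mem_subfield_conj, H99.mem_subfield_iff]
    refine ⟨1, one_ne_zero, fun i j => ?_⟩
    have h1 : ((P⁻¹ * H95.unitTransv q (PM *ᵥ emb F₀ u) c hv * P : GL (Fin n) F) :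
        Matrix (Fin n) (Fin n) F) *ᵥ Pi.single j 1 =
        emb F₀ (Pi.single j 1) + (c * ζ⁻¹ * ((f (Pi.single j 1) u : F₀) : F)) • emb F₀ u := by
      have h2 : (Pi.single j 1 : Fin n → F) = emb F₀ (Pi.single j 1) := by
        funext k
        unfold emb
        by_cases hk : k = j
        · subst hk
          simp
        · simp [Pi.single_eq_of_ne hk]
      rw [Units.val_mul, Units.val_mul, ← Matrix.mulVec_mulVec, ← Matrix.mulVec_mulVec,
        H95.unitTransv_mulVec, ← hPM, h2, hh, Matrix.mulVec_add, Matrix.mulVec_smul, hPinv, hPinv]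
      congr 2
      ring
    have h3 := congrFun h1 i
    rw [Matrix.mulVec_single_one] at h3
    rw [one_mul]
    change ((P⁻¹ * H95.unitTransv q (PM *ᵥ emb F₀ u) c hv * P : GL (Fin n) F) :
        Matrix (Fin n) (Fin n) F) i j = _ at h3
    rw [h3]
    simp only [Pi.add_apply, Pi.smul_apply, smul_eq_mul]
    exact F₀.add_mem (emb_rat F₀ _ i)
      (F₀.mul_mem (F₀.mul_mem (hcz c hc) (f (Pi.single j 1) u).2) (emb_rat F₀ u i))
  have hmono : ∀ {M : Subgroup (GL (Fin n) F)}, H ≤ M → ∀ v, v ∈ H95.uCenters q H →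
      v ∈ H95.uCenters q M := by
    intro M hHM v hv
    obtain ⟨hv0, hvM⟩ := hv
    exact ⟨hv0, fun c hc => hHM (hvM c hc)⟩
  have hiso : ∀ x₁ x₂ : Fin n → F₀,
      hermForm n F q (PM *ᵥ (emb F₀ x₁ + ω • emb F₀ x₂)) (PM *ᵥ (emb F₀ x₁ + ω • emb F₀ x₂)) =
        (ω ^ q - ω) * ζ⁻¹ * ((f x₁ x₂ : F₀) : F) := by
    intro x₁ x₂
    rw [Matrix.mulVec_add, Matrix.mulVec_smul]
    simp only [H95.hermForm_add_left, H95.hermForm_add_right hF, H95.hermForm_smul_left,
      H95.hermForm_smul_right, hh]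
    have h1 : f x₂ x₁ = - f x₁ x₂ := alt_skew f falt x₂ x₁
    rw [falt, falt, h1]
    push_cast
    ring
  have hiso0 : ∀ x₁ x₂ : Fin n → F₀,
      hermForm n F q (PM *ᵥ (emb F₀ x₁ + ω • emb F₀ x₂)) (PM *ᵥ (emb F₀ x₁ + ω • emb F₀ x₂)) = 0 →
        f x₁ x₂ = 0 := by
    intro x₁ x₂ hw0
    rw [hiso] at hw0
    have h1 : ((f x₁ x₂ : F₀) : F) = 0 := by
      rcases mul_eq_zero.mp hw0 with h1 | h1
      · rcases mul_eq_zero.mp h1 with h2 | h2
        · exact absurd (sub_eq_zero.mp h2) hω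
        · exact absurd h2 (inv_ne_zero hζ0)
      · exact h1
    exact Subtype.ext h1
  have hdep' : ∀ (x₁ x₂ : Fin n → F₀) (a b : F₀), a • x₁ + b • x₂ = 0 → ¬ (a = 0 ∧ b = 0) →
      ∃ (c : F) (u' : Fin n → F₀), emb F₀ x₁ + ω • emb F₀ x₂ = c • emb F₀ u' := by
    intro x₁ x₂ a b hab hne
    by_cases hb : b = 0
    · have ha : a ≠ 0 := fun h => hne ⟨h, hb⟩
      have hx1 : x₁ = 0 := by
        rw [hb, zero_smul, add_zero] at hab
        exact (smul_eq_zero.mp hab).resolve_left ha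
      exact ⟨ω, x₂, by rw [hx1, emb_zero, zero_add]⟩
    · have hx2 : x₂ = (-(b⁻¹ * a)) • x₁ := by
        have h1 : b • x₂ = -(a • x₁) := eq_neg_of_add_eq_zero_right hab
        have h2 : x₂ = b⁻¹ • (b • x₂) := by rw [smul_smul, inv_mul_cancel₀ hb, one_smul]
        rw [h2, h1, smul_neg, smul_smul, neg_smul]
      refine ⟨1 + ω * ((-(b⁻¹ * a) : F₀) : F), x₁, ?_⟩
      rw [hx2, emb_smul, smul_smul, add_smul, one_smul]
  refine ⟨?_, ?_⟩
  · -- `H < G`
    refine lt_of_le_of_ne (by rw [hH]; exact inf_le_right) ?_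
    intro hHG
    obtain ⟨x₁, x₂, hgood⟩ : ∃ x₁ x₂, GoodPair f x₁ x₂ := by
      obtain ⟨e0, he0⟩ : ∃ e0 : Fin n → F₀, e0 = Pi.single ⟨0, by omega⟩ 1 := ⟨_, rfl⟩
      obtain ⟨e1, he1⟩ : ∃ e1 : Fin n → F₀, e1 = Pi.single ⟨1, by omega⟩ 1 := ⟨_, rfl⟩
      obtain ⟨e2, he2⟩ : ∃ e2 : Fin n → F₀, e2 = Pi.single ⟨2, by omega⟩ 1 := ⟨_, rfl⟩
      have e00 : e0 ⟨0, by omega⟩ = 1 := by rw [he0, Pi.single_eq_same]
      have e02 : e0 ⟨2, by omega⟩ = 0 := by
        rw [he0, Pi.single_eq_of_ne (by simp [Fin.ext_iff])]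
      have e01 : e0 ⟨1, by omega⟩ = 0 := by
        rw [he0, Pi.single_eq_of_ne (by simp [Fin.ext_iff])]
      have e10 : e1 ⟨0, by omega⟩ = 0 := by
        rw [he1, Pi.single_eq_of_ne (by simp [Fin.ext_iff])]
      have e11 : e1 ⟨1, by omega⟩ = 1 := by rw [he1, Pi.single_eq_same]
      have e12 : e1 ⟨2, by omega⟩ = 0 := by
        rw [he1, Pi.single_eq_of_ne (by simp [Fin.ext_iff])]
      have e20 : e2 ⟨0, by omega⟩ = 0 := by
        rw [he2, Pi.single_eq_of_ne (by simp [Fin.ext_iff])]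
      have e22 : e2 ⟨2, by omega⟩ = 1 := by rw [he2, Pi.single_eq_same]
      by_cases ha : f e0 e1 = 0
      · refine ⟨e0, e1, ⟨fun α β hαβ => ?_, ha⟩⟩
        have h0 := congrFun hαβ ⟨0, by omega⟩
        have h1 := congrFun hαβ ⟨1, by omega⟩
        simp only [Pi.add_apply, Pi.smul_apply, smul_eq_mul, e00, e10, e01, e11, mul_one,
          mul_zero, add_zero, zero_add, Pi.zero_apply] at h0 h1
        exact ⟨h0, h1⟩
      · refine ⟨e0, f e0 e2 • e1 - f e0 e1 • e2, ⟨fun α β hαβ => ?_, ?_⟩⟩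
        · have h0 := congrFun hαβ ⟨0, by omega⟩
          have h2 := congrFun hαβ ⟨2, by omega⟩
          simp only [Pi.add_apply, Pi.smul_apply, Pi.sub_apply, smul_eq_mul, e00, e10, e20, e02,
            e12, e22, mul_one, mul_zero, add_zero, zero_add, sub_zero, zero_sub,
            Pi.zero_apply] at h0 h2
          refine ⟨h0, ?_⟩
          rcases mul_eq_zero.mp h2 with h3 | h3
          · exact h3
          · exact absurd (neg_eq_zero.mp h3) ha
        · simp only [map_sub, map_smul, smul_eq_mul]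
          ring
    obtain ⟨z, hz0, hz1⟩ := exists_perp_ne f fnd x₂ x₁ (fun a b hab => by
      have h1 := hgood.1 b a (by rw [add_comm]; exact hab)
      exact ⟨h1.2, h1.1⟩)
    obtain ⟨v, hv⟩ : ∃ v : Fin n → F₀, v = (-(f x₁ z)⁻¹) • z := ⟨_, rfl⟩
    have hv1 : f v x₁ = 1 := by
      rw [hv, map_smul, LinearMap.smul_apply, smul_eq_mul, alt_skew f falt z x₁]
      field_simp
    have hv2 : f v x₂ = 0 := by
      rw [hv, map_smul, LinearMap.smul_apply, smul_eq_mul, alt_skew f falt z x₂, hz0]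
      simp
    obtain ⟨w, hw⟩ : ∃ w : Fin n → F, w = PM *ᵥ (emb F₀ x₁ + ω • emb F₀ x₂) := ⟨_, rfl⟩
    have hw0 : hermForm n F q w w = 0 := by
      rw [hw, hiso, hgood.2]
      simp
    have ht : H95.unitTransv q w ζ hw0 ∈ H := by
      rw [hHG]
      exact Subgroup.mem_inf.mpr ⟨H95.unitTransv_mem_GU hF w ζ hw0 hζ,
        H95.unitTransv_mem_specialLinear w ζ hw0⟩
    rw [hH] at ht
    have ht' := (Subgroup.mem_inf.mp ht).1
    rw [mem_subfield_conj] at ht'
    obtain ⟨c, M₀, hc, hM₀⟩ := H99.exists_smul_of_mem_subfield F₀ _ ht'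
    have h1 : ((P⁻¹ * H95.unitTransv q w ζ hw0 * P : GL (Fin n) F) :
        Matrix (Fin n) (Fin n) F) *ᵥ emb F₀ v = emb F₀ (v + x₁) + ω • emb F₀ x₂ := by
      rw [Units.val_mul, Units.val_mul, ← Matrix.mulVec_mulVec, ← Matrix.mulVec_mulVec,
        H95.unitTransv_mulVec, ← hPM]
      have h2 : ζ * hermForm n F q (PM *ᵥ emb F₀ v) w = 1 := by
        rw [hw, Matrix.mulVec_add, Matrix.mulVec_smul, H95.hermForm_add_right hF,
          H95.hermForm_smul_right, hh, hh, hv1, hv2]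
        push_cast
        field_simp
        ring
      rw [h2, one_smul, Matrix.mulVec_add, hPinv, hw, hPinv, emb_add]
      abel
    rw [hM₀] at h1
    have h3 : (c • M₀.map F₀.subtype) *ᵥ emb F₀ v = c • emb F₀ (M₀ *ᵥ v) := by
      rw [Matrix.smul_mulVec]
      congr 1
      funext i
      simp [Matrix.mulVec, dotProduct, emb]
    rw [h3] at h1
    obtain ⟨c₁, hc₁, c₂, hc₂, hcc⟩ := hdec c
    have h4 : emb F₀ ((⟨c₁, hc₁⟩ : F₀) • (M₀ *ᵥ v)) + ω • emb F₀ ((⟨c₂, hc₂⟩ : F₀) • (M₀ *ᵥ v)) =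
        emb F₀ (v + x₁) + ω • emb F₀ x₂ := by
      rw [← h1, hcc, emb_smul, emb_smul, smul_smul, ← add_smul]
    obtain ⟨h5, h6⟩ := decomp_unique hF F₀ hq hω h4
    have h7 : (⟨c₂, hc₂⟩ : F₀) • (v + x₁) - (⟨c₁, hc₁⟩ : F₀) • x₂ = 0 := by
      rw [← h5, ← h6, smul_smul, smul_smul, mul_comm, sub_self]
    have h8 := congrArg (fun t => f t x₁) h7
    simp only [map_sub, map_add, map_smul, LinearMap.sub_apply, LinearMap.add_apply,
      LinearMap.smul_apply, smul_eq_mul, hv1, falt, map_zero, LinearMap.zero_apply] at h8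
    rw [alt_skew f falt x₂ x₁, hgood.2] at h8
    have hc2 : (⟨c₂, hc₂⟩ : F₀) = 0 := by simpa using h8
    rw [hc2, zero_smul] at h6
    exact hgood.ne_right h6.symm
  · intro M hHM hMG
    by_cases hMH : M ≤ H
    · exact Or.inl (le_antisymm hMH hHM)
    right
    apply le_antisymm hMG
    obtain ⟨g, hgM, hgH⟩ := SetLike.not_le_iff_exists.mp hMH
    have hgG : g ∈ GU n F q ⊓ specialLinear (Fin n) F := hMG hgM
    have hgS : g ∉ subfieldSubgroup F₀ P := fun h => hgH (by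
      rw [hH]
      exact Subgroup.mem_inf.mpr ⟨h, hgG⟩)
    rw [mem_subfield_conj] at hgS
    have hex : ∃ u : Fin n → F, (∀ i, u i ∈ F₀) ∧ ¬ ∃ (c : F) (u' : Fin n → F),
        (∀ i, u' i ∈ F₀) ∧
          ((P⁻¹ * g * P : GL (Fin n) F) : Matrix (Fin n) (Fin n) F) *ᵥ u = c • u' := by
      by_contra hcon
      apply hgS
      apply mem_subfield_of_proj
      intro u hu
      by_contra h'
      exact hcon ⟨u, hu, h'⟩
    obtain ⟨u, hu, hnot⟩ := hex
    obtain ⟨u₀, rfl⟩ := exists_emb F₀ u hu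
    obtain ⟨x₁, x₂, hx⟩ := exists_decomp F₀ hdec
      (((P⁻¹ * g * P : GL (Fin n) F) : Matrix (Fin n) (Fin n) F) *ᵥ emb F₀ u₀)
    obtain ⟨C, hC⟩ : ∃ C : Set (Fin n → F), C = H95.uCenters q M := ⟨_, rfl⟩
    have hw : PM *ᵥ (emb F₀ x₁ + ω • emb F₀ x₂) ∈ C := by
      rw [← hx, hPM, Matrix.mulVec_mulVec, ← Units.val_mul]
      have h1 : P * (P⁻¹ * g * P) = g * P := by group
      rw [h1, Units.val_mul, ← Matrix.mulVec_mulVec, hC]
      exact H95.uCenters_mulVec hgM (Subgroup.mem_inf.mp hgG).1 (hmono hHM _ (by rw [← hPM]; exact hrat u₀))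
    have hgood : GoodPair f x₁ x₂ := by
      refine ⟨fun a b hab => ?_, ?_⟩
      · by_contra hne
        apply hnot
        obtain ⟨c, u', hcu⟩ := hdep' x₁ x₂ a b hab hne
        exact ⟨c, emb F₀ u', emb_rat F₀ u', by rw [hx, hcu]⟩
      · rw [hC] at hw
        obtain ⟨hw0, -⟩ := hw
        exact hiso0 x₁ x₂ hw0
    obtain ⟨S, hSdef⟩ : ∃ S : Set ((Fin n → F₀) × (Fin n → F₀)),
        S = {p | PM *ᵥ (emb F₀ p.1 + ω • emb F₀ p.2) ∈ C} := ⟨_, rfl⟩
    have hS : ∀ p ∈ S, ∀ (u : Fin n → F₀) (a : F₀), (tvMove f u a p.1, tvMove f u a p.2) ∈ S := by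
      intro p hp u a
      rw [hSdef] at hp ⊢
      have hp' : PM *ᵥ (emb F₀ p.1 + ω • emb F₀ p.2) ∈ H95.uCenters q M := by
        rw [← hC]
        exact hp
      have hc : (a : F) * ζ + ((a : F) * ζ) ^ q = 0 := by
        rw [mul_pow, sub_pow_eq F₀ hq a.2]
        linear_combination (a : F) * hζ
      have h1 := H95.uCenters_transv hF (hmono hHM _ (hrat u)) hp' ((a : F) * ζ) hc
      show PM *ᵥ (emb F₀ (tvMove f u a p.1) + ω • emb F₀ (tvMove f u a p.2)) ∈ C
      have h2 : PM *ᵥ (emb F₀ (tvMove f u a p.1) + ω • emb F₀ (tvMove f u a p.2)) =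
          PM *ᵥ (emb F₀ p.1 + ω • emb F₀ p.2) +
            ((a : F) * ζ * hermForm n F q (PM *ᵥ (emb F₀ p.1 + ω • emb F₀ p.2))
              (PM *ᵥ emb F₀ u)) • (PM *ᵥ emb F₀ u) := by
        unfold tvMove
        rw [emb_add, emb_add, emb_smul, emb_smul]
        simp only [Matrix.mulVec_add, Matrix.mulVec_smul, H95.hermForm_add_left,
          H95.hermForm_smul_left, hh]
        push_cast
        have h3 : (a : F) * ζ * (ζ⁻¹ * ((f p.1 u : F₀) : F) + ω * (ζ⁻¹ * ((f p.2 u : F₀) : F))) =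
            (a : F) * ((f p.1 u : F₀) : F) + ω * ((a : F) * ((f p.2 u : F₀) : F)) := by
          field_simp
        rw [h3]
        module
      rw [h2, hC]
      exact h1
    have hall : ∀ v : Fin n → F, hermForm n F q v v = 0 → v ∈ C := by
      intro v hv
      obtain ⟨y₁, y₂, hy⟩ := exists_decomp F₀ hdec
        (((P⁻¹ : GL (Fin n) F) : Matrix (Fin n) (Fin n) F) *ᵥ v)
      have hv' : v = PM *ᵥ (emb F₀ y₁ + ω • emb F₀ y₂) := by
        rw [← hy, hPinv']
      by_cases hind : ∀ a b : F₀, a • y₁ + b • y₂ = 0 → a = 0 ∧ b = 0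
      · have hgy : GoodPair f y₁ y₂ := by
          refine ⟨hind, ?_⟩
          rw [hv'] at hv
          exact hiso0 y₁ y₂ hv
        have h1 : (y₁, y₂) ∈ S := pair_trans f falt fnd S hS hgood hgy (by rw [hSdef]; exact hw)
        rw [hSdef] at h1
        rw [hv']
        exact h1
      · push Not at hind
        obtain ⟨a, b, hab, hne⟩ := hind
        obtain ⟨c, u', hcu⟩ := hdep' y₁ y₂ a b hab (fun h => hne h.1 h.2)
        rw [hv', hcu, Matrix.mulVec_smul, hC]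
        exact H95.uCenters_smul hF (hmono hHM _ (hrat u')) c
    exact H95.suGL_le_of_transv hF hn h32 M (fun v c hv hc =>
      H95.uCenters_of_mem (by rw [← hC]; exact hall v hv) c hv hc)

end SubSU

end Cfsg.Agent.H17
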