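import Mathlib
import Cfsg.Agent.H17.FiniteQuad

set_option autoImplicit false

/-! Helper lemmas (helper17): totally singular subspaces of the form `Σ x_i²`. -/

namespace Cfsg.Agent.H17

/-- `TSsq F ι d`: the form `Σ x_i²` on `ι → F` has a totally singular subspace of dimension `d`. -/
def TSsq (F : Type*) [Field F] (ι : Type*) [Fintype ι] (d : ℕ) : Prop :=
  ∃ W : Submodule F (ι → F), Module.finrank F W = d ∧ ∀ w ∈ W, ∑ i, w i ^ 2 = 0

theorem tsSq_equiv {F ι κ : Type*} [Field F] [Fintype ι] [Fintype κ] (e : ι ≃ κ) {d : ℕ}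
    (h : TSsq F ι d) : TSsq F κ d := by
  obtain ⟨W, hW, hQ⟩ := h
  refine ⟨W.map (LinearEquiv.funCongrLeft F F e.symm : (ι → F) →ₗ[F] (κ → F)), ?_, ?_⟩
  · rw [LinearEquiv.finrank_map_eq]
    exact hW
  · rintro _ ⟨w, hw, rfl⟩
    have := hQ w hw
    rw [← this]
    exact Equiv.sum_comp e.symm (fun i => w i ^ 2)

theorem tsSq_blocks {F κ β : Type*} [Field F] [Fintype κ] [Fintype β] {d : ℕ}
    (h : TSsq F β d) : TSsq F (κ × β) (Fintype.card κ * d) := by
  classical
  obtain ⟨W₀, hW, hQ⟩ := h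
  let Φ : (κ → W₀) →ₗ[F] (κ × β → F) :=
    { toFun := fun f p => (f p.1 : β → F) p.2
      map_add' := fun f g => by ext p; rfl
      map_smul' := fun c f => by ext p; rfl }
  have hΦ : Function.Injective Φ := by
    intro f g hfg
    ext k j
    exact congrFun hfg (k, j)
  refine ⟨LinearMap.range Φ, ?_, ?_⟩
  · rw [LinearMap.finrank_range_of_inj hΦ, Module.finrank_pi_fintype]
    simp [hW]
  · rintro _ ⟨f, rfl⟩
    rw [Fintype.sum_prod_type]
    apply Finset.sum_eq_zero
    intro k _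
    exact hQ _ (f k).2

theorem tsSq_two {F : Type*} [Field F] (i : F) (hi : i ^ 2 = -1) : TSsq F (Fin 2) 1 := by
  let φ : F →ₗ[F] (Fin 2 → F) :=
    { toFun := fun x => ![x, i * x]
      map_add' := fun x y => by
        ext j
        fin_cases j <;> simp [mul_add]
      map_smul' := fun c x => by
        ext j
        fin_cases j <;> simp [mul_left_comm] }
  have hφ : Function.Injective φ := by
    intro x y hxy
    exact congrFun hxy 0
  refine ⟨LinearMap.range φ, ?_, ?_⟩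
  · rw [LinearMap.finrank_range_of_inj hφ, Module.finrank_self]
  · rintro _ ⟨x, rfl⟩
    rw [Fin.sum_univ_two]
    show x ^ 2 + (i * x) ^ 2 = 0
    linear_combination x ^ 2 * hi

theorem tsSq_four {F : Type*} [Field F] (a b : F) (hab : a ^ 2 + b ^ 2 = -1) :
    TSsq F (Fin 4) 2 := by
  let φ : (Fin 2 → F) →ₗ[F] (Fin 4 → F) :=
    { toFun := fun x => ![x 0, x 1, a * x 0 - b * x 1, b * x 0 + a * x 1]
      map_add' := fun x y => by
        ext j
        fin_cases j <;> simp <;> ring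
      map_smul' := fun c x => by
        ext j
        fin_cases j <;> simp <;> ring }
  have hφ : Function.Injective φ := by
    intro x y hxy
    ext j
    fin_cases j
    · exact congrFun hxy 0
    · exact congrFun hxy 1
  refine ⟨LinearMap.range φ, ?_, ?_⟩
  · rw [LinearMap.finrank_range_of_inj hφ, Module.finrank_fin_fun]
  · rintro _ ⟨x, rfl⟩
    rw [Fin.sum_univ_four]
    show x 0 ^ 2 + x 1 ^ 2 + (a * x 0 - b * x 1) ^ 2 + (b * x 0 + a * x 1) ^ 2 = 0
    linear_combination (x 0 ^ 2 + x 1 ^ 2) * hab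

theorem det_swapBlocks {F : Type*} [Field F] (m : ℕ) :
    (Matrix.fromBlocks (0 : Matrix (Fin m) (Fin m) F) (1 : Matrix (Fin m) (Fin m) F)
      (1 : Matrix (Fin m) (Fin m) F) (0 : Matrix (Fin m) (Fin m) F)).det = (-1) ^ m := by
  have h1 : Matrix.fromBlocks (0 : Matrix (Fin m) (Fin m) F) (1 : Matrix (Fin m) (Fin m) F)
        (1 : Matrix (Fin m) (Fin m) F) (0 : Matrix (Fin m) (Fin m) F) *
      Matrix.fromBlocks (1 : Matrix (Fin m) (Fin m) F) (0 : Matrix (Fin m) (Fin m) F)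
        (1 : Matrix (Fin m) (Fin m) F) (1 : Matrix (Fin m) (Fin m) F) =
      Matrix.fromBlocks (1 : Matrix (Fin m) (Fin m) F) (1 : Matrix (Fin m) (Fin m) F)
        (1 : Matrix (Fin m) (Fin m) F) (0 : Matrix (Fin m) (Fin m) F) := by
    rw [Matrix.fromBlocks_multiply]
    simp
  have h3 := congrArg Matrix.det h1
  rw [Matrix.det_mul, Matrix.det_fromBlocks_zero₁₂, Matrix.det_fromBlocks_one₁₁] at h3
  simp only [Matrix.det_one, mul_one, zero_sub, Matrix.det_neg, Fintype.card_fin] at h3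
  exact h3

theorem tsSq_det {F : Type*} [Field F] (h2 : (2 : F) ≠ 0) (m : ℕ)
    (h : TSsq F (Fin m ⊕ Fin m) m) : IsSquare ((-1 : F) ^ m) := by
  classical
  obtain ⟨W, hW, hQ⟩ := h
  -- polarization
  have hpol : ∀ w ∈ W, ∀ w' ∈ W, w ⬝ᵥ w' = 0 := by
    intro w hw w' hw'
    have h1 := hQ (w + w') (W.add_mem hw hw')
    have h3 := hQ w hw
    have h4 := hQ w' hw'
    have h5 : ∑ i, (w + w') i ^ 2 = ∑ i, w i ^ 2 + 2 * (w ⬝ᵥ w') + ∑ i, w' i ^ 2 := by
      simp only [dotProduct, Pi.add_apply, Finset.mul_sum, ← Finset.sum_add_distrib]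
      apply Finset.sum_congr rfl
      intros
      ring
    rw [h5, h3, h4] at h1
    have : 2 * (w ⬝ᵥ w') = 0 := by linear_combination h1
    exact (mul_eq_zero.mp this).resolve_left h2
  obtain ⟨W', hc⟩ := Submodule.exists_isCompl W
  have hW' : Module.finrank F W' = m := by
    have := Submodule.finrank_add_eq_of_isCompl hc
    rw [hW, Module.finrank_pi, Fintype.card_sum, Fintype.card_fin] at this
    omega
  obtain ⟨b, hb1⟩ : ∃ b : Module.Basis (Fin m ⊕ Fin m) F (Fin m ⊕ Fin m → F),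
      ∀ i, b (Sum.inl i) ∈ W := by
    refine ⟨((Module.finBasisOfFinrankEq F W hW).prod (Module.finBasisOfFinrankEq F W' hW')).map
      (Submodule.prodEquivOfIsCompl W W' hc), ?_⟩
    intro i
    rw [Module.Basis.map_apply, Submodule.coe_prodEquivOfIsCompl', Module.Basis.prod_apply_inl_fst,
      Module.Basis.prod_apply_inl_snd]
    simp
  obtain ⟨P, hPdef⟩ : ∃ P : Matrix (Fin m ⊕ Fin m) (Fin m ⊕ Fin m) F,
      P = Matrix.of (fun k j => b k j) := ⟨_, rfl⟩
  have hPdet : P.det ≠ 0 := by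
    have h1 : LinearIndependent F P.row := by
      have : P.row = ⇑b := by
        rw [hPdef]
        rfl
      rw [this]
      exact b.linearIndependent
    have h3 := Matrix.linearIndependent_rows_iff_isUnit.mp h1
    exact ((Matrix.isUnit_iff_isUnit_det P).mp h3).ne_zero
  obtain ⟨G, hGdef⟩ : ∃ G : Matrix (Fin m ⊕ Fin m) (Fin m ⊕ Fin m) F,
      G = P * P.transpose := ⟨_, rfl⟩
  have hG : ∀ k l, G k l = b k ⬝ᵥ b l := by
    intro k l
    rw [hGdef, hPdef]
    rfl
  obtain ⟨C, hC⟩ : ∃ C : Matrix (Fin m) (Fin m) F, C = G.toBlocks₁₂ := ⟨_, rfl⟩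
  obtain ⟨D, hD⟩ : ∃ D : Matrix (Fin m) (Fin m) F, D = G.toBlocks₂₂ := ⟨_, rfl⟩
  have hG11 : G.toBlocks₁₁ = 0 := by
    ext i j
    show G (Sum.inl i) (Sum.inl j) = 0
    rw [hG]
    exact hpol _ (hb1 i) _ (hb1 j)
  have hG21 : G.toBlocks₂₁ = C.transpose := by
    ext i j
    rw [hC]
    show G (Sum.inr i) (Sum.inl j) = G (Sum.inl j) (Sum.inr i)
    rw [hG, hG, dotProduct_comm]
  have hGblock : G = Matrix.fromBlocks 0 C C.transpose D := by
    rw [← hG11, ← hG21, hC, hD, Matrix.fromBlocks_toBlocks]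
  have hdetG : G.det = P.det * P.det := by
    rw [hGdef, Matrix.det_mul, Matrix.det_transpose]
  have hGJ : G * Matrix.fromBlocks (0 : Matrix (Fin m) (Fin m) F) (1 : Matrix (Fin m) (Fin m) F)
      (1 : Matrix (Fin m) (Fin m) F) (0 : Matrix (Fin m) (Fin m) F) =
      Matrix.fromBlocks C 0 D C.transpose := by
    rw [hGblock, Matrix.fromBlocks_multiply]
    simp
  have h6 := congrArg Matrix.det hGJ
  rw [Matrix.det_mul, det_swapBlocks, Matrix.det_fromBlocks_zero₁₂, Matrix.det_transpose,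
    hdetG] at h6
  refine ⟨C.det / P.det, ?_⟩
  field_simp
  linear_combination h6

end Cfsg.Agent.H17
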